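import Cfsg.Agent.H23.K0

/-! Part N89 of S5567: `N(2¹¹)` is not transitive on the involutions (namespace `H11.K89`). -/

set_option autoImplicit false

namespace H11.K89
open Subgroup
universe u

theorem md {G : Type*} [Group G] [Finite G] {W : Subgroup G} {x : G} {r : ℕ} [Fact r.Prime] (hx : x ^ r = 1)
    (h : ∀ a ∈ W, x * a * x⁻¹ ∈ W) : Nat.card W ≡ Nat.card ↥(W ⊓ centralizer {x}) [MOD r] := by
  classical
  have := Fintype.ofFinite W
  let f : Function.End W := fun a => ⟨x * a * x⁻¹, h _ a.2⟩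
  have e : ∀ n a, ((f ^ n) a).1 = x ^ n * a * (x ^ n)⁻¹ := fun n => by
    induction n with
    | zero => intro a; rw [pow_zero, pow_zero, one_mul, inv_one, mul_one]; rfl
    | succ n ih => intro a; rw [pow_succ]; show ((f ^ n) (f a)).1 = _; rw [ih]; simp [f, pow_succ, mul_assoc]
  have := Equiv.Perm.card_fixedPoints_modEq (f := f) (p := r) (n := 1) (funext fun a => Subtype.ext (by
    rw [pow_one, e, hx, one_mul, inv_one, mul_one]; rfl))
  rw [← Nat.card_eq_fintype_card, ← Nat.card_eq_fintype_card] at this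
  refine this.trans (by
    rw [Nat.card_congr (β := ↥(W ⊓ centralizer {x})) ⟨fun a => ⟨a.1.1, a.1.2, mem_centralizer_singleton_iff.2
      (mul_inv_eq_iff_eq_mul.1 (congrArg Subtype.val a.2)).symm⟩, fun a => ⟨⟨a.1, a.2.1⟩, Subtype.ext
        (mul_inv_eq_iff_eq_mul.2 (mem_centralizer_singleton_iff.1 a.2.2).symm)⟩, fun _ => rfl, fun _ => rfl⟩])

theorem core {N : Type*} [Group N] [Finite N] {A : Subgroup N} (sq : ∀ x ∈ A, x * x = 1) (cA : Nat.card A = 2048)
    (nM : ∀ m, ∀ x ∈ A, m * x * m⁻¹ ∈ A) (cen : ∀ m, (∀ x ∈ A, m * x = x * m) → m ∈ A) : Nat.card N ≠ 2047 * (2 ^ 21 * 135) := fun c => by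
  have := Fact.mk (by norm_num : Nat.Prime 89)
  obtain ⟨P⟩ : Nonempty (Sylow 89 N) := inferInstance
  have cP : Nat.card P = 89 := by rw [P.card_eq_multiplicity, c]; decide +kernel
  have h1 := card_sylow_modEq_one 89 N
  rw [P.card_eq_index_normalizer] at h1
  have h2 := (normalizer ((P : Subgroup N) : Set N)).card_mul_index
  obtain ⟨⟨x, xP⟩, hx⟩ := exists_prime_orderOf_dvd_card' (G := P) 89 cP.symm.dvd
  have hx : orderOf x = 89 := (orderOf_mk _ _).symm.trans hx
  have x89 : x ^ 89 = 1 := hx ▸ pow_orderOf_eq_one x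
  have od : ∀ y, A ⊓ centralizer {y} = A → orderOf y ∣ 2 := fun y e => orderOf_dvd_of_pow_eq_one (by
    rw [pow_two]; exact sq y (cen y fun a ha => (mem_centralizer_singleton_iff.1 (e.ge ha).2).symm))
  have k : ∀ W ≤ A, Nat.card W ≡ 1 [MOD 89] → Nat.card W = 1 ∨ W = A := fun W l e => by
    obtain ⟨j, hj, d⟩ := (Nat.dvd_prime_pow Nat.prime_two).1 ((cA.trans (by norm_num) : Nat.card A = 2 ^ 11) ▸ card_dvd_of_le l)
    have : j = 0 ∨ j = 11 := by rw [d] at e; interval_cases j <;> first | exact .inl rfl | exact .inr rfl | exact absurd e (by decide)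
    exact this.imp (fun a => by rw [d, a, pow_zero]) fun a => eq_of_le_of_card_ge l (by rw [d, a, cA]; norm_num)
  have F : A ⊓ centralizer {x} = ⊥ := card_eq_one.1 ((k _ inf_le_left ((md x89 (nM x)).symm.trans (by rw [cA]; decide))).resolve_right
    fun e => by have := od x e; rw [hx] at this; omega)
  have nr : ∀ r, r = 3 ∨ r = 5 → ¬ r ∣ Nat.card (normalizer ((P : Subgroup N) : Set N)) := fun r hr d => by
    have := Fact.mk (by rcases hr with rfl | rfl <;> norm_num : r.Prime)
    obtain ⟨⟨y, yP⟩, hy⟩ := exists_prime_orderOf_dvd_card' r d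
    have hy : orderOf y = r := (orderOf_mk _ _).symm.trans hy
    have yr : y ^ r = 1 := hy ▸ pow_orderOf_eq_one y
    have a1 := md (W := P) yr fun a ha => (mem_normalizer_iff.1 yP a).1 ha
    have a2 : (P : Subgroup N) ⊓ centralizer {y} = P := eq_of_le_of_card_ge inf_le_left (by
      rcases (Nat.dvd_prime (by norm_num : Nat.Prime 89)).1 (cP ▸ card_dvd_of_le (inf_le_left : (P : Subgroup N) ⊓ centralizer {y} ≤ P)) with e | e
      · rw [e, show Nat.card (P : Subgroup N) = 89 from cP] at a1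
        rcases hr with rfl | rfl <;> exact absurd a1 (by decide)
      · exact (cP.trans e.symm).le)
    have xy : x * y = y * x := mem_centralizer_singleton_iff.1 (a2.ge xP).2
    have a3 := md (W := A ⊓ centralizer {y}) x89 fun a ha => mem_inf.2 ⟨nM x a ha.1, mul_mem (mul_mem (mem_centralizer_singleton_iff.2 xy)
      (mem_inf.1 ha).2) (inv_mem (mem_centralizer_singleton_iff.2 xy))⟩
    rw [inf_right_comm, F, bot_inf_eq, card_bot] at a3
    rcases k _ inf_le_left a3 with e | e
    · have a4 := md yr (nM y)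
      rw [e, cA] at a4
      rcases hr with rfl | rfl <;> exact absurd a4 (by decide)
    · have := od y e
      rw [hy] at this
      rcases hr with rfl | rfl <;> omega
  obtain ⟨m, hm⟩ : 89 ∣ Nat.card (normalizer ((P : Subgroup N) : Set N)) := cP.symm.dvd.trans (card_dvd_of_le le_normalizer)
  obtain ⟨t, ht⟩ : 3 ^ 3 * 5 ∣ (normalizer ((P : Subgroup N) : Set N)).index := Nat.Coprime.dvd_of_dvd_mul_left
    (Nat.Coprime.mul_left (((Nat.Prime.coprime_iff_not_dvd Nat.prime_three).2 (nr 3 (.inl rfl))).pow_left 3)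
      ((Nat.Prime.coprime_iff_not_dvd Nat.prime_five).2 (nr 5 (.inr rfl)))) (by rw [h2, c]; norm_num)
  rw [hm, ht, c] at h2
  have e : t * m = 2 ^ 21 * 23 := by
    have : 89 * m * (3 ^ 3 * 5 * t) = 12015 * (t * m) := by ring
    omega
  obtain ⟨a, b, ha, hb, rfl⟩ := (Nat.dvd_mul).1 (Dvd.intro _ e)
  obtain ⟨j, hj, rfl⟩ := (Nat.dvd_prime_pow Nat.prime_two).1 ha
  have h3 : 3 ^ 3 * 5 * (2 ^ j * b) ≡ 1 [MOD 89] := ht ▸ h1
  rcases (Nat.dvd_prime (by norm_num : Nat.Prime 23)).1 hb with rfl | rfl <;> interval_cases j <;> exact absurd h3 (by decide)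

theorem n89 : Cfsg.Agent.H23.K.N89Stmt.{u} := by
  intro G _ _ A N sq cA AN nM cen
  exact core (A := A.subgroupOf N) (fun x hx => Subtype.ext (sq _ hx)) ((Nat.card_congr (subgroupOfEquivOfLe AN).toEquiv).trans cA)
    (fun m x hx => nM m m.2 x hx) fun m h => cen m m.2 fun x hx => congrArg Subtype.val (h ⟨x, AN hx⟩ hx)

end H11.K89
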