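import Cfsg.Agent.H11.TwS
import Cfsg.Agent.H15.Glue
import Cfsg.Agent.H15.Tails

/-! The Schur multiplier of `³D₄(2)` at the prime 2 (`D42.noStem`). -/

set_option maxRecDepth 100000

namespace H11
open Cfsg Cfsg.Lie StSys Equiv

section
variable {D : ChevalleyDatum} [Good D] [Cert D] {K G : Type*} [Field K] [Group G] {S : StSys D K G} {M P : Subgroup G}

omit [Cert D] in
theorem le_of_vc (hP : P ≤ M) (h : ∀ m, IsPos m → Vc S (phiV D) M m ⊆ Vc S (phiV D) P m) : S.U ⊓ M ≤ P := fun g hg =>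
  lev_induction reg_phiV {r | 0 < fv (phiV D) r} (P := fun T => S.US T ⊓ M ≤ P) (by simp) (fun m hm ih g hg => by
    obtain ⟨t, ht⟩ := exists_co hm hg.1
    obtain ⟨a, b, c⟩ := h m (isPos_iff_phi.2 hm) ⟨g, hg.2, ht⟩
    simpa using mul_mem b (ih ⟨c.sub ht, M.mul_mem (M.inv_mem (hP b)) hg.2⟩)) 0
    ⟨US_mono (fun _ a => mem_lev.2 ⟨isPos_iff_phi.1 a, (isPos_iff_phi.1 a).le⟩) hg.1, hg.2⟩

variable {σ : MulAut G} {gr : ℕ → List (ℕ × ℤ × ℕ)} {θ : K → K} (I : IsTw S σ gr θ) {ρ : Perm (Node D)} {c f} {h : S.SimpAct σ ρ c f}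
  (T : Tw h M) {E : ℕ → ℕ} (v : ∀ r : Root D, (gr r).headI.1 < D.nroots ∧ gr r = [((gr r).headI.1, (gr r).headI.2.1, E r)])
include I v

theorem IsTw.R_val (r : Root D) : (h.R r).1 = (gr r).headI.1 := congrArg Fin.val (h.R_eq (s := ⟨_, (v r).1⟩) fun t =>
  ⟨(gr r).headI.2.1 * θ t ^ E r, by
    simpa [appW, xNat, (v r).1] using (I r t).trans (congrArg (fun l => H11.wordG S.x (appW l (θ t))) (v r).2)⟩)

include T

theorem vc_nm {m : Root D} (hm : IsPos m) (e : NM gr m) : Vc S (phiV D) M m ⊆ {0} := by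
  obtain ⟨s, hs, e | e⟩ := e
  · obtain rfl : h.R s = m := Fin.ext ((I.R_val v s).trans e)
    exact vc_zero (fun r => (h.onto_R r).1) (fun _ => h.isPos_R.2) (fun g hg => T.le hg) hm hs
  · obtain rfl : (h.R * h.R) s = m := Fin.ext ((I.R_val (h := h) v _).trans (by rwa [I.R_val v]))
    exact vc_zero (α := σ.toMonoidHom.comp σ.toMonoidHom) (fun r t => let ⟨_, a⟩ := (h.onto_R r).1 t; let ⟨b, c⟩ := (h.onto_R (h.R r)).1 _
      ⟨b, (congrArg σ a).trans c⟩) (fun r a => show IsPos (h.R (h.R r)) from h.isPos_R.2 (h.isPos_R.2 a))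
      (fun g hg => (congrArg σ (T.le hg)).trans (T.le hg)) hm hs

theorem vc_fx {m : Root D} (hm : IsPos m) (e : m.1 < D.nroots ∧ gr m = [(m.1, 1, 1)]) {s : K} (hs : s ∈ Vc S (phiV D) M m) : θ s = s :=
  vc_fix (fun r => (h.onto_R r).1) (fun _ => h.isPos_R.2) (fun _ hg => T.le hg) hm
    (Fin.ext ((I.R_val v m).trans (by rw [e.2]; rfl))) (fun t => by simpa using I.act1 e t) hs

end
end H11

namespace H11.D42
open Cfsg Cfsg.Lie StSys H13 H15 Pol

noncomputable def d2rl : List (List (List ℕ)) :=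
  [[[]],
  [[1], []],
  [[2], [2], []],
  [[3, 4, 7, 10, 11], [3, 5, 7, 8, 9, 10, 11], [3, 6, 7, 8, 10, 11], []],
  [[4, 10, 11], [4, 9, 10], [4, 8, 9, 10], [4], []],
  [[5, 9, 11], [5, 10, 11], [5, 7, 10], [5], [5], []],
  [[6, 8, 9, 11], [6, 7, 11], [6, 10, 11], [6], [6], [6], []],
  [[7, 10], [7], [7], [7], [7, 11], [7], [7], []],
  [[8], [8, 10], [8, 10], [8], [8], [8, 11], [8, 11], [8], []],
  [[9], [9], [9, 10], [9], [9], [9], [9, 11], [9], [9], []],
  [[10], [10], [10], [10, 11], [10], [10], [10], [10], [10], [10], []],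
  [[11], [11], [11], [11], [11], [11], [11], [11], [11], [11], [11], []]]

noncomputable def d2fr : List (ℕ × List ℕ × List ℕ) :=
  [(nat_lit 12, [0], [0, 2]),
  (nat_lit 12, [1], [0]),
  (nat_lit 12, [2], [1]),
  (nat_lit 12, [3], [3]),
  (nat_lit 12, [4], [4, 6]),
  (nat_lit 12, [5], [4]),
  (nat_lit 12, [6], [5]),
  (nat_lit 12, [7], [9]),
  (nat_lit 13, [4], [3, 4])]

noncomputable def d2D : PC :=
  ⟨nat_lit 2, nat_lit 12, nat_lit 24, nat_lit 1, nat_lit 14, nat_lit 71, nat_lit 9, d2rl, d2fr⟩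

noncomputable def d2cs : List (Cn × ℕ) :=
  [(.con [7] (nat_lit 7) (nat_lit 0), (nat_lit 0x90000000000000000000000000000000000)),
  (.con [7] (nat_lit 7) (nat_lit 4), (nat_lit 0x110000000000000000000000000000000000000)),
  (.con [8] (nat_lit 8) (nat_lit 1), (nat_lit 0xa0000000000000000000000000000000000)),
  (.con [8] (nat_lit 8) (nat_lit 5), (nat_lit 0x120000000000000000000000000000000000000)),
  (.con [9] (nat_lit 9) (nat_lit 2), (nat_lit 0xc0000000000000000000000000000000000)),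
  (.con [9] (nat_lit 9) (nat_lit 6), (nat_lit 0x140000000000000000000000000000000000000)),
  (.con [10] (nat_lit 10) (nat_lit 3), (nat_lit 0x180000000000000000000000000000000000000)),
  (.con [7] (nat_lit 0) (nat_lit 0), (nat_lit 0x80200000000000000000000000000000000)),
  (.con [7] (nat_lit 4) (nat_lit 4), (nat_lit 0x102000000000000000000000000000000000000)),
  (.con [8] (nat_lit 1) (nat_lit 1), (nat_lit 0x80400000000000000000000000000000000)),
  (.con [8] (nat_lit 2) (nat_lit 2), (nat_lit 0x80800000000000000000000000000000000)),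
  (.con [8] (nat_lit 5) (nat_lit 5), (nat_lit 0x104000000000000000000000000000000000000)),
  (.con [8] (nat_lit 6) (nat_lit 6), (nat_lit 0x108000000000000000000000000000000000000)),
  (.con [10] (nat_lit 3) (nat_lit 3), (nat_lit 0x101000000000000000000000000000000000000)),
  (.con [4] (nat_lit 4) (nat_lit 0), (nat_lit 0x182082000000000000000000000000000000000)),
  (.con [4] (nat_lit 4) (nat_lit 1), (nat_lit 0xc2042000000000000000000000000000000)),
  (.con [5] (nat_lit 5) (nat_lit 0), (nat_lit 0x144000044000000000000000000000000000000)),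
  (.con [5] (nat_lit 5) (nat_lit 1), (nat_lit 0x184084000000000000000000000000000000000)),
  (.con [5] (nat_lit 5) (nat_lit 2), (nat_lit 0x94000000014000000000000000000000000)),
  (.con [6] (nat_lit 6) (nat_lit 1), (nat_lit 0x118000000000018000000000000000000000000)),
  (.con [6] (nat_lit 6) (nat_lit 2), (nat_lit 0x188088000000000000000000000000000000000)),
  (.con [4] (nat_lit 0) (nat_lit 0), (nat_lit 0x180280200000000000000000000000000000000)),
  (.con [4] (nat_lit 1) (nat_lit 1), (nat_lit 0xc0440400000000000000000000000000000)),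
  (.con [5] (nat_lit 0) (nat_lit 0), (nat_lit 0x140200040200000000000000000000000000000)),
  (.con [5] (nat_lit 1) (nat_lit 1), (nat_lit 0x180480400000000000000000000000000000000)),
  (.con [5] (nat_lit 2) (nat_lit 2), (nat_lit 0x90800000010800000000000000000000000)),
  (.con [6] (nat_lit 1) (nat_lit 1), (nat_lit 0x110400000000010400000000000000000000000)),
  (.con [6] (nat_lit 2) (nat_lit 2), (nat_lit 0x180880800000000000000000000000000000000)),
  (.con [7] (nat_lit 1) (nat_lit 0), (nat_lit 0x400000000000000000000000000000000)),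
  (.con [7] (nat_lit 4) (nat_lit 3), (nat_lit 0x1000000000000000000000000000000000000)),
  (.con [4] (nat_lit 4) (nat_lit 2), (nat_lit 0xe2062022000000000000000000000000000)),
  (.con [4] (nat_lit 2) (nat_lit 2), (nat_lit 0x20860820800000000000000000000000000)),
  (.con [6] (nat_lit 0) (nat_lit 0), (nat_lit 0x160200060220200000000000000000000000000)),
  (.con [8] (nat_lit 4) (nat_lit 1), (nat_lit 0x62020000000000000000000000000000000)),
  (.con [9] (nat_lit 5) (nat_lit 2), (nat_lit 0x54010000000000000000000000000000000)),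
  (.con [6] (nat_lit 6) (nat_lit 0), (nat_lit 0x28000068028000000000000000000000000000)),
  (.con [8] (nat_lit 3) (nat_lit 0), (nat_lit 0x20020000012000000000000000000000000000)),
  (.con [9] (nat_lit 3) (nat_lit 0), (nat_lit 0x40040012000000000000000000000000000000)),
  (.con [7] (nat_lit 3) (nat_lit 2), (nat_lit 0x10010000010008000000000000000000000000)),
  (.con [5] (nat_lit 2) (nat_lit 1), (nat_lit 0x90810c00000000400000000000000000000000)),
  (.con [3] (nat_lit 3) (nat_lit 0), (nat_lit 0x11093000000013000000003000000000000000)),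
  (.con [6] (nat_lit 4) (nat_lit 1), (nat_lit 0x92018018000002000000000000000000000000)),
  (.con [6] (nat_lit 5) (nat_lit 0), (nat_lit 0x4c00002c004000000000000000000000000000)),
  (.con [3] (nat_lit 0) (nat_lit 0), (nat_lit 0x92202200000012200000002200000000000000)),
  (.con [4] (nat_lit 2) (nat_lit 1), (nat_lit 0x60c20c00400000000000000000000000000)),
  (.con [5] (nat_lit 2) (nat_lit 0), (nat_lit 0x10840210800000200000000000000000000000)),
  (.con [4] (nat_lit 3) (nat_lit 0), (nat_lit 0x83011000000002000000000000000000000000)),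
  (.con [3] (nat_lit 3) (nat_lit 2), (nat_lit 0x310b9000039019009000000000000000000000)),
  (.con [3] (nat_lit 2) (nat_lit 2), (nat_lit 0xb8808800038818808800000000000000000000)),
  (.con [5] (nat_lit 3) (nat_lit 0), (nat_lit 0xd7044013000004000002000000000000000000)),
  (.con [6] (nat_lit 3) (nat_lit 0), (nat_lit 0xfb068013013008002000000000000000000000)),
  (.con [3] (nat_lit 3) (nat_lit 1), (nat_lit 0x310f5075035015000005000000000000000000)),
  (.con [5] (nat_lit 3) (nat_lit 2), (nat_lit 0x3c02d00001400d004000000000000000000000)),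
  (.con [3] (nat_lit 1) (nat_lit 1), (nat_lit 0xb4444474434414400004400000000000000000)),
  (.con [3] (nat_lit 1) (nat_lit 0), (nat_lit 0xa6616632212206600002200400000000000000)),
  (.con [3] (nat_lit 2) (nat_lit 0), (nat_lit 0xcaa1aa2001220aa02200000800000000000000)),
  (.con [3] (nat_lit 2) (nat_lit 1), (nat_lit 0x1dccfcc2880cc0cc04400800000000000000000)),
  (.fus (nat_lit 12) [1, 1] [], (nat_lit 0x400200)),
  (.fus (nat_lit 12) [2, 2] [], (nat_lit 0x800400000)),
  (.fus (nat_lit 12) [5, 5] [], (nat_lit 0x4002000000000000000)),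
  (.fus (nat_lit 12) [6, 6] [], (nat_lit 0x8004000000000000000000)),
  (.fus (nat_lit 12) [0, 0] [], (nat_lit 0xa00000000)),
  (.fus (nat_lit 12) [4, 4] [], (nat_lit 0xa000000000000000000000)),
  (.fus (nat_lit 12) [2, 1] [1, 2], (nat_lit 0x400200000)),
  (.fus (nat_lit 12) [5, 3] [3, 5], (nat_lit 0x1001000000000000000)),
  (.fus (nat_lit 12) [6, 3] [3, 6], (nat_lit 0x1001000000000000000000)),
  (.fus (nat_lit 12) [7, 3] [3, 7], (nat_lit 0x1000001000000000000000000000000)),
  (.fus (nat_lit 12) [1, 0] [0, 1], (nat_lit 0x200200000)),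
  (.fus (nat_lit 12) [2, 0] [0, 2], (nat_lit 0x600200000)),
  (.fus (nat_lit 13) [8, 8] [], (nat_lit 0x1001000000000000))]

noncomputable def d2Fs : List ℕ :=
  [(nat_lit 0),
  (nat_lit 0),
  (nat_lit 0),
  (nat_lit 0),
  (nat_lit 0x2000000800000200000000000),
  (nat_lit 0x2200000800800400000000000),
  (nat_lit 0x2000000800c00800000000000),
  (nat_lit 0x200000800000000000000000),
  (nat_lit 0xc00000000000000),
  (nat_lit 0x200000000400000000000000),
  (nat_lit 0x200000000000000000000000),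
  (nat_lit 0x2000000000000000000000000)]

noncomputable def d2la : List (List ℕ) :=
  [[(nat_lit 0x10a600000000000000)],
  [(nat_lit 0x188000000000000000), (nat_lit 0x10a400000000000000)],
  [(nat_lit 0x108000000000000000), (nat_lit 0x180000000000000000), (nat_lit 0x10a000000000000000)],
  [(nat_lit 0), (nat_lit 0), (nat_lit 0), (nat_lit 0x274004c25a0018a132)],
  [(nat_lit 0x1500c0f867d2e1310), (nat_lit 0), (nat_lit 0), (nat_lit 0x74004c25a0018a132), (nat_lit 0x1500c0706600e5113)],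
  [(nat_lit 0x2104a84bb291ccbd3), (nat_lit 0x1582c31b6111a3386), (nat_lit 0), (nat_lit 0x64004c25a0018a132), (nat_lit 0x2100a847c4012b960), (nat_lit 0x1580c0706600e5113)],
  [(nat_lit 0x1088c07c507bef469), (nat_lit 0x61118f434f65e50e3), (nat_lit 0x1480d259c9f06a79a), (nat_lit 0x44004c25a0018a132), (nat_lit 0x1080c0706600e5113), (nat_lit 0x61018c23e70131a19), (nat_lit 0x1480c0706600e5113)],
  [(nat_lit 0), (nat_lit 0x8018000003), (nat_lit 0x800f000440), (nat_lit 0x6100884dc7d16b262), (nat_lit 0), (nat_lit 0x802d062800), (nat_lit 0x803d083243), (nat_lit 0x801d000241)],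
  [(nat_lit 0xd14d889040), (nat_lit 0x3022084080e2), (nat_lit 0x20f0c50851fe), (nat_lit 0x31800836a3000f230), (nat_lit 0xd03d08324c), (nat_lit 0x6223011a337), (nat_lit 0x2f86d187023), (nat_lit 0xc00d081040), (nat_lit 0xd25d08d31c)],
  [(nat_lit 0x2430a2ebd1), (nat_lit 0x242042eb21), (nat_lit 0x200418020e83), (nat_lit 0x2100884dc7d16b262), (nat_lit 0x2400020861), (nat_lit 0x241003c311), (nat_lit 0x20430123b52), (nat_lit 0x430022a51), (nat_lit 0x230006354), (nat_lit 0x243002eb31)],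
  [(nat_lit 0x10000280), (nat_lit 0x10000000), (nat_lit 0x10000600), (nat_lit 0x400030000341), (nat_lit 0x30006340), (nat_lit 0x30022a40), (nat_lit 0x30103240), (nat_lit 0x10000201), (nat_lit 0x10000204), (nat_lit 0x10000210), (nat_lit 0x10000200)],
  [(nat_lit 0x2000c0), (nat_lit 0x1000240), (nat_lit 0x8000440), (nat_lit 0x20000000), (nat_lit 0x20002100), (nat_lit 0x20002800), (nat_lit 0x20003000), (nat_lit 0x20002002), (nat_lit 0x20002008), (nat_lit 0x20002020), (nat_lit 0x20002040), (nat_lit 0x20002000)]]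

theorem d2ok : d2D.ok = true := by decide +kernel

theorem d2cn : Nat.beq d2cs.length 70 = true := by decide +kernel

theorem d2h3 : band (Nat.ble d2cs.length d2D.fuel) (allL (fun f => force (d2D.wd f) (bdOk d2D.b d2D.N d2D.t)) d2Fs) = true := by decide +kernel

theorem d2c_0 : rng (fun i => cnOk d2D (nthD (.con [] 0 0, 0) d2cs i)) (nat_lit 0) (nat_lit 70) = true := by decide +kernel

theorem d2t_0 : tgAll d2D d2cs d2Fs d2la (nat_lit 0) (nat_lit 12) = true := by decide +kernel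

theorem d2c : ∀ i < 70, (fun i => cnOk d2D (nthD (.con [] 0 0, 0) d2cs i)) i = true :=
  (rng_add rng_zero d2c_0)

theorem d2ns {G : Type*} [Group G] [Finite G] {g : ℕ → G} (R : PcRel d2D g)
    (hP : d2D.p ^ d2D.n ≤ Nat.card (Subgroup.closure (g '' Set.Iio d2D.n))) (hG : ¬ 2 ^ 13 ∣ Nat.card G) :
    NoStem 2 G :=
  noStem_of (D := d2D) (show Nat.Prime 2 by norm_num) d2ok R (allR d2cn d2c) (rng_add rng_zero (tgAll_rng d2t_0)) d2h3 hP hG

/-- the letters -/
def W (i : ℕ) : PW := ([[(12, [(1, 1)]), (18, [(1, 1)]), (13, [(1, 1)])],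
  [(12, [(2, 1)]), (18, [(4, 1)]), (13, [(2, 1), (4, 1)])],
  [(12, [(4, 1)]), (18, [(2, 1), (4, 1)]), (13, [(2, 1)])],
  [(14, [(1, 1)])],
  [(15, [(1, 1)]), (19, [(1, 1)]), (16, [(1, 1)])],
  [(15, [(2, 1)]), (19, [(4, 1)]), (16, [(2, 1), (4, 1)])],
  [(15, [(4, 1)]), (19, [(2, 1), (4, 1)]), (16, [(2, 1)])],
  [(17, [(1, 1)]), (20, [(1, 1)]), (21, [(1, 1)])],
  [(17, [(2, 1)]), (20, [(4, 1)]), (21, [(2, 1), (4, 1)])],
  [(17, [(4, 1)]), (20, [(2, 1), (4, 1)]), (21, [(2, 1)])],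
  [(22, [(1, 1)])],
  [(23, [(1, 1)])],
  [],
  [(11, [(1, 1)]), (5, [(1, 1)]), (10, [(1, 1)])]] : List PW).getD i []

/-- exponents of the torus element -/
def eh (r : ℕ) : ℕ := [0, 0, 1, 4, 5, 5, 2, 3, 6, 0, 3, 6, 1, 4, 0, 1, 4, 5, 2, 2, 3, 6, 0, 0].getD r 0

/-- powers of the generator of the field with 8 elements -/
def pw (k : ℕ) : Pol :=
  [[(1, 1)], [(2, 1)], [(4, 1)], [(1, 1), (2, 1)], [(2, 1), (4, 1)], [(1, 1), (2, 1), (4, 1)], [(1, 1), (4, 1)]].getD (k % 7) []

/-- reduction of a polynomial -/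
noncomputable def rd (a : Pol) : Pol :=
  a.foldr (fun e b => add 2 (mul 2 (C 2 e.2) (if e.1 = 2 ^ e.1.log2 then pw e.1.log2 else [(e.1, 1)])) b) []

/-- normal form -/
noncomputable def nf (w : PW) : PW := (fastD4.col 2 50 4 w).foldr (fun e u => consW e.1 (rd e.2) u) []

set_option synthInstance.maxSize 2000 in
theorem chk : (∀ j < 12, ∀ i ≤ j, (∀ l ∈ d2D.lhs j i ++ d2D.rhs j i, l ≠ 12) ∧ nf ((d2D.lhs j i).flatMap W) = nf ((d2D.rhs j i).flatMap W)) ∧
    (∀ f ∈ d2fr, (∀ l ∈ f.2.1 ++ f.2.2, l ≠ 12) ∧ (f.1 = 12 ∧ nf (f.2.1.flatMap W) = nf ((f.2.2.flatMap W).map fun e => (e.1, mul 2 (pw (eh e.1)) e.2)) ∨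
      f.1 ≠ 12 ∧ nf ((f.2.1 ++ [f.1]).flatMap W) = nf ((f.1 :: f.2.2).flatMap W))) ∧
    (∀ i < 14, (∀ a ∈ (W i).map Prod.fst, a < 24) ∧ nf ((W i).flatMap fun e => appP 2 (grD4a e.1) (pow 2 e.2 2)) = nf (W i) ∧
      ((∀ r : Root chevD4, r.1 ∈ (W i).map Prod.fst → IsPos r) ∨ ∀ r : Root chevD4, r.1 ∈ (W i).map Prod.fst → ¬ IsPos r)) ∧
    (∀ r : Root chevD4, (7 : ℤ) ∣ fv (gam symD4a 3 2 [1, 0, 0, 0]) r - eh r) ∧ ∀ m : Root chevD4, IsPos m → NM grD4a m ∨
      (∀ k < 3, ∃ i < 12, W i = (m.1, pw k) :: (W i).tail ∧ ∀ r : Root chevD4, r.1 ∈ (W i).tail.map Prod.fst → m < r) ∨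
      grD4a m = [(m.1, 1, 1)] ∧ ∃ i < 12, W i = [(m.1, pw 0)] := by
  refine ⟨?_, ?_, ?_, ?_, ?_⟩ <;> decide +kernel

variable {K : Type*} [Field K] {G : Type*} [Group G] {ω : K} (h2 : ((2 : ℕ) : K) = 0) (h3 : ω ^ 3 = ω + 1)
include h2 h3

theorem ev_pw (k : ℕ) : ev (fun _ => ω) (pw k) = ω ^ k := by
  have h0 : (2 : K) = 0 := h2
  have h4 : mono (fun _ => ω) 4 = ω ^ 2 := by rw [show 4 = 2 * 2 from rfl, mono_mul, mono_prime _ Nat.prime_two, sq]
  have h7 : ω ^ 7 = 1 := by linear_combination (ω ^ 4 + ω ^ 2 + ω + 1) * h3 + (ω ^ 2 + ω) * h0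
  rw [← Nat.mod_add_div k 7, pow_add, pow_mul, h7, one_pow, mul_one, pw, Nat.add_mul_mod_self_left, Nat.mod_mod]
  have := Nat.mod_lt k (show 0 < 7 by decide)
  interval_cases k % 7 <;> simp [ev_cons, h4, mono_prime _ Nat.prime_two]
  · linear_combination -h3
  · linear_combination -ω * h3
  · linear_combination -(ω ^ 2 + 1) * h3
  · linear_combination -(ω ^ 3 + ω + 1) * h3 - ω * h0

theorem ev_rd (a : Pol) : ev (fun _ => ω) (rd a) = ev (fun _ => ω) a := by
  have h0 : ∀ k, mono (fun _ => ω) (2 ^ k) = ω ^ k := fun k => by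
    induction k with
    | zero => simp
    | succ k ih => rw [pow_succ, mono_mul, ih, mono_prime _ Nat.prime_two, pow_succ]
  induction a with
  | nil => rfl
  | cons e a ih =>
    rw [rd, List.foldr_cons, ev_add _ h2, ← rd, ih, ev_mul _ h2, ev_C _ h2, ev_cons]
    split_ifs with h
    · rw [ev_pw h2 h3, ← h0, ← h]
    · simp [ev_cons]

theorem nf_eq {x : Root chevD4 → K → G} (hx : StRel x) {w w' : PW} (e : nf w = nf w') :
    wordG x (evW (fun _ => ω) w) = wordG x (evW (fun _ => ω) w') := by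
  have key : ∀ w, wordG x (evW (fun _ => ω) (nf w)) = wordG x (evW (fun _ => ω) w) := fun w => by
    rw [← wordG_col agreeD4 hx h2 _ 50 4 w, nf]
    induction fastD4.col 2 50 4 w with
    | nil => rfl
    | cons e u ih =>
      rw [List.foldr_cons, evW_cons, wordG_cons, ← ih, ← ev_rd h2 h3]
      cases rd e.2
      exacts [by simp [consW, hx.xNat_zero], rfl]
  rw [← key, e, key]

omit h2 h3 in
theorem exists_gen [Finite K] (h2 : ((2 : ℕ) : K) = 0) (hK : Nat.card K = 2 ^ 3) : ∃ ω : Kˣ, (ω : K) ^ 3 = ω + 1 ∧ orderOf ω = 7 := by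
  obtain ⟨u, hu⟩ := IsCyclic.exists_ofOrder_eq_natCard (α := Kˣ)
  rw [Nat.card_units, hK] at hu
  have h0 : (2 : K) = 0 := h2
  have h1 : (u : K) ^ 7 = 1 := congrArg Units.val (hu ▸ pow_orderOf_eq_one u :)
  have h3 : (u : K) - 1 ≠ 0 := fun e => by simp [show u = 1 from Units.ext (sub_eq_zero.1 e)] at hu
  rcases mul_eq_zero.1 (mul_left_cancel₀ h3 (show _ * (((u : K) ^ 3 - u - 1) * (u ^ 3 - u ^ 2 - 1)) = _ * 0 by
    linear_combination h1 + (-u ^ 6 + u ^ 3) * h0)) with e | e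
  · exact ⟨u, by linear_combination e, hu⟩
  · exact ⟨u⁻¹, by simp only [Units.val_inv_eq_inv_val]; field_simp; linear_combination -e - u ^ 2 * h0 , by rwa [orderOf_inv]⟩

omit h2 h3 in
theorem noStem.{u} {G : Type u} [Group G] [Finite K] {S : StSys chevD4 K G} {θ : K ≃+* K} (F : FrF 3 2 θ) {σ : MulAut G}
    (h : IsTw S σ grD4a θ) (hg : S.grp = ⊤) : NoStem 2 (Subgroup.closure (wordG S.x '' d4Words K 2)) := by
  have := S.finite_of_gen hg
  obtain ⟨p, _⟩ := CharP.exists K
  have := Fact.mk (CharP.char_is_prime K p)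
  obtain rfl := (Nat.prime_dvd_prime_iff_eq Fact.out Nat.prime_two).1 (F.char_dvd p)
  have h2 := CharP.cast_eq_zero K 2
  obtain ⟨ω, h3, h7⟩ := exists_gen h2 F.card
  obtain ⟨c1, c2, c3, c4, c5⟩ := chk
  have T := TD4.tw F h hg
  have hT := TD4.tor_mem F S.hMul_of_finite _ (gam_mem F slD_D4.1 [1, 0, 0, 0] ω)
  set M := Subgroup.closure (wordG S.x '' d4Words K 2)
  set y := torS S.hMul_of_finite fun i => ω ^ gam symD4a 3 2 [1, 0, 0, 0] i
  let e := fun w => wordG S.x (evW (fun _ => ω.1) w)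
  have a0 : ∀ w : PW, (evW (fun _ => ω.1) w).map Prod.fst = w.map Prod.fst := fun w => by simp [evW]
  have a1 : ∀ i, e (W i) ∈ M := fun i => by
    rcases lt_or_ge i 14 with hi | hi
    · obtain ⟨a, b, c⟩ := c3 i hi
      have : e (W i) ∈ fixS σ := mem_fixS.2 ((h.wordG (a0 _) a).trans (.trans (by
        simp [evW, List.flatMap_map, List.map_flatMap, appP, appW, F.eq, ev_mul _ h2, ev_pow _ h2, ev_C _ h2, Function.comp_def])
          (nf_eq h2 h3 S.rel b)))
      exact c.elim (fun c => T.U_le ⟨wordG_mem (a0 _) c, this⟩) fun c => T.V_le ⟨wordG_mem (a0 _) c, this⟩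
    · rw [W, List.getD_eq_default _ _ (by exact hi)]; exact one_mem _
  let g : ℕ → M := fun i => if i = 12 then ⟨y, hT⟩ else ⟨_, a1 i⟩
  have a2 : ∀ u : List ℕ, (∀ l ∈ u, l ≠ 12) → evalW (fun i => M.subtype (g i)) u = e (u.flatMap W) := fun u hu => by
    induction u with
    | nil => rfl
    | cons l u ih => simp_all [g, e, evW_append, wordG_append]
  have a3 : ∀ w, y * e w * y⁻¹ = e (w.map fun e => (e.1, mul 2 (pw (eh e.1)) e.2)) := fun w => by
    induction w with
    | nil => simp [e]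
    | cons a w ih =>
      simp only [e, List.map_cons, evW_cons, wordG_cons] at ih ⊢
      rw [← ih, ← conj_mul, xNat, xNat]
      split_ifs with ha
      · have := (Int.modEq_iff_dvd.2 (c4 ⟨_, ha⟩)).symm
        rw [show (7 : ℤ) = orderOf ω by rw [h7]; rfl, ← zpow_eq_zpow_iff_modEq] at this
        rw [torS_conj, chiOf_zpow, ev_mul _ h2, ev_pw h2 h3, ← Units.val_pow_eq_pow_val, ← zpow_natCast, this]
      · simp
  have hU : Nat.card ↥(S.U ⊓ M) = 2 ^ 12 := TD4.card_U F h hg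
  refine d2ns (g := g) (.of_map M.subtype_injective ⟨fun j hj i hi => ?_, fun f hf => ?_⟩) ?_ fun a => ?_
  · rw [a2 _ fun l a => (c1 j hj i hi).1 l (by simp [a]), a2 _ fun l a => (c1 j hj i hi).1 l (by simp [a])]
    exact nf_eq h2 h3 S.rel (c1 j hj i hi).2
  · obtain ⟨a, ⟨b, c⟩ | ⟨b, c⟩⟩ := c2 f hf <;> rw [a2 _ fun l b => a l (by simp [b]), a2 _ fun l b => a l (by simp [b])]
    · simp [b, g, show e _ = e _ from nf_eq h2 h3 S.rel c, ← a3]
    · simpa [g, b, e, evW_append, wordG_append] using nf_eq h2 h3 S.rel c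
  · set P := (Subgroup.closure (g '' Set.Iio d2D.n)).map M.subtype
    have a4 : ∀ i < 12, e (W i) ∈ P := fun i hi => ⟨g i, Subgroup.subset_closure ⟨i, hi, rfl⟩, by simp [g, hi.ne]⟩
    have a5 : ∀ m, IsPos m → Vc S (phiV _) M m ⊆ Vc S (phiV _) P m := fun m hm t ht => by
      have hm' := isPos_iff_phi.1 hm
      rcases c5 m hm with a | a | ⟨a, i, hi, b⟩
      · exact (vc_nm (E := fun _ => 1) h T slD_D4.2.1 hm a ht).symm ▸ Vc.zero
      · have a6 : ∀ k < 3, (ω : K) ^ k ∈ Vc S (phiV _) P m := fun k hk => let ⟨i, hi, b, c⟩ := a k hk; ⟨_, a4 i hi, by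
          rw [b, ← ev_pw h2 h3]
          simpa [e] using co_mul_x (wordG_mem (a0 _) fun r hr => by have := phi_lt_iff.2 (c r hr); exact ⟨hm'.trans this, this⟩) _⟩
        rcases eq_or_ne t 0 with rfl | h0
        · exact Vc.zero
        obtain ⟨k, hk⟩ : .mk0 t h0 ∈ Submonoid.powers ω := mem_powers_iff_mem_zpowers.2 ((Subgroup.eq_top_of_card_eq _ (by
          rw [Nat.card_zpowers, h7, Nat.card_units, F.card]; rfl)).ge trivial)
        rw [show t = ω ^ k from (congrArg Units.val hk).symm, ← ev_pw h2 h3, pw]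
        have := Nat.mod_lt k (show 0 < 7 by decide)
        have b0 := a6 0 (by decide); have b1 := a6 1 (by decide); have b2 := a6 2 (by decide)
        rw [← ev_pw h2 h3] at b0 b1 b2
        interval_cases k % 7
        exacts [b0, b1, b2, by simpa [pw, ev_cons] using Vc.add hm' b0 b1, by simpa [pw, ev_cons] using Vc.add hm' b1 b2,
          by simpa [pw, ev_cons] using Vc.add hm' b0 (Vc.add hm' b1 b2), by simpa [pw, ev_cons] using Vc.add hm' b0 b2]
      · have := vc_fx (E := fun _ => 1) h T slD_D4.2.1 hm ⟨m.2, a⟩ ht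
        rw [F.eq, sq, mul_right_eq_self₀] at this
        rcases this with rfl | rfl
        exacts [⟨_, a4 i hi, by simp [b, e, Co, ev_pw h2 h3]⟩, Vc.zero]
    rw [← Subgroup.card_map_of_injective M.subtype_injective]
    exact hU.ge.trans (Subgroup.card_le_of_le (le_of_vc (Subgroup.map_subtype_le _) a5))
  · rw [← (S.U.subgroupOf M).card_mul_index, ← Subgroup.inf_subgroupOf_right,
      Nat.card_congr (Subgroup.subgroupOfEquivOfLe inf_le_right).toEquiv, hU, pow_succ, Nat.mul_dvd_mul_iff_left (by positivity),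
      Subgroup.inf_subgroupOf_right] at a
    exact T.not_dvd_index (TD4.hq F h) dvd_rfl a

end H11.D42
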