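import Cfsg.Agent.H11.TwOD
import Cfsg.Agent.H11.TwQ
import Cfsg.Agent.H11.Tori

/-! Two-element generation of twisted groups: root subgroups (`PL`) and Weyl elements (`WL`) inside a subgroup, Steinberg's
extraction of a root subgroup (`extract`). -/

namespace H11
open Cfsg Cfsg.Lie Equiv StSys Subgroup

variable {K G : Type*} [Field K] [Group G]

theorem two_gen_of {G' : Type*} [Group G'] {ι : G' →* G} (hι : Function.Injective ι) {a b : G} (ha : a ∈ ι.range) (hb : b ∈ ι.range)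
    (h : ι.range ≤ closure {a, b}) : ∃ a b : G', closure ({a, b} : Set G') = ⊤ := by
  obtain ⟨a, rfl⟩ := ha
  obtain ⟨b, rfl⟩ := hb
  refine ⟨a, b, eq_top_iff.2 fun g _ => ?_⟩
  have := h ⟨g, rfl⟩
  rw [← Set.image_pair, ← MonoidHom.map_closure] at this
  exact (mem_map_iff_mem hι).1 this

theorem cj_mem {A : Subgroup G} {g y : G} (h1 : g ∈ A) (h2 : y ∈ A) : g * y * g⁻¹ ∈ A := mul_mem (mul_mem h1 h2) (inv_mem h1)

theorem extract {A : Subgroup G} {C : K → G → Prop} (h0 : C 0 1) (hm : ∀ s t g g', C s g → C t g' → C (s + t) (g * g'))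
    (hi : ∀ s g, C s g → C (-s) g⁻¹) {y n x : G} {a b : K} (ha : ∀ t g, C t g → C (a * t) (y * g * y⁻¹))
    (hb : ∀ t g, C t g → C (b * t) (n * y * n⁻¹ * g * (n * y * n⁻¹)⁻¹)) (hc : y * (n * y * n⁻¹) = n * y * n⁻¹ * y) (hx : C 1 x)
    (a1 : a ≠ 1) (b1 : b ≠ 1) (hg : ∀ R : Subring K, a ∈ R → R = ⊤) (hy : y ∈ A) (hn : x * n ∈ A) (t : K) : ∃ g ∈ A, C t g := by
  let R : Subring K :=
    { carrier := {k | ∀ t, (∃ g ∈ A, C t g) → ∃ g ∈ A, C (k * t) g}
      one_mem' := fun t h => by rwa [one_mul]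
      zero_mem' := fun t _ => ⟨1, one_mem _, by rwa [zero_mul]⟩
      mul_mem' := fun h h' t e => by rw [mul_assoc]; exact h _ (h' t e)
      add_mem' := fun h h' t e => by
        obtain ⟨g, h1, h2⟩ := h t e
        obtain ⟨g', h3, h4⟩ := h' t e
        exact ⟨_, mul_mem h1 h3, by rw [add_mul]; exact hm _ _ _ _ h2 h4⟩
      neg_mem' := fun h t e => by
        obtain ⟨g, h1, h2⟩ := h t e
        exact ⟨_, inv_mem h1, by rw [neg_mul]; exact hi _ _ h2⟩ }
  have e := mul_mem (cj_mem hy (cj_mem hn hy)) (inv_mem (cj_mem hn hy))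
  have e' := hm _ _ _ _ (hm _ _ _ _ (hm _ _ _ _ (ha _ _ hx) (ha _ _ (hb _ _ (hi _ _ hx)))) (hb _ _ hx)) (hi _ _ hx)
  rw [show x * n * y * (x * n)⁻¹ = x * (n * y * n⁻¹) * x⁻¹ by group] at e
  generalize n * y * n⁻¹ = z at *
  rw [show y * x * y⁻¹ * (y * (z * x⁻¹ * z⁻¹) * y⁻¹) * (z * x * z⁻¹) * x⁻¹ = y * x * z * x⁻¹ * (y * z)⁻¹ * (z * x * z⁻¹ * x⁻¹) by group,
    hc, show a * 1 + a * (b * -1) + b * 1 + -1 = -((a - 1) * (b - 1)) by ring] at e'
  have s0 := neg_ne_zero.2 (mul_ne_zero (sub_ne_zero.2 a1) (sub_ne_zero.2 b1))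
  have := (hg R fun t ⟨g, h1, h2⟩ => ⟨_, cj_mem hy h1, ha _ _ h2⟩).ge (Subring.mem_top (t / -((a - 1) * (b - 1)))) _ ⟨_, e, by convert e' using 1; group⟩
  rwa [div_mul_cancel₀ _ s0] at this

theorem top_of_gen [Finite K] {t : Kˣ} (ht : ∀ d, d ∈ zpowers t) (R : Subring K) (h : (t : K) ^ 2 ∈ R) : R = ⊤ := by
  have k (x : K) : x * x ∈ R := by
    by_cases x0 : x = 0
    · simp [x0]
    obtain ⟨n, hn⟩ := mem_powers_iff_mem_zpowers.2 (ht (.mk0 x x0))
    have e : (t : K) ^ n = x := by simpa using congrArg Units.val hn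
    rw [← e, ← sq, ← pow_mul, mul_comm, pow_mul]; exact pow_mem h n
  refine eq_top_iff.2 fun x _ => ?_
  by_cases h2 : ringChar K = 2
  · obtain ⟨y, rfl⟩ := FiniteField.isSquare_of_char_two h2 x
    exact k y
  · have := Ring.two_ne_zero h2
    convert sub_mem (k ((x + 1) / 2)) (k ((x - 1) / 2)) using 1
    field_simp; ring

theorem top_of_inv [Finite K] {t : Kˣ} (ht : ∀ d, d ∈ zpowers t) (R : Subring K) (h : (↑t⁻¹ : K) ∈ R) : R = ⊤ :=
  top_of_gen (t := t⁻¹) (by simpa using ht) R (pow_mem h 2)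

open Polynomial in
theorem FrF.exists_trace {k q : ℕ} {θ : K ≃+* K} (F : FrF (k + 1) q θ) {v : K} (hv : θ v = v) :
    ∃ t, ∑ i ∈ Finset.range (k + 1), θ^[i] t = v := by
  have := F.finite
  have := Fintype.ofFinite K
  have e (i : ℕ) (t : K) : θ^[i] t = t ^ q ^ i := by
    induction i with
    | zero => simp
    | succ i ih => rw [Function.iterate_succ_apply', ih, F.eq, ← pow_mul, pow_succ]
  obtain ⟨t, ht⟩ : ∃ t : K, ∑ i ∈ Finset.range (k + 1), θ^[i] t ≠ 0 := by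
    by_contra! h
    have := congrArg (coeff · 1) (eq_zero_of_natDegree_lt_card_of_eval_eq_zero (∑ i ∈ Finset.range (k + 1), (X : K[X]) ^ q ^ i)
      Function.injective_id (fun t => by simpa [e, eval_finsetSum] using h t) (lt_of_le_of_lt (natDegree_sum_le_of_forall_le _ _ (n := q ^ k)
        fun i hi => by simpa using Nat.pow_le_pow_right F.lt.le (by simpa [Nat.lt_succ_iff] using hi)) (by
        rw [← Nat.card_eq_fintype_card, F.card]; exact Nat.pow_lt_pow_right F.lt (by omega))))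
    simp [Finset.sum_range_succ', coeff_X_pow, eq_comm (a := 1), F.lt.ne'] at this
  have h1 : θ (∑ i ∈ Finset.range (k + 1), θ^[i] t) = ∑ i ∈ Finset.range (k + 1), θ^[i] t := by
    rw [map_sum, Finset.sum_range_succ, Finset.sum_range_succ', ← Function.iterate_succ_apply' θ, F.iter]
    simp only [Function.iterate_succ_apply']; rfl
  refine ⟨v / (∑ i ∈ Finset.range (k + 1), θ^[i] t) * t, Eq.trans ?_ (div_mul_cancel₀ _ ht)⟩
  rw [Finset.mul_sum]
  refine Finset.sum_congr rfl fun i _ => ?_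
  rw [iterate_map_mul, Function.iterate_fixed (by rw [map_div₀, hv, h1])]

variable {D : ChevalleyDatum} [Good D] [Cert D] {S : StSys D K G} {σ : MulAut G} {A : Subgroup G}

variable (S σ A) in
/-- the fixed points in the product of the root subgroups of `L` lie in `A` -/
def PL (L : List ℕ) : Prop := S.US {r | r.1 ∈ L} ⊓ fixS σ ≤ A

variable (S A) in
/-- the Weyl element with word `l` is represented in `A` -/
def WL (l : List (Node D)) : Prop := ∃ g ∈ A, S.AN g (wp sW l)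

theorem WL.flat {gs : List (List (Node D))} (h : ∀ l ∈ gs, WL S A l) (b : List ℕ) : WL S A (b.flatMap (gs.getD · [])) := by
  have h0 : WL S A [] := ⟨1, one_mem _, an_one.2 (one_mem _)⟩
  induction b with
  | nil => exact h0
  | cons i b ih =>
    obtain ⟨g, h1, h2⟩ : WL S A (gs.getD i []) := by
      by_cases e : i < gs.length
      · exact h _ (List.getD_eq_getElem _ _ e ▸ List.getElem_mem e)
      · exact List.getD_eq_default _ _ (not_lt.1 e) ▸ h0
    obtain ⟨g', h3, h4⟩ := ih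
    exact ⟨_, mul_mem h1 h3, by rw [List.flatMap_cons, wp_append]; exact h2.mul h4⟩

theorem PL.act {F : Fast} (a : Agree D F) (hA : A ≤ fixS σ) {gs : List (List (Node D))} (h : ∀ l ∈ gs, WL S A l) {L L' : List ℕ}
    (p : PL S σ A L) (b : List ℕ) (e : allLt F.n (fun r => L.contains r ||
      !L'.contains (((b.flatMap (gs.getD · [])).map Fin.val).foldr F.rf r)) = true) : PL S σ A L' := fun u hu => by
  obtain ⟨g, h1, h2⟩ := WL.flat h b
  have := cj_mem h1 (p ⟨h2.inv.2.conj_mem (fun r hr => ?_) hu.1, cj_mem (inv_mem (hA h1)) hu.2⟩)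
  · simpa [mul_assoc] using this
  · have := allLt_iff.1 e _ (a.lt_n (((wp sW (b.flatMap (gs.getD · [])))⁻¹ : Weyl D).1 r))
    rw [← a.wp_val] at this
    simpa [show r.1 ∈ L' from hr] using this

omit [Good D] [Cert D] in
theorem IsList.eq {T : Set (Root D)} {L : List ℕ} (h : IsList T L) : T = {r | r.1 ∈ L} := Set.ext fun r => (h.1 r).symm

omit [Good D] [Cert D] in
theorem PL.mem {L : List ℕ} (p : PL S σ A L) {w : List (ℕ × K)} (e : w.map Prod.fst = L) (h : wordG S.x w ∈ fixS σ) : wordG S.x w ∈ A :=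
  p ⟨wordG_mem e fun _ h => h, h⟩

theorem an_conj [Finite K] {n : G} {w : Weyl D} (a : S.AN n w) (c : Node D → Kˣ) (r : Root D) (t : K) :
    n * torS S.hMul_of_finite c * n⁻¹ * S.x r t * (n * torS S.hMul_of_finite c * n⁻¹)⁻¹ = S.x r (chiOf c ((w⁻¹ : Weyl D).1 r) * t) := by
  obtain ⟨χ, -, h⟩ := a.2
  obtain ⟨r, rfl⟩ := w.1.surjective r
  have := h r ((χ r)⁻¹ * t)
  rw [← mul_assoc, Units.val_inv_eq_inv_val, mul_inv_cancel₀ (χ r).ne_zero, one_mul] at this
  conv_lhs => rw [← this, show ∀ y z : G, n * y * n⁻¹ * (n * z * n⁻¹) * (n * y * n⁻¹)⁻¹ = n * (y * z * y⁻¹) * n⁻¹ from fun y z => by group,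
    torS_conj, h]
  congr 1; simp; field_simp

variable {ρ : Perm (Node D)} {P N : Node D → List ℕ} {W : Node D → List (Node D)} (O : OrbD ρ P N W)
include O

omit [Cert D] in
theorem OrbD.MF_le (p : ∀ i, PL S σ A (P i) ∧ PL S σ A (N i)) : S.MF σ ρ ≤ A :=
  iSup_le fun i => sup_le ((O.pos i).eq ▸ (p i).1) ((O.neg i).eq ▸ (p i).2)

variable {c : Node D → Kˣ} {f : Node D → K ≃+* K} {h : S.SimpAct σ ρ c f} (T : Tw h (fixS σ))
include T

theorem OrbD.wl {i : Node D} (p : PL S σ A (P i)) (p' : PL S σ A (N i)) : WL S A (W i) := by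
  obtain ⟨y, h1, h2, h3⟩ := T.neg i
  obtain ⟨u, hu, v, hv, e⟩ := T.neg_bruhat h1 h2 h3
  rw [(O.pos i).eq] at hu hv
  exact ⟨_, mul_mem (mul_mem (inv_mem (p hu)) (p' ⟨(O.neg i).eq ▸ h2, h1⟩)) (inv_mem (p hv)), O.wJ i ▸ e⟩

theorem OrbD.exists_an (l : List (Node D)) : ∃ n ∈ fixS σ, S.AN n (wp sW (l.flatMap W)) := by
  induction l with
  | nil => exact ⟨1, one_mem _, an_one.2 (one_mem _)⟩
  | cons i l ih =>
    obtain ⟨m, h1, h2⟩ := T.exists_nJ i
    obtain ⟨g, h3, h4⟩ := ih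
    exact ⟨_, mul_mem h1 h3, by rw [List.flatMap_cons, wp_append, ← O.wJ, ← h2]; exact (an_π m).mul h4⟩

end H11
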