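import Cfsg.Agent.H11.Gen1
import Cfsg.Agent.H11.TwS

/-! Two-element generation of `²E₆(q)`, `³D₄(q)` and `²F₄(q)`. -/

namespace H11
open Cfsg Cfsg.Lie Equiv StSys Subgroup Lx H12.Lt

variable {K G : Type*} [Field K] [Group G]

section gen
variable {D : ChevalleyDatum} [Good D] [Cert D] {S : StSys D K G} {σ : MulAut G} {A : Subgroup G} {ρ : Perm (Node D)}
  {P N : Node D → List ℕ} {W : Node D → List (Node D)} (O : OrbD ρ P N W) {f : Node D → K ≃+* K}
include O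

omit [Cert D] in
theorem OrbD.pl (i : Node D) (h : ∀ w, w.map Prod.fst = P i → wordG S.x w ∈ fixS σ → wordG S.x w ∈ A) : PL S σ A (P i) :=
  fun u hu => by
    obtain ⟨w, h1, rfl⟩ := exists_posJ (O.pos i) ((O.pos i).eq ▸ hu.1)
    exact h w h1 hu.2

theorem OrbD.extract [Finite K] (h : S.SimpAct σ ρ 1 f) {i j : Node D} {L : List (Node D)} {g : Node D → K →+* K} (V : OD ρ f i L g)
    (hj : j ∈ L) (gj : ∀ t, g j t = t) {c : Node D → Kˣ} (hc : c ∈ Tf ρ f) {n : G} (hn : n ∈ fixS σ) {l : List (Node D)}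
    (a : S.AN n (wp sW l)) {r : Root D} (e : l.foldr (fun (i : Node D) r => D.reflectRoot i r) r = D.simple j)
    (a1 : chiOf c (sroot j) ≠ 1) (b1 : chiOf c r ≠ 1) (hg : ∀ R : Subring K, (chiOf c (sroot j) : K) ∈ R → R = ⊤) :
    ∃ x ∈ fixS σ, ∃ y ∈ fixS σ, PL S σ (closure {x, y}) (P i) ∧ WL S (closure {x, y}) l := by
  have hy : torS S.hMul_of_finite c ∈ fixS σ := by rw [mem_fixS, h.map_torS, mem_Tf.1 hc]
  have k {z : G} (hz : z ∈ fixS σ) {χ : Root D → K} (e : ∀ r t, z * S.x r t * z⁻¹ = S.x r (χ r * t)) (t : K) :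
      z * xv S sroot L (g · t) * z⁻¹ = xv S sroot L (g · (χ (sroot j) * t)) := by
    have e' : z * xv S sroot L (g · t) * z⁻¹ = xv S sroot L fun k => χ (sroot k) * g k t :=
      map_xv (MulAut.conj z).toMonoidHom fun k _ => e ..
    obtain ⟨s, hs⟩ := V.ex h (x := z * xv S sroot L (g · t) * z⁻¹)
      (e' ▸ xv_mem (fun k hk _ => x_mem_US ((V.list.1 _).1 (List.mem_map_of_mem hk)) _) _) (cj_mem hz (V.fix h t).1)
    rw [← hs, ← gj s, V.inj (hs.trans e') j hj, gj]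
  have R := (xv_rel (S := S) V.orth g).1
  have hr : ((wp sW l)⁻¹ : Weyl D).1 (sroot j) = r := by
    rw [show sroot j = (wp sW l : Weyl D).1 r from Fin.ext ((wp_apply l r).trans e).symm]; simp
  have h1 : xv S sroot L (g · 1) * n ∈ closure {torS S.hMul_of_finite c, xv S sroot L (g · 1) * n} := subset_closure (by simp)
  have h2 (t) : xv S sroot L (g · t) ∈ closure {torS S.hMul_of_finite c, xv S sroot L (g · 1) * n} := by
    obtain ⟨_, h3, rfl⟩ := H11.extract (C := fun t u => u = xv S sroot L (g · t)) R.x_zero.symm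
      (by rintro s t _ _ rfl rfl; exact (R.hx s t).symm) (by rintro s _ rfl; exact (R.x_neg s).symm)
      (by rintro t _ rfl; exact k hy (torS_conj _ c) t) (by rintro t _ rfl; exact k (cj_mem hn hy) (an_conj a c) t)
      (H_comm (torS_mem _ c) (conj_mem_H a.1 (torS_mem _ c))) rfl (by simpa using a1) (by rw [hr]; simpa using b1) hg
      (subset_closure (by simp)) h1 t
    exact h3
  refine ⟨_, hy, _, mul_mem (V.fix h 1).1 hn, fun u hu => ?_, n, by simpa using mul_mem (inv_mem (h2 1)) h1, a⟩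
  obtain ⟨t, rfl⟩ := V.ex h ((O.pos i).eq ▸ hu.1) hu.2
  exact h2 t

end gen

theorem mem_of_comm {A : Subgroup G} {a b c : G} (ha : a ∈ A) (hb : b ∈ A) (e : b * a = a * (b * c)) : c ∈ A := by
  rw [show c = b⁻¹ * a⁻¹ * (b * a) by rw [e]; group]
  exact mul_mem (mul_mem (inv_mem hb) (inv_mem ha)) (mul_mem hb ha)

theorem gen_ne {q k m : ℕ} {θ : K ≃+* K} (F : FrF k q θ) {t : Kˣ} (ht : ∀ d, d ∈ zpowers t) (h0 : 0 < m) (h : m + 1 < q ^ k) :
    t ^ m ≠ 1 := fun e => by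
  have := F.finite
  have := Nat.le_of_dvd h0 (orderOf_dvd_of_pow_eq_one e)
  rw [orderOf_eq_card_of_forall_mem_zpowers ht, Nat.card_units, F.card] at this
  omega

open Pol in
theorem idE6c {x : Root chevE6 → K → G} (hx : StRel x) (A B : K) :
    wordG x [(29, 1), (34, 1)] * wordG x [(40, A), (43, B)] = wordG x [(40, A), (43, B)] * (wordG x [(29, 1), (34, 1)] * wordG x [(39, A - B)]) := by
  have hp : ((0 : ℕ) : K) = 0 := Nat.cast_zero
  simpa [ev_add _ hp, ev_neg _ hp, ev_X2, ev_X3, ev_cons, v6, sub_eq_add_neg, mul_assoc]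
    using wordG_eq_of_col agreeE6 hx hp (v6 A B 0 0 0 0) (f := 50) (k := 3)
      (w := [(29, [(1, 1)]), (34, [(1, 1)]), (40, X 2), (43, X 3)])
      (w' := [(40, X 2), (43, X 3), (29, [(1, 1)]), (34, [(1, 1)]), (39, add 0 (X 2) (neg 0 (X 3)))]) (by decide +kernel)

theorem TE6.two_gen {q : ℕ} {θ : K ≃+* K} (F : FrF 2 q θ) {S : StSys chevE6 K G} {σ : MulAut G} (h : IsTw S σ grE6 θ)
    (T : Tw (TE6.simpAct h) (fixS σ)) : ∃ x ∈ fixS σ, ∃ y ∈ fixS σ, S.MF σ flipE6 ≤ closure {x, y} := by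
  have := F.finite
  have i2 (t) : θ (θ t) = t := F.iter t
  obtain ⟨t, ht⟩ := IsCyclic.exists_generator (α := Kˣ)
  obtain ⟨n, hn, a⟩ := orbD_E6.exists_an T [nd _ 0, nd _ 1, nd _ 3, nd _ 2]
  have e (r : Root chevE6) (h1 : wt r (nd _ 4) = -1) (h2 : wt r (nd _ 2) = 0) :
      chiOf (Pi.mulSingle (nd _ 4) t * Pi.mulSingle (nd _ 2) (Units.map (θ : K →* K) t)) r = t⁻¹ := by
    rw [chiOf_mul, chiOf_single, chiOf_single, h1, h2]; simp
  have t1 : t⁻¹ ≠ 1 := by simpa using gen_ne F ht one_pos (by nlinarith [F.lt])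
  obtain ⟨x, hx, y, hy, p, w⟩ := orbD_E6.extract (TE6.simpAct h) (j := nd _ 5) (od2 (f := fun _ => θ) orbD_E6 (a := nd _ 0) (b := nd _ 5)
    (by decide +kernel) i2) (by simp) (fun _ => rfl) (c := Pi.mulSingle (nd _ 4) t * Pi.mulSingle (nd _ 2) (Units.map (θ : K →* K) t))
    (by rw [mem_Tf, map_mul, twc_single, twc_single, mul_comm]; congr 2; ext; simp [i2]) hn a (r := rt _ 33) (by decide +kernel)
    (by rwa [e _ (by decide +kernel) (by decide +kernel)]) (by rwa [e _ (by decide +kernel) (by decide +kernel)])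
    (by rw [e _ (by decide +kernel) (by decide +kernel)]; exact top_of_inv ht)
  refine ⟨x, hx, y, hy, orbD_E6.MF_le ?_⟩
  have hA : closure {x, y} ≤ fixS σ := (closure_le _).2 (Set.pair_subset hx hy)
  generalize closure {x, y} = A at *
  have w' := orbD_E6.wl T p (p.act agreeE6 hA (gs := [_]) (by simpa using w) [0, 0, 0, 0, 0, 0] (by decide +kernel))
  have k {L L'} (p : PL S σ A L) := p.act (L' := L') agreeE6 hA (gs := [_, _]) (by simpa using ⟨w, w'⟩)
  have p4 := k p [1, 0, 1, 0, 0, 1] (L' := [29, 34]) (by decide +kernel)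
  have p1 : PL S σ A (PE6 (nd _ 3)) := orbD_E6.pl _ fun w h1 h2 => by
    obtain ⟨v, hv, rfl⟩ := h.ex1 (a := 39) (T := PosJ _) (fun _ a => a.1) (by decide +kernel) (orbD_E6.pos (nd _ 3)) h1 h2
    obtain ⟨s, rfl⟩ := F.exists_trace hv
    rw [show ∑ i ∈ Finset.range (1 + 1), θ^[i] s = s - -θ s by simp [Finset.sum_range_succ]]
    refine mem_of_comm ((k p [1, 0, 0] (L' := [40, 43]) (by decide +kernel)).mem (w := [(40, s), (43, -θ s)]) rfl ?_)
      (p4.mem (w := [(29, 1), (34, 1)]) rfl ?_) (idE6c S.rel s (-θ s))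
    · rw [mem_fixS, h.wordG (L := [40, 43]) rfl (by decide)]
      simp [show grE6 40 = [(43, -1, 1)] by decide +kernel, show grE6 43 = [(40, -1, 1)] by decide +kernel, appW, i2,
        S.rel.swap (show Sw chevE6 40 43 by decide +kernel)]
    · rw [mem_fixS, h.act2 (by decide +kernel), map_one]
  have p2 := k p [1] (L' := [15, 35]) (by decide +kernel)
  have p3 := k p [1, 0, 1, 0, 0] (L' := [42, 37]) (by decide +kernel)
  intro i
  fin_cases i
  exacts [⟨p, p2⟩, ⟨k p1 [0, 1, 0, 0, 0, 1, 0] (by decide +kernel), k p1 [0, 1, 0] (by decide +kernel)⟩, ⟨p3, p4⟩,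
    ⟨p1, k p1 [0, 0, 1, 0] (by decide +kernel)⟩, ⟨p3, p4⟩, ⟨p, p2⟩]

open Pol in
theorem idD4c {x : Root chevD4 → K → G} (hx : StRel x) (A B C : K) :
    wordG x [(5, 1), (10, 1), (11, 1)] * wordG x [(15, A), (19, B), (16, C)] =
      wordG x [(15, A), (19, B), (16, C)] * (wordG x [(5, 1), (10, 1), (11, 1)] * wordG x [(14, A - B + C)]) := by
  have hp : ((0 : ℕ) : K) = 0 := Nat.cast_zero
  simpa [ev_add _ hp, ev_neg _ hp, ev_X2, ev_X3, ev_X5, ev_cons, v6, sub_eq_add_neg, mul_assoc]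
    using wordG_eq_of_col agreeD4 hx hp (v6 A B C 0 0 0) (f := 50) (k := 3)
      (w := [(5, [(1, 1)]), (10, [(1, 1)]), (11, [(1, 1)]), (15, X 2), (19, X 3), (16, X 5)])
      (w' := [(15, X 2), (19, X 3), (16, X 5), (5, [(1, 1)]), (10, [(1, 1)]), (11, [(1, 1)]), (14, add 0 (add 0 (X 2) (neg 0 (X 3))) (X 5))])
      (by decide +kernel)

theorem TD4.two_gen {q : ℕ} {θ : K ≃+* K} (F : FrF 3 q θ) {S : StSys chevD4 K G} {σ : MulAut G} (h : IsTw S σ grD4a θ)
    (T : Tw (TD4.simpAct h) (fixS σ)) : ∃ x ∈ fixS σ, ∃ y ∈ fixS σ, S.MF σ symD4a ≤ closure {x, y} := by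
  have := F.finite
  have i3 (t) : θ (θ (θ t)) = t := F.iter t
  have hq := F.lt
  obtain ⟨t, ht⟩ := IsCyclic.exists_generator (α := Kˣ)
  obtain ⟨n, hn, a⟩ := orbD_D4.exists_an T [nd _ 1, nd _ 0]
  have e (r : Root chevD4) : chiOf (Pi.mulSingle (nd _ 0) t * Pi.mulSingle (nd _ 2) (t ^ q) * Pi.mulSingle (nd _ 3) (t ^ q ^ 2)) r =
      t ^ wt r (nd _ 0) * (t ^ q) ^ wt r (nd _ 2) * (t ^ q ^ 2) ^ wt r (nd _ 3) := by
    rw [chiOf_mul, chiOf_mul, chiOf_single, chiOf_single, chiOf_single]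
  have e1 : chiOf (Pi.mulSingle (nd _ 0) t * Pi.mulSingle (nd _ 2) (t ^ q) * Pi.mulSingle (nd _ 3) (t ^ q ^ 2)) (sroot (nd chevD4 0)) = t ^ 2 := by
    rw [e, show wt (sroot (nd chevD4 0)) (nd _ 0) = 2 by decide +kernel, show wt (sroot (nd chevD4 0)) (nd _ 2) = 0 by decide +kernel,
      show wt (sroot (nd chevD4 0)) (nd _ 3) = 0 by decide +kernel]; simp [zpow_ofNat]
  obtain ⟨x, hx, y, hy, p, w⟩ := orbD_D4.extract (TD4.simpAct h) (j := nd _ 0) (odD4 F) (by simp) (fun _ => rfl)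
    (c := Pi.mulSingle (nd _ 0) t * Pi.mulSingle (nd _ 2) (t ^ q) * Pi.mulSingle (nd _ 3) (t ^ q ^ 2))
    (by
      rw [mem_Tf, map_mul, map_mul, twc_single, twc_single, twc_single, mul_comm, ← mul_assoc]
      congr 3 <;> ext <;> simp [sq q, pow_mul, ← F.eq, i3]) hn a (r := rt _ 17) (by decide +kernel)
    (by rw [e1]; exact gen_ne F ht two_pos (by nlinarith [Nat.pow_le_pow_left hq 3])) (by
      rw [e, show wt (rt chevD4 17) (nd _ 0) = -1 by decide +kernel, show wt (rt chevD4 17) (nd _ 2) = 1 by decide +kernel,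
        show wt (rt chevD4 17) (nd _ 3) = 1 by decide +kernel, zpow_one, zpow_one, zpow_neg_one, mul_assoc, ← pow_add,
        show q + q ^ 2 = q ^ 2 + q - 1 + 1 by omega, pow_succ', inv_mul_cancel_left]
      exact gen_ne F ht (by omega) (by rw [show q ^ 2 + q - 1 + 1 = q ^ 2 + q by omega]; nlinarith))
    (by rw [e1]; exact top_of_gen ht)
  refine ⟨x, hx, y, hy, orbD_D4.MF_le ?_⟩
  have hA : closure {x, y} ≤ fixS σ := (closure_le _).2 (Set.pair_subset hx hy)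
  generalize closure {x, y} = A at *
  have p2 : PL S σ A [5, 10, 11] := p.act agreeD4 hA (gs := [_]) (by simpa using w) [0, 0, 0] (by decide +kernel)
  have w' := orbD_D4.wl T p p2
  have k {L L'} (p : PL S σ A L) := p.act (L' := L') agreeD4 hA (gs := [_, _]) (by simpa using ⟨w, w'⟩)
  have p1 : PL S σ A (PD4 (nd _ 1)) := orbD_D4.pl _ fun w h1 h2 => by
    obtain ⟨v, hv, rfl⟩ := h.ex1 (a := 14) (T := PosJ _) (fun _ a => a.1) (by decide +kernel) (orbD_D4.pos (nd _ 1)) h1 h2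
    obtain ⟨s, rfl⟩ := F.exists_trace hv
    rw [show ∑ i ∈ Finset.range (2 + 1), θ^[i] s = s - -θ s + θ (θ s) by simp [Finset.sum_range_succ]]
    refine mem_of_comm ((k p [0, 1] (L' := [15, 19, 16]) (by decide +kernel)).mem (w := [(15, s), (19, -θ s), (16, θ (θ s))]) rfl ?_)
      (p2.mem (w := [(5, 1), (10, 1), (11, 1)]) rfl ?_) (idD4c S.rel s (-θ s) (θ (θ s)))
    · rw [mem_fixS, h.wordG (L := [15, 19, 16]) rfl (by decide)]
      simp [show grD4a 15 = [(19, -1, 1)] by decide +kernel, show grD4a 19 = [(16, -1, 1)] by decide +kernel,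
        show grD4a 16 = [(15, 1, 1)] by decide +kernel, appW, i3, S.rel.swap (show Sw chevD4 15 16 by decide +kernel), ← mul_assoc,
        S.rel.swap (show Sw chevD4 15 19 by decide +kernel)]
    · rw [mem_fixS, h.act3 (by decide +kernel), map_one]
  intro i
  fin_cases i
  exacts [⟨p, p2⟩, ⟨p1, k p1 [0, 1] (by decide +kernel)⟩, ⟨p, p2⟩, ⟨p, p2⟩]

end H11
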