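import Cfsg.Agent.H11.Gen2

/-! Two-element generation of `²F₄(q)`, `q > 2`. -/

namespace H11
open Cfsg Cfsg.Lie Equiv StSys Subgroup Lx H12.Lt

variable {K G : Type*} [Field K] [Group G]

open Pol in
theorem idF4c {x : Root chevF4 → K → G} (hx : StRel x) (hp : ((2 : ℕ) : K) = 0) (A B E U : K) :
    wordG x [(26, 1), (34, 1), (42, 1)] = wordG x [(34, 1), (26, 1), (36, 1)] ∧
    wordG x [(20, A), (22, B), (19, E), (17, U)] * wordG x [(34, 1), (26, 1), (36, 1)] =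
      wordG x [(34, 1), (26, 1), (36, 1)] * (wordG x [(20, A), (22, B), (19, E), (17, U)] * wordG x [(33, A), (24, B)]) := by
  constructor
  · simpa [ev_cons] using wordG_eq_of_col agreeF4 hx hp (fun _ => 0) (f := 50) (k := 3)
      (w := [(26, [(1, 1)]), (34, [(1, 1)]), (42, [(1, 1)])]) (w' := [(34, [(1, 1)]), (26, [(1, 1)]), (36, [(1, 1)])]) (by decide +kernel)
  · simpa [ev_X2, ev_X3, ev_X5, ev_X7, ev_cons, v6, mul_assoc]
    using wordG_eq_of_col agreeF4 hx hp (v6 A B E U 0 0) (f := 50) (k := 3)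
      (w := [(20, X 2), (22, X 3), (19, X 5), (17, X 7), (34, [(1, 1)]), (26, [(1, 1)]), (36, [(1, 1)])])
      (w' := [(34, [(1, 1)]), (26, [(1, 1)]), (36, [(1, 1)]), (20, X 2), (22, X 3), (19, X 5), (17, X 7), (33, X 2), (24, X 3)])
      (by decide +kernel)

theorem RF4.two_gen [Finite K] {e : ℕ} {θ : K ≃+* K} (F : ReeF 2 e θ) (h2 : 2 < Nat.card K) {S : StSys chevF4 K G} {σ : MulAut G}
    (h : IsTw S σ exF4 θ) (T : Tw (RF4.simpAct F h) (fixS σ)) : ∃ x ∈ fixS σ, ∃ y ∈ fixS σ, S.MF σ flipF4 ≤ closure {x, y} := by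
  obtain ⟨t, ht⟩ := IsCyclic.exists_generator (α := Kˣ)
  obtain ⟨n, hn, a⟩ := orbD_F4.exists_an T [nd _ 1, nd _ 0]
  have t1 : (↑t⁻¹ : K) ≠ 1 := fun e => by
    have := orderOf_eq_card_of_forall_mem_zpowers ht
    rw [show t = 1 by simpa using e, orderOf_one, Nat.card_units] at this; omega
  have c (r : Root chevF4) (h1 : wt r (nd _ 0) = 0) (h2 : wt r (nd _ 3) = -1) : chiOf (RF4.tor θ (t, 1)) r = t⁻¹ := by
    rw [RF4.chi_tor, h1, h2]; simp
  have hy : torS S.hMul_of_finite (RF4.tor θ (t, 1)) ∈ fixS σ := by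
    rw [mem_fixS, (RF4.simpAct F h).map_torS, mem_Tf.1 ((RF4.Tf_eq F).ge ⟨_, rfl⟩)]
  have fx (t u) : sz S θ t u ∈ fixS σ := by have := (RF4.B_fix F h t u).1; rwa [RF4.B_eq F] at this
  have k {z : G} (hz : z ∈ fixS σ) {χ : Root chevF4 → K} (e : ∀ r t, z * S.x r t * z⁻¹ = S.x r (χ r * t)) (t u : K) :
      ∃ v, z * sz S θ t u * z⁻¹ = sz S θ (χ (rt _ 25) * t) v := by
    have e' : z * sz S θ t u * z⁻¹ = Q4 S (χ (rt _ 27) * θ t) (χ (rt _ 25) * t) (χ (rt _ 28) * (θ t * t + u)) (χ (rt _ 30) * θ u ^ 2) := by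
      change (MulAut.conj z) (S.x (rt _ 27) _ * (S.x (rt _ 25) _ * (S.x (rt _ 28) _ * (S.x (rt _ 30) _ * 1)))) =
        S.x (rt _ 27) _ * (S.x (rt _ 25) _ * (S.x (rt _ 28) _ * (S.x (rt _ 30) _ * 1)))
      simp only [map_mul, map_one, MulAut.conj_apply, e]
    obtain ⟨a, ha⟩ := RF4.exists_B F h (i := nd _ 1) rfl _ rfl (e' ▸ cj_mem hz (fx t u))
    rw [RF4.B_eq F] at ha
    exact ⟨a.2, e'.trans (by rw [Q4, ha, show χ (rt _ 25) * t = a.1 by simp only [List.cons.injEq, Prod.mk.injEq] at ha; exact ha.2.1.2]; rfl)⟩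
  have iv (t u) : (sz S θ t u)⁻¹ = sz S θ (-t) (-u + θ t * t) := by
    rw [inv_eq_iff_mul_eq_one, sz_mul F, ← sz_zero (θ := θ), sz_inj]; constructor <;> ring
  have hr : ((wp sW ([nd _ 1, nd _ 0].flatMap WF4))⁻¹ : Weyl chevF4).1 (rt _ 25) = rt _ 21 := by
    rw [show rt _ 25 = (wp sW ([nd _ 1, nd _ 0].flatMap WF4) : Weyl chevF4).1 (rt _ 21) from
      Fin.ext ((wp_apply _ _).trans (by decide +kernel)).symm]; simp
  refine ⟨_, hy, _, mul_mem (fx 1 0) hn, orbD_F4.MF_le ?_⟩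
  have hA := (closure_le _).2 (Set.pair_subset hy (mul_mem (fx 1 0) hn))
  have h0 := subset_closure (Set.mem_insert (torS S.hMul_of_finite (RF4.tor θ (t, 1))) {sz S θ 1 0 * n})
  have h1 := subset_closure (Set.mem_insert_of_mem (torS S.hMul_of_finite (RF4.tor θ (t, 1))) (Set.mem_singleton (sz S θ 1 0 * n)))
  generalize closure {torS S.hMul_of_finite (RF4.tor θ (t, 1)), sz S θ 1 0 * n} = A at *
  have a1 (s) : ∃ u, sz S θ s u ∈ A := by
    obtain ⟨_, h3, u, rfl⟩ := H11.extract (C := fun t g => ∃ u, g = sz S θ t u) ⟨0, sz_zero.symm⟩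
      (by rintro s t _ _ ⟨u, rfl⟩ ⟨v, rfl⟩; exact ⟨_, sz_mul F ..⟩) (by rintro s _ ⟨u, rfl⟩; exact ⟨_, iv ..⟩)
      (by rintro t _ ⟨u, rfl⟩; exact k hy (torS_conj _ _) t u) (by rintro t _ ⟨u, rfl⟩; exact k (cj_mem hn hy) (an_conj a _) t u)
      (H_comm (torS_mem _ _) (conj_mem_H a.1 (torS_mem _ _))) ⟨0, rfl⟩ (by rwa [c _ (by decide +kernel) (by decide +kernel)])
      (by rwa [hr, c _ (by decide +kernel) (by decide +kernel)]) (by rw [c _ (by decide +kernel) (by decide +kernel)]; exact top_of_inv ht)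
      h0 h1 s
    exact ⟨u, h3⟩
  have a2 (u) : sz S θ 0 u ∈ A := by
    obtain ⟨s, rfl⟩ := norm_surj F u
    obtain ⟨v, hv⟩ := a1 s
    have := mul_mem hv hv
    have h3 : (2 : K) = 0 := by simpa using RF4.two F
    rwa [sz_mul F, show s + s = 0 by linear_combination s * h3, show v + v + θ s * s = θ s * s by linear_combination v * h3] at this
  have a3 (s u) : sz S θ s u ∈ A := by
    obtain ⟨v, hv⟩ := a1 s
    simpa [sz_mul F] using mul_mem hv (a2 (u - v))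
  have p : PL S σ A (PF4 (nd _ 1)) := orbD_F4.pl _ fun w h1 h2 => by
    obtain ⟨a, rfl⟩ := RF4.exists_B F h rfl w h1 h2
    rw [RF4.B_eq F]; exact a3 ..
  have w : WL S A ([nd _ 1, nd _ 0].flatMap WF4) := ⟨n, by simpa using mul_mem (inv_mem (a3 1 0)) h1, a⟩
  have p2 : PL S σ A (NF4 (nd _ 1)) := p.act agreeF4 hA (gs := [_]) (by simpa using w) [0, 0, 0, 0] (by decide +kernel)
  have w' := orbD_F4.wl T p p2
  have k {L L'} (p : PL S σ A L) := p.act (L' := L') agreeF4 hA (gs := [_, _]) (by simpa using ⟨w, w'⟩)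
  have p3 := k p [1, 0] (L' := [34, 26, 36, 42]) (by decide +kernel)
  have p1 : PL S σ A (PF4 (nd _ 0)) := orbD_F4.pl _ fun w h1 h2 => by
    obtain ⟨s, rfl⟩ := RF4.exists_P F h rfl w h1 h2
    rw [RF4.P_eq F]
    refine mem_of_comm (p3 ⟨wordG_mem (L := [34, 26, 36]) rfl (by simp +contextual [or_imp]), mem_fixS.2 ?_⟩)
      (p2.mem rfl (RF4.B_eq F .. ▸ (RF4.B_fix F h s 0).2)) (idF4c S.rel (RF4.two F) ..).2
    rw [h.wordG (L := [34, 26, 36]) rfl (by decide), ← (idF4c S.rel (RF4.two F) 0 0 0 0).1]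
    simp [show exF4 34 = [(26, 1, 2)] ∧ exF4 26 = [(34, 1, 1)] ∧ exF4 36 = [(42, 1, 2)] by decide +kernel, appW]
  have p4 : PL S σ A (NF4 (nd _ 0)) := k p1 [1, 0] (by decide +kernel)
  intro i
  fin_cases i
  exacts [⟨p1, p4⟩, ⟨p, p2⟩, ⟨p, p2⟩, ⟨p1, p4⟩]

end H11
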