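import Cfsg.Agent.H11.Gen2

/-! Two-element generation of Chevalley groups: extraction of one or two root subgroups (`one_step`, `two_step`). -/

namespace H11
open Cfsg Cfsg.Lie Equiv StSys Subgroup
open scoped commutatorElement

variable {K G : Type*} [Field K] [Group G] {A : Subgroup G}

theorem ext1 {X : K → G} (hX : ∀ s t, X (s + t) = X s * X t) {y z : G} {a b : K} (ha : ∀ t, y * X t * y⁻¹ = X (a * t))
    (hb : ∀ t, z * X t * z⁻¹ = X (b * t)) (hc : y * z = z * y) (a1 : a ≠ 1) (b1 : b ≠ 1) (hg : ∀ R : Subring K, a ∈ R → R = ⊤)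
    (hy : y ∈ A) (hz : X 1 * z * (X 1)⁻¹ ∈ A) (t : K) : X t ∈ A := by
  have hi := H12.add_neg_eq_inv hX
  let R : Subring K :=
    { carrier := {k | ∀ t, X t ∈ A → X (k * t) ∈ A}
      one_mem' := fun t h => by rwa [one_mul]
      zero_mem' := fun t _ => by rw [zero_mul, H12.add_zero_eq_one hX]; exact one_mem _
      mul_mem' := fun h h' t e => by rw [mul_assoc]; exact h _ (h' t e)
      add_mem' := fun h h' t e => by rw [add_mul, hX]; exact mul_mem (h t e) (h' t e)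
      neg_mem' := fun h t e => by rw [neg_mul, hi]; exact inv_mem (h t e) }
  have e := mul_mem (cj_mem hy hz) (inv_mem hz)
  rw [show y * (X 1 * z * (X 1)⁻¹) * y⁻¹ * (X 1 * z * (X 1)⁻¹)⁻¹ = y * X 1 * y⁻¹ * (y * (z * (X 1)⁻¹ * z⁻¹) * y⁻¹) *
      (y * z * y⁻¹ * X 1 * z⁻¹) * (X 1)⁻¹ by group, hc, mul_inv_cancel_right, ← hi, hb, hb,
    ha, ha, ← hX, ← hX, ← hX, show a * 1 + a * (b * -1) + b * 1 + -1 = -((a - 1) * (b - 1)) by ring] at e
  have s0 := neg_ne_zero.2 (mul_ne_zero (sub_ne_zero.2 a1) (sub_ne_zero.2 b1))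
  have := (hg R fun t h => ha t ▸ cj_mem hy h).ge (Subring.mem_top (t / -((a - 1) * (b - 1)))) _ e
  rwa [div_mul_cancel₀ _ s0] at this

theorem gen_abs [Finite K] {g : Kˣ} (hg : ∀ d, d ∈ zpowers g) (g1 : g ≠ 1) {e : ℤ} (h : |e| = 1) :
    (g : K) ^ e ≠ 1 ∧ ∀ R : Subring K, (g : K) ^ e ∈ R → R = ⊤ := by
  rcases eq_or_eq_neg_of_abs_eq h with rfl | rfl
  · exact ⟨by simpa using g1, fun R h => top_of_gen hg R (pow_mem (by simpa using h) 2)⟩
  · exact ⟨by simpa using g1, fun R h => top_of_inv hg R (by simpa using h)⟩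

theorem comm_mul_mul {a b a' b' : G} (h1 : Commute a b) (h2 : Commute a a') (h3 : Commute a b') (h4 : Commute a' b) (h5 : Commute a' b') :
    ⁅a * b, a' * b'⁆ = ⁅b, b'⁆ := by
  rw [commutatorElement_def, commutatorElement_def, h1.eq, h5.eq, mul_assoc b, ← mul_assoc a, h3.eq, mul_assoc b' a, h2.eq]
  rw [show b * (b' * (a' * a)) * (b * a)⁻¹ * (b' * a')⁻¹ = b * b' * (a' * b⁻¹ * a'⁻¹) * b'⁻¹ by group, h4.inv_right.mul_inv_cancel]

variable {D : ChevalleyDatum} [Good D] [Cert D] {S : StSys D K G} {r s : Root D}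

/-- the root subgroup lies in `A` -/
def XA (S : StSys D K G) (A : Subgroup G) (r : Root D) : Prop := ∀ t, S.x r t ∈ A

omit [Good D] [Cert D] in
theorem XA.act {n : G} {w : Perm (Root D)} (h : XA S A r) (hn : n ∈ A) (a : S.Acts n w) : XA S A (w r) := fun t => by
  obtain ⟨χ, -, e⟩ := a
  simpa [e] using cj_mem hn (h ((χ r)⁻¹ * t))

theorem XA.refl (h : XA S A s) (h1 : XA S A r) (h2 : XA S A r.rev) : XA S A (refl r s) :=
  h.act (n_mem_of h1 h2 1) (acts_n r one_ne_zero)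

omit [Good D] [Cert D] in
theorem XA.of_two (h2 : ∀ t : K, t = 0 ∨ t = 1) {c : K} (h0 : c ≠ 0) (h : S.x r c ∈ A) : XA S A r := fun t => by
  rcases h2 t with rfl | rfl
  exacts [by simp, (h2 c).resolve_left h0 ▸ h]

omit [Cert D] in
theorem dg_conj {n y : G} {w : Weyl D} (a : S.AN n w) {χ : Root D → K} (h : ∀ r t, y * S.x r t * y⁻¹ = S.x r (χ r * t)) (r : Root D) (t : K) :
    n * y * n⁻¹ * S.x r t * (n * y * n⁻¹)⁻¹ = S.x r (χ (w.1.symm r) * t) := by
  obtain ⟨ψ, -, e⟩ := a.2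
  obtain ⟨r, rfl⟩ := w.1.surjective r
  have := e r ((ψ r)⁻¹ * t)
  rw [← mul_assoc, Units.val_inv_eq_inv_val, mul_inv_cancel₀ (ψ r).ne_zero, one_mul] at this
  conv_lhs => rw [← this, show ∀ y z : G, n * y * n⁻¹ * (n * z * n⁻¹) * (n * y * n⁻¹)⁻¹ = n * (y * z * y⁻¹) * n⁻¹ from fun y z => by group, h, e]
  congr 1; simp; field_simp

variable [Finite K] {g : Kˣ} (hg : ∀ d, d ∈ zpowers g) (g1 : g ≠ 1) {n : G} {w : Weyl D} (a : S.AN n w) {β r1 s1 s2 : Root D}
include hg g1 a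

theorem one_step (e1 : w.1 r1 = r) (p : |pair β r| = 1 ∧ |pair β r1| = 1) :
    ∃ x y : G, n ∈ Subgroup.closure {x, y} ∧ XA S (closure {x, y}) r := by
  have h0 := subset_closure (Set.mem_insert (S.h β g) {S.x r 1 * n})
  have h1 := subset_closure (Set.mem_insert_of_mem (S.h β g) (Set.mem_singleton (S.x r 1 * n)))
  have hy := h_mem_H (S := S) β g.ne_zero
  have c0 := fun s => h_conj (S := S) β s g.ne_zero
  have k : XA S _ r := ext1 (fun _ _ => (S.add r ..).symm) (c0 r) (dg_conj a c0 r) (H_comm hy (conj_mem_H a.1 hy)) (gen_abs hg g1 p.1).1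
    (by simpa [← e1] using (gen_abs hg g1 p.2).1) (gen_abs hg g1 p.1).2 h0 (by convert cj_mem h1 h0 using 1; group)
  exact ⟨_, _, by simpa using mul_mem (inv_mem (k 1)) h1, k⟩

theorem two_step (e1 : w.1 r1 = r) (e2 : w.1 s1 = s) (e3 : w.1 s2 = s1)
    (p : |pair β r| = 1 ∧ |pair β s| = 1 ∧ |pair β r1| = 1 ∧ pair β s1 = 0 ∧ |pair β s2| = 1) :
    ∃ x y : G, n ∈ Subgroup.closure {x, y} ∧ XA S (closure {x, y}) r ∧ XA S (closure {x, y}) s := by
  have h0 := subset_closure (Set.mem_insert (S.h β g) {S.x r 1 * S.x s 1 * n})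
  have h1 := subset_closure (Set.mem_insert_of_mem (S.h β g) (Set.mem_singleton (S.x r 1 * S.x s 1 * n)))
  have hy := h_mem_H (S := S) β g.ne_zero
  have c0 := fun s => h_conj (S := S) β s g.ne_zero
  have c1 := dg_conj a c0
  have c2 : S.x s 1 * (n * S.h β g * n⁻¹) * (S.x s 1)⁻¹ = n * S.h β g * n⁻¹ := by
    have := c1 s 1
    rw [← e2, symm_apply_apply, p.2.2.2.1, zpow_zero, one_mul, e2, mul_inv_eq_iff_eq_mul] at this
    rw [← this, mul_inv_cancel_right]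
  have k : XA S _ r := ext1 (fun _ _ => (S.add r ..).symm) (c0 r) (c1 r) (H_comm hy (conj_mem_H a.1 hy)) (gen_abs hg g1 p.1).1
    (by simpa [← e1] using (gen_abs hg g1 p.2.2.1).1) (gen_abs hg g1 p.1).2 h0 (by rw [← c2]; convert cj_mem h1 h0 using 1; group)
  have h2 : S.x s 1 * n ∈ closure {S.h β g, S.x r 1 * S.x s 1 * n} := by simpa [mul_assoc] using mul_mem (inv_mem (k 1)) h1
  have k' : XA S _ s := ext1 (fun _ _ => (S.add s ..).symm) (c0 s) (dg_conj a c1 s) (H_comm hy (conj_mem_H a.1 (conj_mem_H a.1 hy))) (gen_abs hg g1 p.2.1).1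
    (by simpa [← e2, ← e3] using (gen_abs hg g1 p.2.2.2.2).1) (gen_abs hg g1 p.2.1).2 h0 (by
      have := cj_mem h2 (cj_mem h2 h0)
      rw [show S.x s 1 * n * S.h β g * (S.x s 1 * n)⁻¹ = S.x s 1 * (n * S.h β g * n⁻¹) * (S.x s 1)⁻¹ by group, c2] at this
      convert this using 1; group)
  exact ⟨_, _, by simpa using mul_mem (inv_mem (k' 1)) h2, k, k'⟩

end H11
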