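import Cfsg.Agent.H11.Gen6
import Cfsg.Agent.L.ML2

/-! Two-element generation of the groups of types `B` and `D` in coordinates (`Cyc`, `gen2_B`, `gen2_D`). -/

namespace H11
open Cfsg Cfsg.Lie StSys L.RD Matrix Subgroup
open scoped commutatorElement

variable {N l k : ℕ} {I : Type} [Fintype I] [DecidableEq I] {M : OM N l I (Fin k)} {K G : Type*} [Field K] [Group G]
  {S : StSys M.dat K G} {A : Subgroup G}

/-- unit vectors -/
def bv (i : ℕ) : Fin k → ℤ := fun a => if a.val = i then 1 else 0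

theorem bv_eq (i : Fin k) : Pi.single i 1 = bv i.val := by ext a; simp [bv, Pi.single_apply, Fin.ext_iff]

theorem bv_dot (i j : ℕ) : (bv i : Fin k → ℤ) ⬝ᵥ bv j = if i = j ∧ i < k then 1 else 0 := by
  by_cases h : i < k
  · rw [← bv_eq ⟨i, h⟩]; simp [bv, h]
  · rw [show (bv i : Fin k → ℤ) = 0 from funext fun a => if_neg (by omega)]; simp [h]

theorem U_bv {i : ℕ} (h : i < k) : U (bv i : Fin k → ℤ) := ⟨⟨i, h⟩, .inl (bv_eq ⟨i, h⟩).symm⟩

theorem U_ex {x : Fin k → ℤ} (h : U x) : ∃ i < k, x = bv i ∨ x = -bv i := let ⟨i, h⟩ := h; ⟨i, i.2, bv_eq i ▸ h⟩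

/-- reflections in coordinates -/
def rfv (c v : Fin k → ℤ) : (Fin k → ℤ) →+ (Fin k → ℤ) := .mk' (fun y => y - (c ⬝ᵥ y) • v) fun a b => by simp [add_smul]; abel

theorem v_sref (r s : Root M.dat) : M.v (refl r s) = rfv (M.c r) (M.v r) (M.v s) := (M.v_refl r s).trans (by rw [M.pair_cv]; rfl)

variable (M) in
/-- a Weyl group element acting as a negative cycle on the first `j + 1` coordinates, fixing those up to `n` -/
structure Cyc (j n : ℕ) (w : Weyl M.dat) (φ : (Fin k → ℤ) →+ (Fin k → ℤ)) : Prop where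
  act : ∀ r, M.v (w.1 r) = φ (M.v r)
  succ : ∀ i < j, φ (bv i) = bv (i + 1)
  top : φ (bv j) = -bv 0
  mid : ∀ i, j < i → i ≤ n → φ (bv i) = bv i
  last : φ (bv (n + 1)) = -bv (n + 1)

theorem cyc_ind {T : Prop} {α β : ℤ} (C : Crd M.toMM T α β) {n : ℕ} (h : n < k) (h0 : ∃ w φ, Cyc M 0 n w φ) : ∃ w φ, Cyc M n n w φ := by
  suffices ∀ j ≤ n, ∃ w φ, Cyc M j n w φ from this n le_rfl
  intro j hj
  induction j with
  | zero => exact h0
  | succ j ih =>
    obtain ⟨w, φ, c⟩ := ih (by omega)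
    obtain ⟨r, h1, h2⟩ := C.mid (U_bv (i := j) (by omega)) (U_bv (i := j + 1) (by omega)).neg (by simp [bv_dot])
    have e (i) (a : i ≠ j) (b : i ≠ j + 1) : rfv (M.c r) (M.v r) (bv i) = bv i := by simp [rfv, h2, bv_dot, a.symm, b.symm]
    refine ⟨w * ⟨_, sref_mem_Weyl r⟩, φ.comp (rfv (M.c r) (M.v r)), fun s => by simp [c.act, v_sref], fun i a => ?_, ?_,
      fun i a b => by simp [e i (by omega) (by omega), c.mid i (by omega) b], by simp [e (n + 1) (by omega) (by omega), c.last]⟩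
    · rcases Nat.lt_succ_iff_lt_or_eq.1 a with a | rfl
      exacts [by simp [e i (by omega) (by omega), c.succ i a], by simp [rfv, h1, h2, bv_dot, show i < k by omega, c.mid (i + 1) (by omega) hj]]
    · simp [rfv, h1, h2, bv_dot, show j + 1 < k by omega, c.top]

theorem exists_cycD (C : Crd M.toMM False 0 0) {n : ℕ} (h : k = n + 2) : ∃ w φ, Cyc M n n w φ := by
  obtain ⟨r, h1, h2⟩ := C.mid (U_bv (i := 0) (by omega)) (U_bv (i := n + 1) (by omega)) (by simp [bv_dot])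
  obtain ⟨s, h3, h4⟩ := C.mid (U_bv (i := 0) (by omega)) (U_bv (i := n + 1) (by omega)).neg (by simp [bv_dot])
  refine cyc_ind C (by omega) ⟨⟨_, sref_mem_Weyl r⟩ * ⟨_, sref_mem_Weyl s⟩, (rfv (M.c r) (M.v r)).comp (rfv (M.c s) (M.v s)),
    fun s => by simp [v_sref], by simp, ?_, fun i a b => ?_, ?_⟩ <;> simp [rfv, h1, h2, h3, h4, bv_dot, h]
  simp [show n + 1 ≠ i by omega, show 0 ≠ i by omega]

theorem exists_cycB (C : Crd M.toMM True 1 2) {n : ℕ} (h : k = n + 1) : ∃ w φ, Cyc M n n w φ := by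
  obtain ⟨r, h1, h2⟩ := C.ext trivial (U_bv (i := 0) (by omega))
  refine cyc_ind C (by omega) ⟨⟨_, sref_mem_Weyl r⟩, rfv (M.c r) (M.v r), fun s => by simp [v_sref], by simp, ?_, fun i a b => ?_, ?_⟩
  · simp [rfv, h1, h2, two_mul, bv_dot, h]; ring
  · simp [rfv, h2, two_mul, bv_dot, show 0 ≠ i by omega]
  · rw [show (bv (n + 1) : Fin k → ℤ) = 0 from funext fun a => if_neg (by omega)]; simp

/-- the signed unit vectors of the cycle -/
def Ob (j : ℕ) (x : Fin k → ℤ) : Prop := ∃ i ≤ j, x = bv i ∨ x = -bv i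

theorem Ob.neg {j : ℕ} {x : Fin k → ℤ} (h : Ob j x) : Ob j (-x) := by obtain ⟨i, a, rfl | rfl⟩ := h <;> exact ⟨i, a, by simp⟩

variable (S A) in
/-- the root subgroup with coordinates `x` lies in `A` -/
def YA (x : Fin k → ℤ) : Prop := ∃ r, M.v r = x ∧ XA S A r

theorem YA.xa {r : Root M.dat} (h : YA S A (M.v r)) : XA S A r := let ⟨_, a, b⟩ := h; M.v_inj a ▸ b

variable (S A) in
/-- edges between unit vectors -/
def EA (x y : Fin k → ℤ) : Prop := U x ∧ U y ∧ YA S A (x - y)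

theorem EA.neg {x y : Fin k → ℤ} (h : EA S A x y) : EA S A (-y) (-x) := ⟨h.2.1.neg, h.1.neg, by simpa [neg_add_eq_sub] using h.2.2⟩

namespace Cyc
variable {j : ℕ} {w : Weyl M.dat} {φ : (Fin k → ℤ) →+ (Fin k → ℤ)} (c : Cyc M j j w φ)
include c

theorem ob {x : Fin k → ℤ} (h : Ob j x) : Ob j (φ x) := by
  have k (i) (a : i ≤ j) : Ob j (φ (bv i)) := by
    rcases a.eq_or_lt with rfl | a
    exacts [⟨0, by simp, .inr c.top⟩, ⟨i + 1, a, .inl (c.succ i a)⟩]
  obtain ⟨i, a, rfl | rfl⟩ := h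
  exacts [k i a, map_neg φ _ ▸ (k i a).neg]

theorem orb {Q : (Fin k → ℤ) → Prop} (h : ∀ x, Ob j x → Q x → Q (φ x)) (h0 : Q (bv 0)) {x : Fin k → ℤ} (hx : Ob j x) : Q x := by
  have k (ε : ℤ) (b : ε = 1 ∨ ε = -1) (h0 : Q (ε • bv 0)) (i) (a : i ≤ j) : Q (ε • bv i) := by
    induction i with
    | zero => exact h0
    | succ i ih => exact c.succ i a ▸ map_zsmul φ ε _ ▸ h _ ⟨i, by omega, by rcases b with rfl | rfl <;> simp⟩ (ih (by omega))
  obtain ⟨i, a, rfl | rfl⟩ := hx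
  · simpa using k 1 (by simp) (by simpa) i a
  · simpa using k (-1) (by simp) (by simpa [c.top] using h _ ⟨j, le_rfl, by simp⟩ (k 1 (by simp) (by simpa) j le_rfl)) i a

theorem ya {n : G} (hn : n ∈ A) (a : S.AN n w) {x : Fin k → ℤ} (h : YA S A x) : YA S A (φ x) :=
  let ⟨r, b, d⟩ := h; ⟨_, b ▸ c.act r, d.act hn a.2⟩

theorem inv {r s : Root M.dat} (h : φ (M.v r) = M.v s) : w.1 r = s := M.v_inj ((c.act r).trans h)

end Cyc

section D
variable (C : Crd M.toMM False 0 0)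
include C

theorem crd_nr (r) : M.nr r = 2 := by
  obtain ⟨x, y, hx, hy, a, -, b, -⟩ | h := C.cases r
  exacts [C.nr_mid hx hy a b, h.1.elim]

theorem crd_pair (r s : Root M.dat) : pair r s = M.v r ⬝ᵥ M.v s := by rw [M.pair_cv, M.c_eq_v (crd_nr C r)]

theorem crd_cm0 {a b : Root M.dat} (h : 0 ≤ M.v a ⬝ᵥ M.v b) (t u : K) : Commute (S.x a t) (S.x b u) := by
  have h1 : M.v a ⬝ᵥ M.v a = 2 := crd_nr C a
  refine S.commute_of_Nc (by rintro rfl; simp [M.v_rev, h1] at h) ((M.Nc_eq a b).trans (by_contra fun e => ?_)) t u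
  have := crd_nr C (M.add a b)
  have h2 : M.v b ⬝ᵥ M.v b = 2 := crd_nr C b
  rw [MM.nr, M.v_add e, add_dotProduct, dotProduct_add, dotProduct_add, dotProduct_comm (M.v b) (M.v a)] at this
  omega

theorem crd_cm1 {a b c : Root M.dat} (h : M.v a ⬝ᵥ M.v b = -1) (hc : M.v c = M.v a + M.v b) :
    ∃ ε : K, ε * ε = 1 ∧ ∀ t u, ⁅S.x b u, S.x a t⁆ = S.x c (ε * t * u) := by
  rw [← crd_pair C] at h
  obtain ⟨ε, hε, e⟩ := M.slp.terms (crd_nr C a) (crd_nr C b) h
  rw [M.refl_of_v (u := c) (by rw [h, hc]; module)] at e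
  exact ⟨-ε, by rcases hε with rfl | rfl <;> simp, fun t u => by
    simp [S.commutator_x (r := a) (s := b) (fun e => by simp [e] at h) (fun e => by simp [e] at h), ChevalleyDatum.commWord, e]⟩

theorem EA.dot {x y : Fin k → ℤ} (h : EA S A x y) : x ⬝ᵥ y = 0 := by
  obtain ⟨a, b, r, d, -⟩ := h
  have := crd_nr C r
  simp only [MM.nr, d, sub_dotProduct, dotProduct_sub, a.self, b.self, dotProduct_comm y x] at this
  omega

theorem EA.add {x y z : Fin k → ℤ} (h : EA S A x y) (h' : EA S A y z) (e : x ⬝ᵥ z = 0) : EA S A x z := by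
  have h1 := h.dot C
  have h2 := h'.dot C
  obtain ⟨a, b, r, d, xr⟩ := h
  obtain ⟨-, c, s, d', xs⟩ := h'
  obtain ⟨u, f, -⟩ := C.mid a c.neg (by simp [e])
  obtain ⟨ε, h3, h4⟩ := crd_cm1 (S := S) C (a := r) (b := s) (c := u) (by simp [d, d', h1, h2, e, b.self]) (by rw [f, d, d']; abel)
  exact ⟨a, c, u, by rw [f, sub_eq_add_neg], fun t => by
    simpa [← commutatorElement_def, h4, h3] using mul_mem (cj_mem (xs t) (xr ε)) (inv_mem (xr ε))⟩

theorem ea_of {x y : Fin k → ℤ} (h : Relation.ReflTransGen (EA S A) x y) (hx : U x) (e : x ⬝ᵥ y = 0) : EA S A x y := by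
  have c2 {x y z} (a : EA S A x y) (b : EA S A y z) : x = z ∨ EA S A x z ∨ x = -z ∧ ∃ t, EA S A x t ∧ EA S A t z :=
    (a.1.tri b.2.1).imp_right fun h => h.symm.imp (fun h => a.add C b h.1) fun h => ⟨h, y, a, b⟩
  have : x = y ∨ EA S A x y ∨ x = -y ∧ ∃ t, EA S A x t ∧ EA S A t y := by
    clear e
    induction h with
    | refl => exact .inl rfl
    | tail _ b ih =>
      obtain rfl | a | ⟨rfl, t, a, a'⟩ := ih
      exacts [.inr (.inl b), c2 a b, by
        obtain rfl | rfl | d := a'.1.tri b.2.1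
        exacts [.inr (.inl a), .inr (.inl (by simpa using a'.neg)), c2 a (a'.add C b d.1)]]
  obtain rfl | a | ⟨rfl, -⟩ := this
  exacts [by simp [hx.self] at e, a, by have := hx.self; simp [e] at e this]

variable {j : ℕ} {w : Weyl M.dat} {φ : (Fin k → ℤ) →+ (Fin k → ℤ)} (c : Cyc M j j w φ) (hk : k = j + 2)
include c hk

omit C c in
theorem U_ob {x : Fin k → ℤ} (h : U x) : Ob j x ∨ x = bv (j + 1) ∨ x = -bv (j + 1) := by
  obtain ⟨i, a, b⟩ := U_ex h
  rcases (show i ≤ j + 1 by omega).eq_or_lt with rfl | d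
  exacts [.inr b, .inl ⟨i, by omega, b⟩]

omit C c in
theorem Ob.u {x : Fin k → ℤ} (h : Ob j x) : U x := by
  obtain ⟨i, a, rfl | rfl⟩ := h
  exacts [U_bv (by omega), (U_bv (by omega)).neg]

variable {n : G} (hn : n ∈ A) (a : S.AN n w)
include hn a

omit C in
theorem EA.map {x y : Fin k → ℤ} (h : EA S A x y) : EA S A (φ x) (φ y) := by
  have k {x} (h : U x) : U (φ x) := by
    obtain b | rfl | rfl := U_ob hk h
    exacts [(c.ob b).u hk, c.last ▸ h.neg, by simpa [c.last] using h.neg]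
  exact ⟨k h.1, k h.2.1, map_sub φ .. ▸ c.ya hn a h.2.2⟩

omit C in
theorem reach (h : EA S A (bv 0) (φ (bv 0))) {x y : Fin k → ℤ} (hx : Ob j x) (hy : Ob j y) : Relation.ReflTransGen (EA S A) x y := by
  have k {x} (hx : Ob j x) : EA S A x (φ x) := c.orb (Q := fun x => EA S A x (φ x)) (fun _ _ h => h.map c hk hn a) h hx
  exact (c.orb (Q := fun x => Relation.ReflTransGen (EA S A) x (bv 0)) (fun x b d => .head (by simpa using (k b.neg).neg) d) .refl hx).trans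
    (c.orb (Q := Relation.ReflTransGen (EA S A) (bv 0)) (fun x b d => d.tail (k b)) .refl hy)

theorem grp_leD (h : EA S A (bv 0) (φ (bv 0))) {x : Fin k → ℤ} (hx : Ob j x) (h' : EA S A x (-bv (j + 1))) : S.grp ≤ A := by
  have h1 := h'.map c hk hn a
  rw [map_neg, c.last, neg_neg] at h1
  have h2 {y} (hy : U y) : ∃ z, Ob j z ∧ Relation.ReflTransGen (EA S A) z y := by
    obtain b | rfl | rfl := U_ob hk hy
    exacts [⟨y, b, .refl⟩, ⟨_, c.ob hx, .single h1⟩, ⟨_, hx, .single h'⟩]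
  have h3 {y} (hy : U y) : ∃ z, Ob j z ∧ Relation.ReflTransGen (EA S A) y z := by
    obtain b | rfl | rfl := U_ob hk hy
    exacts [⟨y, b, .refl⟩, ⟨_, hx.neg, .single (by simpa using h'.neg)⟩, ⟨_, (c.ob hx).neg, .single h1.neg⟩]
  refine US_le.2 fun r _ => ?_
  obtain ⟨x, y, hx, hy, b, -, d, -⟩ | h := C.cases r
  · obtain ⟨z, e, f⟩ := h3 hx
    obtain ⟨z', e', f'⟩ := h2 hy.neg
    exact YA.xa (by simpa [d] using (ea_of C (f.trans ((reach c hk hn a h e e').trans f')) hx (by simp [b])).2.2)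
  · exact h.1.elim

end D

variable [Cert M.dat] [Finite K]

theorem gen2_D (C : Crd M.toMM False 0 0) {j : ℕ} (hk : k = j + 4) : ∃ x y : G, S.grp ≤ closure {x, y} := by
  obtain ⟨w, φ, c⟩ := exists_cycD C (n := j + 2) hk
  obtain ⟨n, a⟩ := exists_an' (S := S) w
  have u {i} (h : i < j + 4 := by omega) : U (bv i : Fin k → ℤ) := U_bv (by omega)
  have c0 := c.succ 0 (by omega)
  have o {i} (h : i ≤ j + 2 := by omega) : Ob (j + 2) (bv i : Fin k → ℤ) := ⟨i, h, .inl rfl⟩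
  obtain ⟨r, hr, -⟩ := C.mid (u (i := 0)) (u (i := 1)).neg (by simp [bv_dot])
  by_cases e : ∃ a : K, a ≠ 0 ∧ a ≠ 1
  · obtain ⟨g, hg, g1⟩ := exists_gen e
    obtain ⟨s, hs, -⟩ := C.mid (u (i := 1)).neg (u (i := j + 3)) (by simp [bv_dot])
    obtain ⟨r1, hr1, -⟩ := C.mid (u (i := j + 2)).neg (u (i := 0)).neg (by simp [bv_dot])
    obtain ⟨s1, hs1, -⟩ := C.mid (u (i := 0)).neg (u (i := j + 3)).neg (by simp [bv_dot])
    obtain ⟨s2, hs2, -⟩ := C.mid (u (i := j + 2)) (u (i := j + 3)) (by simp [bv_dot])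
    obtain ⟨β, hβ, -⟩ := C.mid (u (i := 1)) (u (i := j + 2)) (by simp [bv_dot])
    obtain ⟨x, y, h1, h2, h3⟩ := two_step hg g1 a (r := r) (s := s) (r1 := r1) (s1 := s1) (s2 := s2) (β := β)
      (c.inv (by simp [hr, hr1, c.top, c0])) (c.inv (by simp [hs, hs1, c.last, c0])) (c.inv (by simp [hs1, hs2, c.last, c.top]))
      (by simp [crd_pair C, hr, hs, hr1, hs1, hs2, hβ, bv_dot, hk])
    exact ⟨x, y, grp_leD C c hk h1 a ⟨u, c0 ▸ u, r, by rw [hr, c0, sub_eq_add_neg], h2⟩ (o (i := 1)).neg ⟨U.neg u, U.neg u, s, by simp [hs], h3⟩⟩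
  have h2 := two_of e
  obtain ⟨p, hp, -⟩ := C.mid (u (i := 0)) (u (i := j + 3)) (by simp [bv_dot])
  obtain ⟨s, hs, -⟩ := C.mid (u (i := 1)).neg (u (i := j + 3)).neg (by simp [bv_dot])
  obtain ⟨d, hd, -⟩ := C.mid (u (i := 2)) (u (i := j + 3)) (by simp [bv_dot])
  refine ⟨S.x p 1 * S.x s 1, n, ?_⟩
  have h0 := subset_closure (Set.mem_insert (S.x p 1 * S.x s 1) {n})
  have h1 := subset_closure (Set.mem_insert_of_mem (S.x p 1 * S.x s 1) (Set.mem_singleton n))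
  generalize closure {S.x p 1 * S.x s 1, n} = A at *
  have h3 : EA S A (bv 0) (φ (bv 0)) := by
    obtain ⟨ε, h3, h4⟩ := crd_cm1 (S := S) C (a := s) (b := p) (c := r) (by simp [hs, hp, bv_dot, hk]) (by rw [hr, hs, hp]; abel)
    refine ⟨u, c0 ▸ u, r, by rw [hr, c0, sub_eq_add_neg], .of_two h2 (c := ε * 1 * 1) (by rintro h; simp_all) ?_⟩
    rw [← h4, commutatorElement_def, x_inv, x_inv, (h2 (-1)).resolve_left (by simp), mul_assoc]
    exact mul_mem h0 h0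
  obtain ⟨-, -, γ, hγ, h4⟩ := ea_of C (reach c hk h1 a h3 (o (i := 0)).neg (o (i := 2)).neg) (U.neg u) (by simp [bv_dot])
  obtain ⟨ε, h5, h6⟩ := crd_cm1 (S := S) C (a := γ) (b := p) (c := d) (by simp [hγ, hp, bv_dot, hk]) (by rw [hγ, hd, hp]; abel)
  refine grp_leD C c hk h1 a h3 (o (i := 2)) ⟨u, U.neg u, d, by simp [hd], .of_two h2 (c := ε * 1 * 1) (by rintro h; simp_all) ?_⟩
  have := mul_mem (cj_mem h0 (h4 1)) (inv_mem (h4 1))
  rwa [show ∀ a b c : G, a * b * c * (a * b)⁻¹ = a * (b * c * b⁻¹) * a⁻¹ from fun a b c => by group, (crd_cm0 C (a := s) (b := γ) (by simp [hγ, hs, bv_dot]) 1 1).mul_inv_cancel, ← commutatorElement_def, h6] at this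

theorem gen2_B (C : Crd M.toMM True 1 2) {j : ℕ} (hk : k = j + 2) (h2 : (2 : K) ≠ 0) : ∃ x y : G, S.grp ≤ closure {x, y} := by
  obtain ⟨w, φ, c⟩ := exists_cycB C (n := j + 1) hk
  obtain ⟨n, a⟩ := exists_an' (S := S) w
  have u {i} (h : i < j + 2 := by omega) : U (bv i : Fin k → ℤ) := U_bv (by omega)
  obtain ⟨g, hg, g1⟩ := exists_gen (K := K) ⟨-1, by simp, fun e => h2 (by linear_combination -e)⟩
  obtain ⟨r, hr, -⟩ := C.ext trivial (u (i := 0))
  obtain ⟨r1, hr1, -⟩ := C.ext trivial (u (i := j + 1)).neg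
  obtain ⟨β, -, hβ⟩ := C.mid (u (i := 0)) (u (i := j + 1)) (by simp [bv_dot])
  obtain ⟨x, y, h1, h3⟩ := one_step hg g1 a (r := r) (r1 := r1) (β := β) (c.inv (by simp [hr, hr1, c.top]))
    (by simp [M.pair_cv, hr, hr1, hβ, bv_dot, hk])
  have h4 {z} (h : U z) : YA S _ z := c.orb (Q := YA S _) (fun _ _ => c.ya h1 a) ⟨r, by simp [hr], h3⟩ (let ⟨i, b, d⟩ := U_ex h; ⟨i, by omega, d⟩)
  refine ⟨x, y, US_le.2 fun r _ t => ?_⟩
  obtain ⟨p, q, hp, hq, b, b', d, -⟩ | ⟨-, p, hp, d, -⟩ := C.cases r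
  · obtain ⟨s, hs, hs'⟩ := C.ext trivial hp
    obtain ⟨s', ht, ht'⟩ := C.ext trivial hq
    have e : M.v r = M.v s + M.v s' := by simp [d, hs, ht]
    have h5 : M.N s s' ≠ 0 := M.Nc_eq s s' ▸ Nc_ne_of_wt (u := r) (by simpa [M.wt_eq] using M.wt_lin (a := 1) (b := 1) (by simp [e]))
    have h6 : M.pr s s' = 0 := by simp [MM.pr, hs', ht, two_mul, b]
    have h7 : (M.N s s' : K) ≠ 0 := by rcases M.N_two_of h5 h6 with h | h <;> simp [h, h2]
    have := commutator_le_self _ (S.rel.xNat_mem_comm ⟨s.2, s'.2, fun e => by simp [Fin.ext e] at h6, fun e => M.ne_neg_of_N h5 (M.v_inj (by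
      rw [M.v_neg, ← M.v_rev]; congr 1; ext; rw [Fin.val_rev]; change _ = N at e; omega)), M.add_eq h5 e ▸ M.terms_single h5 (by omega) (by rw [M.pr_zero_comm h6]; omega)⟩
      (t := -(M.N s s' : K)⁻¹) (u := t) (xNat_val S.x .. ▸ YA.xa (by simpa [hs] using h4 hp) _) (xNat_val S.x .. ▸ YA.xa (by simpa [ht] using h4 hq) _))
    rwa [neg_neg, mul_inv_cancel₀ h7, one_mul, xNat_val] at this
  · exact YA.xa (by simpa [d] using h4 hp) t

end H11
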