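import Cfsg.Agent.H11.Gen4

/-! Two-element generation of the Chevalley groups of types `G₂`, `F₄`, `E₆`, `E₇`, `E₈`: certificates `Fast.chkG`. -/

namespace H11
open Cfsg Cfsg.Lie Equiv StSys Subgroup

/-- check of a derivation of root subgroups -/
noncomputable def Fast.chkG (F : Fast) (l T : List ℕ) (st : List (ℕ × ℕ × ℕ)) : List ℕ → Bool :=
  List.rec (fun L => T.all L.contains) (fun e _ ih L => L.contains e.2.1 && Nat.blt e.2.2 F.n &&
    (e.1 == F.n && e.2.2 == l.foldr F.rf e.2.1 || L.contains e.1 && (L.contains (F.ng e.1) &&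
      allLt F.l (fun i => F.wt e.2.2 i == F.wt e.2.1 i - F.pr e.1 e.2.1 * F.wt e.1 i) ||
      e.2.1 != e.1 && e.2.1 != F.ng e.1 && (F.ct e.1 e.2.1 == [(e.2.2, 1, 1, 1)] || F.ct e.1 e.2.1 == [(e.2.2, -1, 1, 1)]))) &&
    ih (e.2.2 :: L)) st

variable {K G : Type*} [Field K] [Group G] {A : Subgroup G} {D : ChevalleyDatum} [Good D] [Cert D] {S : StSys D K G} {F : Fast}
  (a : Agree D F) {l : List (Node D)} {st : List (ℕ × ℕ × ℕ)}
include a

theorem Agree.xa_of_chk {n : G} (hn : n ∈ A) (w : S.AN n (wp sW l)) {T L : List ℕ} (hL : ∀ b ∈ L, ∃ r : Root D, r.1 = b ∧ XA S A r)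
    (h : F.chkG (l.map Fin.val) T st L = true) (r : Root D) (hr : r.1 ∈ T) : XA S A r := by
  induction st generalizing L with
  | nil =>
    obtain ⟨s, h1, h2⟩ := hL _ (by simpa using List.all_eq_true.1 h _ hr)
    exact Fin.ext h1 ▸ h2
  | cons e st ih =>
    obtain ⟨b, c, d⟩ := e
    simp only [Fast.chkG, Bool.and_eq_true, Bool.or_eq_true, List.contains_iff_mem, Nat.blt_eq, beq_iff_eq, allLt_iff, bne_iff_ne] at h
    obtain ⟨⟨⟨h1, h2⟩, h3⟩, h4⟩ := h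
    refine ih (List.forall_mem_cons.2 ⟨?_, hL⟩) h4
    obtain ⟨c, rfl, hc⟩ := hL _ h1
    obtain ⟨d, rfl⟩ : ∃ r : Root D, r.1 = d := ⟨⟨d, a.n_eq ▸ h2⟩, rfl⟩
    refine ⟨d, rfl, ?_⟩
    rcases h3 with h3 | ⟨h3, h5⟩
    · exact Fin.ext ((a.wp_val l c).trans h3.2.symm) ▸ hc.act hn w.2
    obtain ⟨b, rfl, hb⟩ := hL _ h3
    rcases h5 with ⟨h5, h6⟩ | ⟨⟨h5, h6⟩, h7⟩
    · obtain ⟨b', h7, hb'⟩ := hL _ h5
      rw [← refl_eq (r := b) (s := c) (u := d) (funext fun i => by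
        simpa [a.wt_eq, a.pair_eq, Fast.pr] using h6 i (a.lt_l i))]
      exact hc.refl hb (Fin.ext (h7.trans (a.rev_val b).symm) ▸ hb')
    · obtain ⟨ε, h8, h9⟩ : ∃ ε : ℤ, (ε : K) * ε = 1 ∧ D.commTerms b c = [(d.1, ε, 1, 1)] := by
        rw [a.ct_eq]; exact h7.elim (fun h => ⟨1, by simp, h⟩) fun h => ⟨-1, by simp, h⟩
      intro t
      have := commutator_le_self _ (S.rel.xNat_mem_comm (M := A) ⟨b.2, c.2, h5, fun e => h6 (by
        rw [← a.rev_val, Fin.val_rev]; omega), h9⟩ (t := -ε) (u := t) (xNat_val S.x .. ▸ hb _) (xNat_val S.x .. ▸ hc _))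
      rwa [neg_neg, h8, one_mul, xNat_val] at this

/-- the simple roots and their negatives -/
def Fast.sims (F : Fast) : List ℕ := (List.range F.l).flatMap fun i => [F.sim i, F.ng (F.sim i)]

theorem Agree.grp_le {n : G} (hn : n ∈ A) (w : S.AN n (wp sW l)) {L : List ℕ} (hL : ∀ b ∈ L, ∃ r : Root D, r.1 = b ∧ XA S A r)
    (h : F.chkG (l.map Fin.val) F.sims st L = true) : S.grp ≤ A :=
  have k := a.xa_of_chk hn w hL h
  grp_le_of_simple (fun i => k _ (List.mem_flatMap.2 ⟨i, List.mem_range.2 (a.lt_l i), by rw [a.sv]; simp⟩))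
    fun i => k _ (List.mem_flatMap.2 ⟨i, List.mem_range.2 (a.lt_l i), by rw [a.rev_val, a.sv]; simp⟩)

omit a [Good D] [Cert D] in
theorem exists_gen [Finite K] (h : ∃ a : K, a ≠ 0 ∧ a ≠ 1) : ∃ g : Kˣ, (∀ d, d ∈ zpowers g) ∧ g ≠ 1 := by
  obtain ⟨g, hg⟩ := IsCyclic.exists_generator (α := Kˣ)
  obtain ⟨a, h0, h1⟩ := h
  exact ⟨g, hg, by rintro rfl; exact h1 (by simpa [Units.ext_iff] using hg (.mk0 a h0))⟩

omit a [Good D] [Cert D] in
theorem two_of (h : ¬ ∃ a : K, a ≠ 0 ∧ a ≠ 1) (t : K) : t = 0 ∨ t = 1 := by_contra fun e => h ⟨t, not_or.1 e⟩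

omit a in
theorem exists_an' (w : Weyl D) : ∃ n, S.AN n w := let ⟨n, h⟩ := exists_acts_weyl (S := S) w; ⟨n, h⟩

variable [Finite K] {β r s r1 s1 s2 : Root D}

theorem Agree.gen_one (h : (F.chkG (l.map Fin.val) F.sims st [r] && (l.map Fin.val).foldr F.rf r1 == r &&
    (F.pr β r).natAbs == 1 && (F.pr β r1).natAbs == 1) = true) : ∃ x y : G, S.grp ≤ closure {x, y} := by
  simp only [Bool.and_eq_true, beq_iff_eq, Fast.pr, ← a.pair_eq, ← a.wp_val, ← Fin.ext_iff] at h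
  obtain ⟨n, w⟩ := exists_an' (S := S) (wp sW l)
  obtain ⟨x, y, h1, h2⟩ : ∃ x y : G, n ∈ Subgroup.closure {x, y} ∧ XA S (closure {x, y}) r := by
    by_cases e : ∃ a : K, a ≠ 0 ∧ a ≠ 1
    · obtain ⟨g, hg, g1⟩ := exists_gen e
      exact one_step hg g1 w h.1.1.2 (β := β) (by simp [Int.abs_eq_natAbs, h])
    · exact ⟨S.x r 1, n, subset_closure (by simp), .of_two (two_of e) one_ne_zero (subset_closure (by simp))⟩
  exact ⟨x, y, a.grp_le h1 w (by simpa using ⟨_, rfl, h2⟩) h.1.1.1⟩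

theorem Agree.gen_two (e : ∃ a : K, a ≠ 0 ∧ a ≠ 1) (h : (F.chkG (l.map Fin.val) F.sims st [r, s] && (l.map Fin.val).foldr F.rf r1 == r &&
    (l.map Fin.val).foldr F.rf s1 == s && (l.map Fin.val).foldr F.rf s2 == s1 && (F.pr β r).natAbs == 1 && (F.pr β s).natAbs == 1 &&
    (F.pr β r1).natAbs == 1 && F.pr β s1 == 0 && (F.pr β s2).natAbs == 1) = true) : ∃ x y : G, S.grp ≤ closure {x, y} := by
  simp only [Bool.and_eq_true, beq_iff_eq, Fast.pr, ← a.pair_eq, ← a.wp_val, ← Fin.ext_iff, and_assoc] at h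
  obtain ⟨n, w⟩ := exists_an' (S := S) (wp sW l)
  obtain ⟨g, hg, g1⟩ := exists_gen e
  obtain ⟨x, y, h1, h2, h3⟩ := two_step hg g1 w h.2.1 h.2.2.1 h.2.2.2.1 (β := β) (by simp [Int.abs_eq_natAbs, h])
  exact ⟨x, y, a.grp_le h1 w (by simpa using ⟨⟨_, rfl, h2⟩, _, rfl, h3⟩) h.1⟩

omit a

theorem gen2_E6 (S : StSys chevE6 K G) : ∃ x y : G, S.grp ≤ closure {x, y} :=
  agreeE6.gen_one (l := [nd _ 0, nd _ 1, nd _ 2, nd _ 3, nd _ 4, nd _ 5]) (r := rt _ 8) (r1 := rt _ 36) (β := rt _ 3)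
    (st := [(72, 8, 28), (72, 28, 23), (8, 28, 3), (72, 23, 11), (23, 3, 0), (72, 11, 56), (72, 0, 1), (72, 56, 42), (72, 1, 16), (8, 56, 19), (72, 42, 47), (72, 16, 30), (72, 19, 32), (42, 19, 22), (72, 47, 59), (72, 30, 61), (72, 32, 34), (72, 22, 46), (72, 59, 52), (72, 61, 67), (72, 34, 35), (72, 52, 39), (72, 67, 71), (8, 52, 15), (72, 39, 37), (72, 71, 70), (72, 15, 29), (72, 37, 36), (0, 70, 25)]) (by decide +kernel)
theorem gen2_E7 (S : StSys chevE7 K G) : ∃ x y : G, S.grp ≤ closure {x, y} :=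
  agreeE7.gen_one (l := [nd _ 0, nd _ 1, nd _ 2, nd _ 3, nd _ 4, nd _ 5, nd _ 6]) (r := rt _ 37) (r1 := rt _ 12) (β := rt _ 1)
    (st := [(126, 37, 18), (126, 18, 49), (126, 49, 43), (126, 43, 78), (126, 78, 95), (126, 95, 84), (126, 84, 104), (126, 104, 113), (37, 104, 93), (126, 113, 88), (126, 93, 73), (126, 88, 107), (126, 73, 79), (126, 107, 76), (126, 79, 96), (126, 76, 82), (126, 96, 85), (37, 76, 46), (93, 76, 97), (126, 82, 47), (126, 97, 86), (37, 85, 56), (82, 46, 68), (82, 97, 108), (126, 86, 69), (126, 56, 59), (18, 108, 64), (95, 68, 98), (126, 69, 66), (126, 59, 61), (126, 64, 63), (126, 98, 32), (126, 61, 62), (126, 32, 52)]) (by decide +kernel)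
theorem gen2_E8 (S : StSys chevE8 K G) : ∃ x y : G, S.grp ≤ closure {x, y} :=
  agreeE8.gen_one (l := [nd _ 0, nd _ 1, nd _ 2, nd _ 3, nd _ 4, nd _ 5, nd _ 6, nd _ 7]) (r := rt _ 31) (r1 := rt _ 50) (β := rt _ 5)
    (st := [(240, 31, 44), (240, 44, 28), (240, 28, 42), (240, 42, 27), (240, 27, 41), (240, 41, 82), (240, 82, 57), (31, 82, 14), (240, 57, 100), (240, 100, 93), (240, 93, 141), (240, 141, 164), (240, 164, 148), (240, 148, 175), (240, 175, 189), (31, 175, 88), (240, 189, 208), (240, 88, 109), (240, 208, 195), (240, 109, 113), (240, 195, 211), (240, 113, 116), (240, 211, 197), (240, 116, 118), (31, 211, 126), (14, 211, 85), (240, 197, 212), (240, 118, 119), (240, 126, 123), (197, 85, 166), (240, 212, 198), (240, 123, 121), (14, 212, 86), (88, 212, 179), (212, 166, 230), (240, 121, 120), (31, 198, 98), (28, 230, 167), (82, 179, 162), (198, 86, 168), (240, 167, 151), (240, 162, 135), (240,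 168, 77), (240, 151, 130), (240, 77, 104)]) (by decide +kernel)
theorem gen2_G2 (S : StSys chevG2 K G) (h : ∃ a : K, a ≠ 0 ∧ a ≠ 1) : ∃ x y : G, S.grp ≤ closure {x, y} :=
  agreeG2.gen_two h (l := [nd _ 0, nd _ 1]) (r := rt _ 0) (s := rt _ 3) (r1 := rt _ 1) (s1 := rt _ 2) (s2 := rt _ 4) (β := rt _ 6)
    (st := [(12, 0, 5), (12, 3, 7), (12, 5, 10), (12, 7, 9), (12, 10, 11), (12, 9, 8), (12, 11, 6), (12, 8, 4)]) (by decide +kernel)

open Pol in
theorem gen2_F4 (S : StSys chevF4 K G) : ∃ x y : G, S.grp ≤ closure {x, y} := by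
  by_cases e : ∃ a : K, a ≠ 0 ∧ a ≠ 1
  · exact agreeF4.gen_two e (l := [nd _ 0, nd _ 1, nd _ 2, nd _ 3]) (r := rt _ 0) (s := rt _ 9) (r1 := rt _ 1) (s1 := rt _ 12) (s2 := rt _ 20)
      (β := rt _ 2) (st := [(48, 0, 15), (48, 9, 19), (48, 15, 21), (48, 19, 11), (48, 21, 41), (48, 11, 33), (48, 41, 45), (48, 33, 27), (48, 45, 46), (48, 27, 35), (48, 46, 47), (48, 35, 38), (48, 47, 32), (0, 9, 39), (0, 46, 23), (0, 38, 8), (9, 0, 22), (9, 19, 7), (9, 47, 25), (48, 25, 24), (15, 8, 14), (39, 7, 20)]) (by decide +kernel)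
  have h2 := two_of e
  have hp : ((2 : ℕ) : K) = 0 := by have := h2 2; grind
  obtain ⟨n, w⟩ := exists_an' (S := S) (wp sW [nd _ 0, nd _ 1, nd _ 2, nd _ 3])
  refine ⟨S.x (rt _ 0) 1 * S.x (rt _ 9) 1, n, ?_⟩
  have h0 := subset_closure (Set.mem_insert (S.x (rt _ 0) 1 * S.x (rt _ 9) 1) {n})
  have h1 := subset_closure (Set.mem_insert_of_mem (S.x (rt _ 0) 1 * S.x (rt _ 9) 1) (Set.mem_singleton n))
  generalize closure {S.x (rt _ 0) 1 * S.x (rt _ 9) 1, n} = A at *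
  have h3 : S.x (rt _ 15) 1 * S.x (rt _ 19) 1 ∈ A := by
    obtain ⟨χ, -, c⟩ := w.2
    have := cj_mem h1 h0
    rwa [← conj_mul, c, c, (h2 _).resolve_left (χ _).ne_zero, (h2 _).resolve_left (χ _).ne_zero, one_mul,
      show _ = rt _ 15 from Fin.ext ((wp_apply _ _).trans (by decide +kernel)),
      show _ = rt _ 19 from Fin.ext ((wp_apply _ _).trans (by decide +kernel))] at this
  have h4 : XA S A (rt _ 7) := .of_two h2 one_ne_zero (by
    have := wordG_eq_of_col agreeF4 S.rel hp (fun _ => 0) (f := 50) (k := 4) (w := [(0, [(1, 1)]), (9, [(1, 1)]), (15, [(1, 1)]), (19, [(1, 1)]),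
      (0, [(1, 1)]), (9, [(1, 1)]), (15, [(1, 1)]), (19, [(1, 1)])]) (w' := [(7, [(1, 1)])]) (by decide +kernel)
    simp only [evW, List.map_cons, List.map_nil, ev_cons, ev_nil, mono_one, Int.cast_one, mul_one, add_zero, wordG_cons, wordG_nil] at this
    have h4 := mul_mem (mul_mem h0 h3) (mul_mem h0 h3)
    simp only [mul_assoc] at h4
    exact (show S.x (rt _ 7) 1 = _ from this.symm) ▸ h4)
  have h5 : XA S A (rt _ 9) := agreeF4.xa_of_chk h1 w (L := [7]) (T := [9]) (by simpa using ⟨_, rfl, h4⟩)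
    (st := [(48, 7, 8), (48, 8, 18), (48, 18, 34), (48, 34, 37), (48, 37, 44), (48, 44, 40), (48, 40, 39), (7, 39, 20), (48, 20, 12), (48, 12, 9)]) (by decide +kernel) _ (by simp)
  exact agreeF4.grp_le h1 w (L := [0, 9]) (by simpa using ⟨⟨_, rfl, .of_two h2 one_ne_zero ((mul_mem_cancel_right (h5 1)).1 h0)⟩, _, rfl, h5⟩)
    (st := [(48, 0, 15), (48, 9, 19), (48, 15, 21), (48, 19, 11), (48, 21, 41), (48, 11, 33), (48, 41, 45), (48, 33, 27), (48, 45, 46), (48, 27, 35), (48, 46, 47), (48, 35, 38), (48, 47, 32), (0, 9, 39), (0, 46, 23), (0, 38, 8), (9, 0, 22), (9, 19, 7), (9, 47, 25), (48, 25, 24), (15, 8, 14), (39, 7, 20)]) (by decide +kernel)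

end H11
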