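import Cfsg.Agent.H11.TwD
import Cfsg.Agent.H11.TwO
import Cfsg.Agent.H11.TwS
import Cfsg.Agent.L.ML7
import Cfsg.Agent.H12.LtO

/-! The Schur multiplier of the orthogonal groups of minus type: `exists_dt`, `DT.tc_U`, `mult_2D`. -/

namespace H11
open Cfsg Cfsg.Lie StSys L.RD Matrix Subgroup H12.Lt H12.Lt.OM Sum
open scoped commutatorElement
attribute [-simp] zsmul_eq_mul

universe u
section
variable {N l k : ℕ} {I : Type} [Fintype I] [DecidableEq I] {M : OM N l I (Fin k)} {K G E : Type*} [Field K] [Group G] [Group E]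
  {S : StSys M.dat K G} {σ : MulAut G} {τ : K ≃+* K} {e : Fin k → ℤ} {y : G} {lam : Kˣ} {ι : Type} [Fintype ι]

theorem exists_dt [Cert M.dat] [Finite K] (C : Crd M.toMM False 0 0) (two : 1 < k) (ue : U e) {π : Root M.dat → Root M.dat}
    (h : ∀ r t, σ (S.x r t) = S.x (π r) (τ t)) (hπ : ∀ r, M.v (π r) = M.v r - (2 * (e ⬝ᵥ M.v r)) • e) (hg : S.grp = ⊤)
    (hτ : ∀ t, τ (τ t) = t) {a : K} (h1 : τ a ≠ a) (h2 : a + τ a ≠ 0) : ∃ y lam, DT M S σ τ e y lam := by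
  have h3 : ∀ r, π (π r) = r := fun r => M.v_inj (by simp [hπ, ue.self]; module)
  have h4 : ∀ r s : Root M.dat, pair r s = M.v r ⬝ᵥ M.v s := fun r s => by
    obtain ⟨x, y, -, -, -, -, b, c⟩ | h := C.cases r
    exacts [by rw [M.pair_cv, b, c], h.1.elim]
  have h5 : ∀ r c, σ (S.h r c) = S.h (π r) (τ c) := fun r c => by
    simp [StSys.h, StSys.n, h, show π r.rev = (π r).rev from M.v_inj (by simp [hπ, M.v_rev]; module)]
  obtain ⟨w, b, c⟩ := fresh [e] (by simp [ue]) two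
  obtain ⟨r, d, -⟩ := C.mid b ue (c e (by simp)).1
  have a0 : a ≠ 0 := by rintro rfl; simp at h1
  have a1 : τ a ≠ 0 := by simpa
  refine ⟨S.h r (a / τ a) * S.h (π r) (τ a / a), .mk0 (a / τ a) (by simpa) ^ 2, C, two, ue, fun g =>
    DFunLike.congr_fun (hom_ext hg (f := σ.toMonoidHom.comp σ.toMonoidHom) (g := .id _) fun r t => by simp [h, h3, hτ]) g,
    fun r t a => by rw [h, M.v_inj (a₁ := π r) (a₂ := r) (by simp [hπ, a])], fun r => ⟨_, hπ r, fun t => ⟨_, h r t⟩⟩,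
    fun t e => ⟨t * a / (a + τ a), by simp [e, hτ, add_comm (τ a)]; field_simp⟩, ?_, fun s t => ?_, fun e => ?_⟩
  · simpa [h5, h3, hτ] using (S.hMul_of_finite.comm (π r) r (a := τ a / a) (b := a / τ a) (by simpa) (by simpa)).eq
  · rw [show ∀ a b c : G, a * b * c * (a * b)⁻¹ = a * (b * c * b⁻¹) * a⁻¹ by intros; group, h_conj _ _ (by simpa), h_conj _ _ (by simpa), h4, h4,
      hπ, d, ← inv_div a, _root_.inv_zpow', ← mul_assoc, ← zpow_add₀ (by simpa)]
    rw [← zpow_natCast, ← _root_.zpow_mul]; simp [(c e (by simp)).2, ue.self]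
  · rcases sq_eq_one_iff.1 (congrArg Units.val e : (a / τ a) ^ 2 = 1) with e | e <;> rw [Units.val_mk0, div_eq_iff a1] at e
    exacts [h1 (by linear_combination -e), h2 (by linear_combination e)]

theorem DT.lin_rel (T : DT M S σ τ e y lam) {π : Root M.dat → Root M.dat} (hπ : ∀ r, M.v (π r) = M.v r - (2 * (e ⬝ᵥ M.v r)) • e)
    (r s : Root M.dat) (h : s ≠ r.rev) : ∃ ψ ψ', 0 < fv ψ r ∧ 0 < fv ψ s ∧ ∀ u, 0 < fv ψ u → 0 < fv ψ' (π u) := by
  obtain ⟨ψ, a⟩ := T.ex_psi (M.v r + M.v s)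
  obtain ⟨ψ', b⟩ := T.ex_psi (M.v (π r) + M.v (π s))
  have h1 : M.v r ⬝ᵥ M.v r = 2 := T.nr r
  have h2 : M.v s ⬝ᵥ M.v s = 2 := T.nr s
  have h3 := dot_self_pos (x := M.v r + M.v s) fun c => h (M.v_inj (by rw [M.v_rev, eq_neg_iff_add_eq_zero, add_comm, c]))
  simp only [add_dotProduct, dotProduct_add, dotProduct_comm (M.v s) (M.v r)] at h3
  refine ⟨ψ, ψ', by simp [a, dotProduct_comm (M.v s)]; omega, by simp [a]; omega, fun u c => c.trans_eq ?_⟩
  simp [a, b, hπ, T.ue.self, dotProduct_comm _ e]; ring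

variable (T : DT M S σ τ e y lam) [Finite G]
include T

theorem DT.le_comm {x : ι → Fin k → ℤ} (F : Fam e x) : S.US (Sv M (∑ j, x j) 1) ⊓ fixS σ ≤ ⁅fixS σ, fixS σ⁆ := fun g hg => by
  choose p hp _ using fun i => T.crd.mid (F.u i) T.ue (by rw [dotProduct_comm, F.oe])
  obtain ⟨a, ha, b⟩ := (T.fp F hp).surj hg
  exact (mul_mem_cancel_right (inv_mem (commutator_mem_commutator T.hf ha.2))).1 (commutator_mono inf_le_right inf_le_right b)

theorem DT.tc_U [LinearOrder ι] (h0 : ∀ i j : ι, ∃ k, k ≠ i ∧ k ≠ j) {κ : E →* G} (hc : κ.ker ≤ center E) (hκ : κ.range = fixS σ)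
    {x : ℕ → ι → Fin k → ℤ} (F : ∀ j, Fam e (x j))
    (h1 : ∀ j (r : Root M.dat), IsPos r → (∀ j' < j, (∑ i, x j' i) ⬝ᵥ M.v r = 0) → 0 ≤ (∑ i, x j i) ⬝ᵥ M.v r)
    {n : ℕ} (h2 : ∀ r : Root M.dat, IsPos r → ¬ ∀ j < n, (∑ i, x j i) ⬝ᵥ M.v r = 0) : Tc κ S.U := by
  suffices ∀ j ≤ n, Tc κ (S.US {r | IsPos r ∧ ∀ j' < j, (∑ i, x j' i) ⬝ᵥ M.v r = 0}) by simpa [StSys.U] using this 0 n.zero_le
  refine fun j hj => Nat.decreasingInduction (fun j _ ih => T.step (F j) h0 hc hκ (fun r a s b u i i' c d e => ⟨closed_isPos r a.1 s b.1 u i i' c d e,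
    fun j' h => by rw [T.lin _ e, a.2 j' h, b.2 j' h]; simp⟩) (fun _ a => a.1) (fun r a => h1 j r a.1 a.2) (ih.mono (US_mono fun r a =>
      ⟨a.1.1, fun j' h => (Nat.lt_succ_iff_lt_or_eq.1 h).elim (a.1.2 j') fun h => h ▸ a.2⟩))) ?_ hj
  rw [Set.eq_empty_of_forall_notMem (s := {r | _}) fun r a => h2 r a.1 a.2, US_empty]
  exact tc_bot hc

end

/-- orthonormal bases -/
def xs (m j : ℕ) (i : Fin m) : Fin (m + 1) → ℤ := (if j = 0 ∨ i.val < j then 1 else -1 : ℤ) • Pi.single i.castSucc 1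

theorem fam_xs (m j : ℕ) : Fam (Pi.single (Fin.last m) 1) (xs m j) := by
  refine ⟨fun i => ⟨i.castSucc, by unfold xs; split_ifs <;> simp⟩, fun i j h => by simp [xs, h.symm, -ite_smul],
    fun i => by simp [xs, -ite_smul], ?_⟩
  rintro _ ⟨i, h⟩
  induction i using Fin.lastCases with
  | last => tauto
  | cast i => exact .inr (.inr ⟨i, by unfold xs; split_ifs <;> simp <;> tauto⟩)

theorem sum_xs (m j : ℕ) : ∑ i, xs (m + 1) j i = if j = 0 then ps m else (2 : ℤ) • ps (min j (m + 1) - 1) - ps m := by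
  ext k
  induction k using Fin.lastCases with
  | last => split_ifs <;> simp [xs, ps, -ite_smul]
  | cast i => split_ifs <;> simp [xs, ps, Pi.single_apply, -ite_smul, *] <;> (try split_ifs) <;> omega

variable {n : ℕ}

theorem ps_D {r : Root (dD n)} (h : IsPos r) :
    (∀ j, 0 ≤ ps j ⬝ᵥ (mmD (n + 1)).ord.v r) ∧ ¬ ∀ j < n + 2, ps j ⬝ᵥ (mmD (n + 1)).ord.v r = 0 := by
  have h1 : ∀ i, 2 * (mmD (n + 1)).ord.cor r i = ωD (n + 1) i ⬝ᵥ (mmD (n + 1)).ord.v r := fun i => by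
    obtain ⟨x, y, -, -, -, -, b, c⟩ | h := (crdD (n + 1)).ord.cases r
    exacts [b ▸ c ▸ (mmD (n + 1)).ord.dd_mul_cor r i, h.1.elim]
  have h2 := (OM.isPos_iff _ r).1 h
  have h3 : ∀ i : Fin (n + 3), i.val < n + 1 → (mmD (n + 1)).ord.cor r i = ps i ⬝ᵥ (mmD (n + 1)).ord.v r := fun i a => by
    have := h1 i
    rw [show ωD (n + 1) i = (2 : ℤ) • ps i by ext; simp [ωD, ps, a], smul_dotProduct, smul_eq_mul] at this; omega
  have h4 := congrArg₂ (· + ·) (h1 ⟨n + 1, by omega⟩) (h1 ⟨n + 2, by omega⟩)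
  simp only [← add_dotProduct, show ωD (n + 1) ⟨n + 1, by omega⟩ + ωD (n + 1) ⟨n + 2, by omega⟩ = (2 : ℤ) • ps (n + 1) by
    ext; simp [ωD, ps]; split_ifs <;> omega, smul_dotProduct, smul_eq_mul] at h4
  have h5 := h2 ⟨n + 1, by omega⟩
  have h6 := h2 ⟨n + 2, by omega⟩
  refine ⟨fun j => ?_, fun a => (mmD (n + 1)).ord.cor_ne_zero r (funext fun i => ?_)⟩
  · rcases lt_trichotomy j (n + 1) with a | rfl | a
    exacts [h3 ⟨j, by omega⟩ a ▸ h2 _, by omega, by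
      rw [show ps j = ωD (n + 1) ⟨n + 2, by omega⟩ by ext; simp [ωD, ps]; omega, ← h1]; omega]
  have := a (n + 1) (by omega)
  rcases lt_trichotomy i.val (n + 1) with b | b | b
  exacts [(h3 i b).trans (a _ (by omega)), by rw [show i = ⟨n + 1, by omega⟩ from Fin.ext b]; simp; omega,
    by rw [show i = ⟨n + 2, by omega⟩ from Fin.ext (by simp; omega)]; simp; omega]

theorem lev_D (i : Fin (n + 3)) : ∃ j, ∀ k ∈ orb (D := dD n) (rho n) i, 1 ≤ (∑ a, xs (n + 2) j a) ⬝ᵥ (mmD (n + 1)).ord.v (sroot (D := dD n) k) := by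
  refine ⟨if i.val < n + 1 then i + 1 else 0, fun (k : Fin (n + 3)) hk => ?_⟩
  have h1 : k.val = rho n i ∨ k.val = i := ((mem_orb_two (D := dD n) (fun i => Equiv.swap_apply_self _ _ _)).1 hk).imp (congrArg _) (congrArg _)
  rw [val_rho] at h1
  change 1 ≤ _ ⬝ᵥ (mmD (n + 1)).v ((mmD (n + 1)).σ _)
  rw [MM.σ_sroot, sum_xs]
  simp only [mmD, CM.mmO, simD]
  split_ifs at h1 ⊢ <;> simp [cmD, cmJ, εJ, ps] <;> (try split_ifs) <;> first | omega | contradiction

/-- the graph symmetry on roots -/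
noncomputable def piD (r : Root (dD n)) : Root (dD n) :=
  (mmD (n + 1)).σ.symm ⟨(sw _ ((mmD (n + 1)).σ r).1.1, sw _ ((mmD (n + 1)).σ r).1.2), by
    obtain ⟨⟨a | a, b | b⟩, h⟩ := (mmD (n + 1)).σ r <;> induction a using Fin.lastCases <;> induction b using Fin.lastCases <;>
      simp [cmD, cmJ, Fin.ext_iff] at h ⊢ <;> omega⟩

theorem v_piD (r : Root (dD n)) : (mmD (n + 1)).ord.v (piD r) =
    (mmD (n + 1)).ord.v r - (2 * (Pi.single (Fin.last _) 1 ⬝ᵥ (mmD (n + 1)).ord.v r)) • Pi.single (Fin.last _) 1 := by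
  have : ∀ a, εJ (sw (n + 2) a) = εJ a - (2 * εJ a (Fin.last _)) • Pi.single (Fin.last _) 1 := by
    rintro (a | a) <;> induction a using Fin.lastCases <;> simp [εJ, (Fin.castSucc_lt_last _).ne'] <;> module
  change (mmD (n + 1)).v ((mmD (n + 1)).σ _) = (mmD (n + 1)).v ((mmD (n + 1)).σ _) - (2 * (_ ⬝ᵥ (mmD (n + 1)).v ((mmD (n + 1)).σ _))) • _
  rw [piD, Equiv.apply_symm_apply]
  simp [mmD, CM.mmO, cmD, cmJ, this]; module

theorem piD_sroot (i : Fin (n + 3)) : piD (sroot (D := dD n) i) = sroot (rho n i) :=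
  (Equiv.symm_apply_eq _).2 (Subtype.ext (by dsimp only; rw [MM.σ_sroot, MM.σ_sroot]; exact (sim_rho i).symm))

variable {F K : Type u} [Field F] [Field K] [Finite K] {q : ℕ} {τ : K ≃+* K} (Fr : FrF 2 q τ)
include Fr

theorem cen_D : Nat.card ↥((mact (cartanM (dD (n + 1)))).ker ⊓ Tf (D := dD (n + 1)) (rho (n + 1)) fun _ => τ) = Nat.gcd 4 (q ^ (n + 4) + 1) ∧
    IsCyclic ↥((mact (cartanM (dD (n + 1)))).ker ⊓ Tf (D := dD (n + 1)) (rho (n + 1)) fun _ => τ) := by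
  let φ : Kˣ →* (Fin (n + 4) → Kˣ) := (cD (n + 2)).comp (MonoidHom.prod (.id _ / powMonoidHom q) (.id _))
  have h1 : Function.Injective φ := (cD_inj _).comp fun a b e => congrArg Prod.snd e
  have h2 : ∀ u : Kˣ, u ^ 2 = 1 → u ^ q = u := fun u a => Units.ext (by
    rw [Units.val_pow_eq_pow_val, ← Fr.eq]; rcases units_sq a with rfl | rfl <;> simp)
  have h3 : ∀ u s : Kˣ, u ^ 2 = 1 → s ^ q = s * u → ∀ k, s ^ q ^ k = s * u ^ k := fun u s a b k => by
    induction k with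
    | zero => simp
    | succ k ih => rw [pow_succ, pow_mul, ih, mul_pow, b, pow_right_comm, h2 u a, pow_succ', mul_assoc]
  have h4 : ∀ u s : Kˣ, u ^ 2 = 1 → (cD (n + 2) (u, s) ∈ Tf (D := dD (n + 1)) (rho (n + 1)) (fun _ => τ) ↔ s ^ q * s = u ^ (n + 3)) := fun u s a => by
    refine ⟨fun b => eq_mul_inv_iff_mul_eq.1 (Units.ext ?_), fun b (i : Fin (n + 4)) => ?_⟩
    · simpa [cD_apply, val_rho, Fr.eq] using (b (Fin.last _)).symm
    have := val_rho i
    have b' : τ s = u ^ (n + 3) * (s : K)⁻¹ := by simpa [Fr.eq] using congrArg Units.val (eq_mul_inv_of_mul_eq b)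
    have c : τ u = u := by rw [Fr.eq, ← Units.val_pow_eq_pow_val, h2 u a]
    rw [cD_apply, cD_apply]
    split_ifs at this ⊢ <;> try omega
    all_goals first | (simp [c, this]; done) | (simp [b']; done) | simpa [← b'] using (Fr.iter s).symm
  have h5 : (mact (cartanM (dD (n + 1)))).ker ⊓ Tf (D := dD (n + 1)) (rho (n + 1)) (fun _ => τ) =
      (powMonoidHom (Nat.gcd 4 (q ^ (n + 4) + 1))).ker.map φ := Subgroup.ext fun c => ⟨fun ⟨a, b⟩ => by
    obtain ⟨u, s, a1, a2, rfl⟩ := kerD.1 a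
    have a3 := (h4 u s a1).1 b
    have a4 : s ^ q = s * u := mul_right_cancel (b := s) (by rw [a3, mul_right_comm, ← sq, a2, ← pow_succ, pow_add u (n + 3) 2, a1, mul_one])
    refine ⟨s, pow_gcd_eq_one.2 ⟨by rw [pow_mul s 2 2, a2, pow_right_comm, a1, one_pow], by
      rw [pow_succ, h3 u s a1 a4, mul_right_comm, ← sq, a2, ← sq, pow_right_comm, a1, one_pow]⟩, congrArg (cD _) (Prod.ext ?_ rfl)⟩
    simp [a4, inv_eq_iff_mul_eq_one, ← sq, a1], by
    rintro ⟨s, a, rfl⟩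
    obtain ⟨a1, a2⟩ := pow_gcd_eq_one.1 a
    have a3 : (s / s ^ q) ^ 2 = 1 := by rw [div_pow, pow_right_comm, h2 _ (by rw [← pow_mul, a1]), div_self']
    have a4 : s ^ q = s * (s / s ^ q) := by rw [← inv_eq_of_mul_eq_one_right ((sq (s / s ^ q)).symm.trans a3)]; simp
    rw [pow_succ, h3 _ s a3 a4, mul_right_comm, ← sq] at a2
    have a5 : s ^ 2 = (s / s ^ q) ^ (n + 4) := mul_right_cancel (a2.trans (by rw [← sq, pow_right_comm, a3, one_pow]))
    exact ⟨kerD.2 ⟨_, s, a3, a5, rfl⟩, (h4 _ s a3).2 (by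
      rw [a4, mul_right_comm, ← sq, ← a4, a5, ← pow_succ, pow_add _ (n + 3) 2, a3, mul_one])⟩⟩
  rw [h5]
  refine ⟨(card_map_of_injective h1).trans (card_pow_eq_one ?_), isCyclic_of_surjective _ (equivMapOfInjective _ _ h1).surjective⟩
  rw [Fr.card]
  obtain ⟨k, rfl | rfl⟩ := q.even_or_odd'
  · rw [show Nat.gcd 4 _ = 1 from Nat.Coprime.pow_left 2 (Nat.coprime_two_left.2 (Even.add_one (by simp [Nat.even_pow])))]; simp
  · exact (Nat.gcd_dvd_left _ _).trans ⟨k * k + k, by rw [Nat.sub_eq_iff_eq_add (Nat.one_le_pow _ _ (by omega))]; ring⟩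

theorem mult_2D {ι : Type} [Fintype ι] [DecidableEq ι] {Q : (ι → F) → F} {ψ : isometryGroup F Q →* isometryGroup K (quadFormPlus (n + 4) K)}
    (h1 : Function.Injective ψ) (h2 : ψ.range = fixS (sig τ Fr.iter)) (hp : commutator (Omega F Q) = ⊤) :
    HasCyclicSchurMultiplier (POmega F Q) (Nat.gcd 4 (q ^ (n + 4) + 1)) := by
  obtain ⟨p, _⟩ := CharP.exists K
  have := Fact.mk (CharP.char_is_prime K p)
  have hτ : ∀ t, τ (τ t) = t := Fr.iter
  obtain ⟨a, a1, a2⟩ : ∃ a, τ a ≠ a ∧ a + τ a ≠ 0 := by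
    obtain ⟨a, ha⟩ : ∃ a, τ a ≠ a := by
      by_contra! h
      have := Fr.card_fix.symm.trans ((Nat.card_congr (Equiv.subtypeUnivEquiv h)).trans Fr.card)
      nlinarith [Fr.lt]
    by_cases h : a + τ a = 0
    exacts [⟨a + 1, by simpa, fun e => ha (by simp at e; linear_combination h - a * e + a * h)⟩, ⟨a, ha, h⟩]
  obtain ⟨S, hg, hS⟩ := sysD K (n + 1)
  have h3 : ∀ r t, mo (S.x r t).1 = _ := fun r t => (hS r t).trans (g_eq _ _)
  have h4 : ∀ r t, H10.commutatorEquiv (sig τ hτ) (S.x r t) = S.x (piD r) (τ t) := fun r t => Subtype.ext (mo_inj.1 (by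
    rw [h3, piD, Equiv.apply_symm_apply, ← tm_xm, ← h3]; rfl))
  have ue : U (Pi.single (Fin.last (n + 3)) (1 : ℤ)) := ⟨_, .inl rfl⟩
  obtain ⟨_, _, T'⟩ := exists_dt (crdD (n + 2)).ord (by omega) ue h4 v_piD hg hτ a1 a2
  obtain ⟨σ, h5⟩ := exists_lift h4 (fun r => (mmD (n + 2)).ord.v_inj (by simp [v_piD]; module)) hτ (T'.lin_rel v_piD)
  obtain ⟨y, lam, T⟩ := exists_dt (crdD (n + 2)).ord (by omega) ue h5 v_piD (sgSys_grp _ _) hτ a1 a2
  have h : (sgSys (dD (n + 1)) K).SimpAct σ (rho (n + 1)) 1 fun _ => τ := ⟨fun i t => by simp [h5, piD_sroot], fun i t => by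
    rw [h5, show piD (sroot i).rev = (piD (sroot i)).rev from (mmD (n + 2)).ord.v_inj (by simp [v_piD, OM.v_rev]; module), piD_sroot]; simp⟩
  have r2 : ∀ i, rho (n + 1) (rho (n + 1) i) = i := fun i => Equiv.swap_apply_self _ _ _
  obtain ⟨W, big⟩ := tw_orth p h (sgSys_grp _ _) r2 orth le_rfl fun _ a _ _ => a
  have := finite_of_gen W.gen
  have hi := torD fun E _ π C => liftD (n := n) C (sgSys_grp _ K) (perf_top (perfD K _) (sgSys_grp _ K))
    (.inr ⟨a, by rintro rfl; simp at a1, by rintro rfl; simp at a1⟩)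
  have hM := W.fix_le_MF r2 hτ hi orth
  have hc : commutator (fixS σ) = ⊤ := commutator_eq_top_of (subtype_injective _) (range_subtype _) (W.comm_eq hM fun i => by
    obtain ⟨j, b⟩ := lev_D i
    exact (inf_le_inf_right _ (US_mono fun r c => let ⟨k, c, d⟩ := (posJ_orth (orth i)).2 r c; d ▸ b k c)).trans (T.le_comm (fam_xs _ j)))
  have h6 : ∀ g, sgLift S.hMul_of_finite (σ g) = H10.commutatorEquiv (sig τ hτ) (sgLift S.hMul_of_finite g) := fun g => DFunLike.congr_fun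
    (hom_ext (sgSys_grp _ K) (f := (sgLift S.hMul_of_finite).comp σ.toMonoidHom) (g := (H10.commutatorEquiv (sig τ hτ)).toMonoidHom.comp (sgLift _))
      fun r t => by simp [h5, h4]) g
  have h7 : ∀ g, sgLift S.hMul_of_finite g = 1 → (sgSys _ K).θ g = 1 := fun g e => by
    rw [← hom_ext (sgSys_grp _ K) (f := S.θ.comp (sgLift S.hMul_of_finite)) (g := (sgSys _ K).θ) fun r t => by simp [θ_x'], MonoidHom.comp_apply, e, map_one]
  let f : fixS σ →* isometryGroup F Q := (MonoidHom.ofInjective h1).symm.toMonoidHom.comp ((((Omega K _).subtype.comp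
    (sgLift S.hMul_of_finite)).comp (fixS σ).subtype).codRestrict _ fun g => h2.ge (congrArg Subtype.val ((h6 g).symm.trans (congrArg _ g.2))))
  have h8 : ∀ g, ψ (f g) = (sgLift S.hMul_of_finite g.1).1 := fun g => MonoidHom.apply_ofInjective_symm h1 _
  let π : fixS σ →* Omega F Q := f.codRestrict _ fun g =>
    commutator_mono le_top le_top (map_commutator _ _ f ▸ mem_map_of_mem f (hc.ge (mem_top g)))
  have := Fintype.ofFinite (Quotient (Equiv.Perm.SameCycle.setoid (rho (n + 1))))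
  refine W.mult_fix big hi hc (W.mult (p := p) hM hi (rep := Quotient.out (s := Equiv.Perm.SameCycle.setoid _))
    (fun i => ⟨_, mem_orb_out.2 rfl⟩) (fun a b e => Set.disjoint_left.2 fun i c d => e ((mem_orb_out.1 c).symm.trans (mem_orb_out.1 d)))
    (fun E _ _ κ C hκ _ _ _ a => W.ri_orth r2 (orth _) hτ C hκ) (.of_sub Fact.out _ (W.not_dvd_index (fun i => card_orth r2 (orth i) h Fr)
      (Fr.char_dvd p)) fun X _ _ ξ hξ _ => eq_bot_iff.2 fun z hz => T.tc_U (fun i j => ?_) (κ := (fixS σ).subtype.comp ξ)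
        (fun z hz => hξ.2.1 (Subtype.ext hz)) (range_comp_of hξ.1) (fam_xs _) (fun j r b c => ?_) (n := n + 3) (fun r b c => (ps_D b).2 fun j d => ?_)
        z hz.2 (congrArg Subtype.val hz.1))) (π := π) (MonoidHom.range_eq_top.1 (top_unique (hp.ge.trans (commutator_le.2 fun b _ c _ => ?_))))
    (fun g e => h7 g (Subtype.ext (by rw [← h8, show f g = 1 from congrArg Subtype.val e, map_one]; rfl))) (cen_D Fr).1 (cen_D Fr).2
  · by_contra! e
    have := Finset.card_le_card (show Finset.univ ⊆ {i, j} from fun k _ => by simpa [or_iff_not_imp_left] using e k)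
    have := Finset.card_le_two (a := i) (b := j)
    simp at *; omega
  · rw [sum_xs]
    split_ifs with d
    exacts [(ps_D b).1 _, by simpa [show ps (n + 2) ⬝ᵥ (mmD (n + 2)).ord.v r = 0 by simpa [sum_xs] using c 0 (by omega)] using (ps_D b).1 _]
  · have e : ps (n + 2) ⬝ᵥ (mmD (n + 2)).ord.v r = 0 := by simpa [sum_xs] using c 0 (by omega)
    by_cases d' : j = n + 2
    exacts [d' ▸ e, by simpa [sum_xs, e, show j ≤ n + 2 by omega] using c (j + 1) (by omega)]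
  have h9 : ∀ b : Omega F Q, ∃ g, (sgLift S.hMul_of_finite g).1 = ψ b ∧ sgLift S.hMul_of_finite (σ g) = sgLift S.hMul_of_finite g := fun b => by
    obtain ⟨g, e⟩ := surj_of hg (f := sgLift S.hMul_of_finite) (fun r t => ⟨_, sgLift_x _ r t⟩)
      ⟨ψ b, commutator_mono le_top le_top (map_commutator _ _ ψ ▸ mem_map_of_mem ψ b.2)⟩
    exact ⟨g, congrArg Subtype.val e, by rw [h6, e]; exact Subtype.ext (h2.le ⟨b, rfl⟩)⟩
  obtain ⟨g, g1, g2⟩ := h9 b
  obtain ⟨g', g3, g4⟩ := h9 c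
  exact ⟨⟨⁅g, g'⁆, (map_commutatorElement σ g g').trans (H16.commutatorElement_eq_of_map_eq (fun z a => (center_eq_ker W.gen).ge (h7 z a)) g2 g4)⟩,
    Subtype.ext (h1 ((h8 _).trans (by simp [commutatorElement_def, g1, g3])))⟩

end H11
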