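import Cfsg.Agent.H11.Gen5
import Cfsg.Agent.H11.TwD2

/-! Two-element generation of the orthogonal groups of minus type (`DT.gen2`, `gen2_2D`). -/

namespace H11
open Cfsg Cfsg.Lie StSys L.RD Matrix Subgroup H12.Lt H12.Lt.OM
open scoped commutatorElement
attribute [-simp] zsmul_eq_mul

universe u
section
variable {N l k : ℕ} {I : Type} [Fintype I] [DecidableEq I] {M : OM N l I (Fin k)} {K G : Type*} [Field K] [Group G]
  {S : StSys M.dat K G} {σ : MulAut G} {τ : K ≃+* K} {e : Fin k → ℤ} {y : G} {lam : Kˣ} {ι : Type} [Fintype ι] {x : ι → Fin k → ℤ} {A : Subgroup G}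

omit [Fintype ι] in
theorem Fam.neg (F : Fam e x) : Fam e (-x) :=
  ⟨fun i => (F.u i).neg, fun i j h => by simp [F.o i j h], fun i => by simp [F.oe], fun y h => by simpa [or_comm] using F.all y h⟩

variable (T : DT M S σ τ e y lam)
include T

theorem DT.rad_le (F : Fam e x) (h : ∀ i p, M.v p = x i + e → ∀ t, S.x p t * σ (S.x p t) ∈ A) : S.US (Sv M (∑ j, x j) 1) ⊓ fixS σ ≤ A := by
  choose p hp _ using fun i => T.crd.mid (F.u i) T.ue (by rw [dotProduct_comm, F.oe])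
  have k {g} (hg : g ∈ S.US (Sv M (∑ j, x j) 1) ⊓ fixS σ) : ∃ a ∈ A ⊓ (S.US (Sv M (∑ j, x j) 1) ⊓ fixS σ), a⁻¹ * g ∈ S.US (Sv M (∑ j, x j) 2) :=
    let ⟨a, b, c⟩ := T.gen F hp hg; ⟨a, (closure_le _).2 (by rintro _ ⟨i, t, rfl⟩; exact ⟨h i _ (hp i) t, T.a_mem F hp i t⟩) b, c⟩
  intro g hg
  obtain ⟨a, b, c⟩ := k hg
  refine (mul_mem_cancel_left (inv_mem (mem_inf.1 b).1)).1 (commutator_le.2 (fun g hg g' hg' => ?_)
    (T.two_le F hp c (mul_mem (inv_mem (mem_inf.1 b).2) hg).2))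
  obtain ⟨a, b, c⟩ := k hg
  obtain ⟨a', b', c'⟩ := k hg'
  rw [commutatorElement_def, show g * g' * g⁻¹ = a * (a⁻¹ * g * g' * (a⁻¹ * g)⁻¹) * a⁻¹ by group, (T.cen F hg'.1 c).mul_inv_cancel, show a * g' * a⁻¹ * g'⁻¹ =
    a * a' * (a'⁻¹ * g' * a⁻¹ * (a'⁻¹ * g')⁻¹) * a'⁻¹ by group, (T.cen F b.2.1 c').inv_right.mul_inv_cancel]
  exact mul_mem (cj_mem b.1 b'.1) (inv_mem (mem_inf.1 b').1)

theorem DT.gen2 [Cert M.dat] [Finite K] {π : Root M.dat → Root M.dat} (h : ∀ r t, σ (S.x r t) = S.x (π r) (τ t))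
    (hπ : ∀ r, M.v (π r) = M.v r - (2 * (e ⬝ᵥ M.v r)) • e) {j : ℕ} (hk : k = j + 3) (he : e = bv (j + 2)) {c : K} (h1 : τ c ≠ c)
    (hn : ∀ w : Weyl M.dat, (∀ r, w.1 (π r) = π (w.1 r)) → ∃ n ∈ fixS σ, S.AN n w) :
    ∃ a ∈ fixS σ, ∃ b ∈ fixS σ, ∀ x : ι → Fin k → ℤ, Fam e x → S.US (Sv M (∑ j, x j) 1) ⊓ fixS σ ≤ closure {a, b} := by
  subst he
  obtain ⟨w, φ, C⟩ := exists_cycD T.crd (n := j + 1) hk
  have o {x : Fin k → ℤ} (h : Ob (j + 1) x) : bv (j + 2) ⬝ᵥ x = 0 := by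
    obtain ⟨i, a, rfl | rfl⟩ := h <;> simp [bv_dot, show j + 2 ≠ i by omega]
  have ee := T.ue.self
  have o' {x : Fin k → ℤ} (h : U x) : bv (j + 2) ⬝ᵥ φ x = -(bv (j + 2) ⬝ᵥ x) := by
    obtain b | rfl | rfl := U_ob (j := j + 1) hk h
    exacts [by simp [o b, o (C.ob b)], by simp [C.last], by simp [C.last]]
  obtain ⟨n, n1, a⟩ := hn w fun r => M.v_inj (by
    obtain ⟨x, y, hx, hy, -, -, d, -⟩ | h := T.crd.cases r
    exacts [by simp [C.act, hπ, d, o' hx, o' hy, C.last]; module, h.1.elim])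
  obtain ⟨g, hg⟩ := IsCyclic.exists_generator (α := Kˣ)
  have g1 : τ g ≠ g := fun e => by
    obtain ⟨i, b⟩ := hg (.mk0 c (by rintro rfl; simp at h1))
    exact h1 (by rw [← show (g : K) ^ i = c by simpa using congrArg Units.val b, map_zpow₀, e])
  have u {i} (h : i < j + 3 := by omega) : U (bv i : Fin k → ℤ) := U_bv (by omega)
  obtain ⟨p, hp, -⟩ := T.crd.mid (u (i := 0)) T.ue (by simp [bv_dot])
  obtain ⟨q, hq, -⟩ := T.crd.mid (u (i := j + 1)).neg T.ue.neg (by simp [bv_dot])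
  have h5 : σ (S.h p g) = S.h (π p) (τ g) := by
    simp [StSys.h, StSys.n, h, show π p.rev = (π p).rev from M.v_inj (by simp [hπ, M.v_rev]; module)]
  have τg : τ g ≠ 0 := by simp
  have hy := mul_mem (h_mem_H (S := S) p g.ne_zero) (h_mem_H (π p) τg)
  have y1 : S.h p g * S.h (π p) (τ g) ∈ fixS σ := mem_fixS.2 (by
    rw [map_mul, ← h5, T.inv, h5]; exact H_comm (S := S) (h_mem_H _ τg) (h_mem_H _ g.ne_zero))
  have c0 (r t) : S.h p g * S.h (π p) (τ g) * S.x r t * (S.h p g * S.h (π p) (τ g))⁻¹ = S.x r (g ^ pair p r * τ g ^ pair (π p) r * t) := by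
    rw [show ∀ a b c : G, a * b * c * (a * b)⁻¹ = a * (b * c * b⁻¹) * a⁻¹ by intros; group, h_conj _ _ τg, h_conj _ _ g.ne_zero, mul_assoc]
  have cj {z} (hz : z ∈ fixS σ) (a : G) : z * (a * σ a) * z⁻¹ = z * a * z⁻¹ * σ (z * a * z⁻¹) := by simp [mem_fixS.1 hz, mul_assoc]
  have cm {x : Fin k → ℤ} {p} (hx : U x) (b : bv (j + 2) ⬝ᵥ x = 0) (hp : M.v p = x + bv (j + 2) ∨ M.v p = x - bv (j + 2)) (s t) : Commute (S.x p s) (σ (S.x p t)) := by
    rw [h]; refine T.cm0 ?_ _ _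
    rcases hp with hp | hp <;> simp [hπ, hp, hx.self, b, ee, dotProduct_comm x]
  have c1 := cm u (by simp [bv_dot]) (.inl hp)
  have x1 : S.x p 1 * σ (S.x p 1) ∈ fixS σ := mem_fixS.2 (by rw [map_mul, T.inv, (c1 1 1).eq])
  refine ⟨_, y1, _, mul_mem x1 n1, fun x F => ?_⟩
  have h0 := subset_closure (Set.mem_insert (S.h p g * S.h (π p) (τ g)) {S.x p 1 * σ (S.x p 1) * n})
  have h2 := subset_closure (Set.mem_insert_of_mem (S.h p g * S.h (π p) (τ g)) (Set.mem_singleton (S.x p 1 * σ (S.x p 1) * n)))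
  generalize closure {_, S.x p 1 * σ (S.x p 1) * n} = A at *
  have e1 : w.1.symm p = q := w.1.symm_apply_eq.2 (C.inv (by simp [hp, hq, C.top, C.last])).symm
  have h3 := ext1 (A := A) (X := fun t => S.x p t * σ (S.x p t)) (a := g ^ 2) (b := τ g / g)
    (fun s t => by rw [← S.add, map_mul, (c1 t s).mul_mul_mul_comm]) (fun t => by
      rw [cj y1, c0]; simp [T.pair_v, hπ, hp, bv_dot, hk]) (fun t => by
      rw [cj (mul_mem (mul_mem n1 y1) (inv_mem n1)), dg_conj a c0, e1]; simp [T.pair_v, hπ, hp, hq, bv_dot, hk, div_eq_inv_mul])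
    (H_comm hy (conj_mem_H a.1 hy)) (fun e => g1 (by rcases sq_eq_one_iff.1 e with e | e <;> simp [e])) (fun e => g1 (by simpa [div_eq_iff] using e))
    (top_of_gen hg) h0 (by convert cj_mem h2 h0 using 1; group)
  have h4 := (mul_mem_cancel_left (h3 1)).1 h2
  refine T.rad_le F fun i => C.orb (Q := fun x => ∀ p, M.v p = x + bv (j + 2) → ∀ t, S.x p t * σ (S.x p t) ∈ A) (fun x b d p' e t => ?_)
    (fun p' e => M.v_inj (e.trans hp.symm) ▸ h3) ((U_ob (j := j + 1) hk (F.u i)).resolve_right fun e => by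
      have := F.oe i; rcases e with e | e <;> simp [e, ee] at this)
  obtain ⟨r, f, -⟩ := T.crd.mid (b.u hk) T.ue (by rw [dotProduct_comm, o b])
  obtain ⟨χ, -, f'⟩ := a.2
  have f1 : M.v (w.1 r) = φ x - bv (j + 2) := by simp [C.act, f, C.last, sub_eq_add_neg]
  have := cj_mem h4 (d r f ((χ r)⁻¹ * τ.symm t))
  rw [cj n1, f', (cm ((C.ob b).u hk) (o (C.ob b)) (.inr f1) _ _).eq] at this
  rw [← τ.apply_symm_apply t, ← show π (w.1 r) = p' from M.v_inj (by simp [hπ, f1, e, o (C.ob b), ee]; module), ← h, T.inv]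
  simpa using this

end

set_option maxHeartbeats 400000 in
theorem gen2_2D {n : ℕ} {F K : Type u} [Field F] [Field K] [Finite K] {q : ℕ} {τ : K ≃+* K} (Fr : FrF 2 q τ) {ι : Type} [Fintype ι] [DecidableEq ι]
    {Q : (ι → F) → F} {ψ : isometryGroup F Q →* isometryGroup K (quadFormPlus (n + 4) K)} (h1 : Function.Injective ψ)
    (h2 : ψ.range = fixS (sig τ Fr.iter)) (hp : commutator (Omega F Q) = ⊤) : ∃ a b : POmega F Q, closure {a, b} = ⊤ := by
  obtain ⟨p, _⟩ := CharP.exists K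
  have := Fact.mk (CharP.char_is_prime K p)
  have hτ : ∀ t, τ (τ t) = t := Fr.iter
  obtain ⟨a, a1, a2⟩ : ∃ a, τ a ≠ a ∧ a + τ a ≠ 0 := by
    obtain ⟨a, ha⟩ : ∃ a, τ a ≠ a := by
      by_contra! h
      have := Fr.card_fix.symm.trans ((Nat.card_congr (Equiv.subtypeUnivEquiv h)).trans Fr.card)
      nlinarith [Fr.lt]
    by_cases h : a + τ a = 0
    exacts [⟨a + 1, by simpa, fun e => ha (by simp at e; linear_combination h - a * e + a * h)⟩, ⟨a, ha, h⟩]
  obtain ⟨S, hg, hS⟩ := sysD K (n + 1)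
  have h3 : ∀ r t, mo (S.x r t).1 = _ := fun r t => (hS r t).trans (g_eq _ _)
  have h4 : ∀ r t, H10.commutatorEquiv (sig τ hτ) (S.x r t) = S.x (piD r) (τ t) := fun r t => Subtype.ext (mo_inj.1 (by
    rw [h3, piD, Equiv.apply_symm_apply, ← tm_xm, ← h3]; rfl))
  have ue : U (Pi.single (Fin.last (n + 3)) (1 : ℤ)) := ⟨_, .inl rfl⟩
  obtain ⟨_, _, T'⟩ := exists_dt (crdD (n + 2)).ord (by omega) ue h4 v_piD hg hτ a1 a2
  obtain ⟨σ, h5⟩ := exists_lift h4 (fun r => (mmD (n + 2)).ord.v_inj (by simp [v_piD]; module)) hτ (T'.lin_rel v_piD)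
  obtain ⟨y, lam, T⟩ := exists_dt (crdD (n + 2)).ord (by omega) ue h5 v_piD (sgSys_grp _ _) hτ a1 a2
  have h : (sgSys (dD (n + 1)) K).SimpAct σ (rho (n + 1)) 1 fun _ => τ := ⟨fun i t => by simp [h5, piD_sroot], fun i t => by
    rw [h5, show piD (sroot i).rev = (piD (sroot i)).rev from (mmD (n + 2)).ord.v_inj (by simp [v_piD, OM.v_rev]; module), piD_sroot]; simp⟩
  have r2 : ∀ i, rho (n + 1) (rho (n + 1) i) = i := fun i => Equiv.swap_apply_self _ _ _
  obtain ⟨W, -⟩ := tw_orth p h (sgSys_grp _ _) r2 orth le_rfl fun _ a _ _ => a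
  have := finite_of_gen W.gen
  have hM := W.fix_le_MF r2 hτ (torD fun E _ π C => liftD (n := n) C (sgSys_grp _ K) (perf_top (perfD K _) (sgSys_grp _ K))
    (.inr ⟨a, by rintro rfl; simp at a1, by rintro rfl; simp at a1⟩)) orth
  obtain ⟨u, hu, v, hv, k⟩ := T.gen2 (ι := Fin (n + 3)) h5 v_piD (j := n + 1) rfl (bv_eq _) a1 fun w b =>
    let ⟨m, c, d⟩ := (W.exists_rep (w := w) fun r => by simpa only [fun r => h.R_eq (r := r) fun t => ⟨_, h5 r t⟩] using b r).1; ⟨m, c, d ▸ an_π m⟩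
  have hA : fixS σ ≤ closure {u, v} := hM.trans (iSup_le fun i => by
    obtain ⟨j, b⟩ := lev_D i
    refine sup_le ((inf_le_inf_right _ (US_mono fun r c => let ⟨k, c, d⟩ := (posJ_orth (orth i)).2 r c; d ▸ b k c)).trans (k _ (fam_xs _ j)))
      ((inf_le_inf_right _ (US_mono fun r c => ?_)).trans (k _ (fam_xs _ j).neg))
    obtain ⟨k, c, d⟩ := (posJ_orth (orth i)).2 r.rev ⟨isPos_rev_iff.2 c.1, by simpa [inJ_rev] using c.2⟩
    simpa [← d, OM.v_rev] using b k c)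
  have h6 : ∀ g, sgLift S.hMul_of_finite (σ g) = H10.commutatorEquiv (sig τ hτ) (sgLift S.hMul_of_finite g) := fun g => DFunLike.congr_fun
    (hom_ext (sgSys_grp _ K) (f := (sgLift S.hMul_of_finite).comp σ.toMonoidHom) (g := (H10.commutatorEquiv (sig τ hτ)).toMonoidHom.comp (sgLift _))
      fun r t => by simp [h5, h4]) g
  have h7 : ∀ g, sgLift S.hMul_of_finite g = 1 → (sgSys _ K).θ g = 1 := fun g e => by
    rw [← hom_ext (sgSys_grp _ K) (f := S.θ.comp (sgLift S.hMul_of_finite)) (g := (sgSys _ K).θ) fun r t => by simp [θ_x'], MonoidHom.comp_apply, e, map_one]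
  have h9 : ∀ b : Omega F Q, ∃ g, (sgLift S.hMul_of_finite g).1 = ψ b ∧ sgLift S.hMul_of_finite (σ g) = sgLift S.hMul_of_finite g := fun b => by
    obtain ⟨g, e⟩ := surj_of hg (f := sgLift S.hMul_of_finite) (fun r t => ⟨_, sgLift_x _ r t⟩)
      ⟨ψ b, commutator_mono le_top le_top (map_commutator _ _ ψ ▸ mem_map_of_mem ψ b.2)⟩
    exact ⟨g, congrArg Subtype.val e, by rw [h6, e]; exact Subtype.ext (h2.le ⟨b, rfl⟩)⟩
  have hc : commutator (fixS σ) = ⊤ := commutator_eq_top_of (subtype_injective _) (range_subtype _) (W.comm_eq hM fun i => by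
    obtain ⟨j, b⟩ := lev_D i
    exact (inf_le_inf_right _ (US_mono fun r c => let ⟨k, c, d⟩ := (posJ_orth (orth i)).2 r c; d ▸ b k c)).trans (T.le_comm (fam_xs _ j)))
  let f : fixS σ →* isometryGroup F Q := (MonoidHom.ofInjective h1).symm.toMonoidHom.comp ((((Omega K _).subtype.comp
    (sgLift S.hMul_of_finite)).comp (fixS σ).subtype).codRestrict _ fun g => h2.ge (congrArg Subtype.val ((h6 g).symm.trans (congrArg _ g.2))))
  have h8 : ∀ g, ψ (f g) = (sgLift S.hMul_of_finite g.1).1 := fun g => MonoidHom.apply_ofInjective_symm h1 _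
  let π : fixS σ →* Omega F Q := f.codRestrict _ fun g =>
    commutator_mono le_top le_top (map_commutator _ _ f ▸ mem_map_of_mem f (hc.ge (mem_top g)))
  have hπ : π.range = ⊤ := top_unique (hp.ge.trans (commutator_le.2 fun b _ c _ => by
    obtain ⟨g, g1, g2⟩ := h9 b
    obtain ⟨g', g3, g4⟩ := h9 c
    exact ⟨⟨⁅g, g'⁆, (map_commutatorElement σ g g').trans (H16.commutatorElement_eq_of_map_eq (fun z a => (center_eq_ker W.gen).ge (h7 z a)) g2 g4)⟩,
      Subtype.ext (h1 ((h8 _).trans (by simp [commutatorElement_def, g1, g3])))⟩))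
  obtain ⟨u, v, e⟩ := two_gen_of (subtype_injective (fixS σ)) ((range_subtype _).ge hu) ((range_subtype _).ge hv) ((range_subtype _).le.trans hA)
  refine ⟨QuotientGroup.mk' _ (π u), QuotientGroup.mk' _ (π v), ?_⟩
  rw [← Set.image_pair, ← MonoidHom.map_closure, ← Set.image_pair, ← MonoidHom.map_closure, e, ← MonoidHom.range_eq_map, hπ,
    ← MonoidHom.range_eq_map, QuotientGroup.range_mk']

end H11
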