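import Mathlib
import Cfsg.Agent.H11.Cox

/-! Generic Hecke algebra matrices (namespace `H11.Hk`): left multiplications `Lm`, `Lw`, the averaging matrix `Pm`,
the commutator matrix `Dm`, their compatibility with ring homomorphisms, and the semicontinuity lemma `rank_add_le`. -/

namespace H11.Hk
open Polynomial Matrix Classical

theorem exists_PQ {m n K : Type*} [Field K] [Fintype m] [Fintype n] (A : Matrix m n K) :
    ∃ (P : Matrix (Fin A.rank) m K) (Q : Matrix n (Fin A.rank) K), P * A * Q = 1 := by
  let f := A.mulVecLin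
  obtain ⟨σ, hσ⟩ := f.rangeRestrict.exists_rightInverse_of_surjective f.range_rangeRestrict
  let e : (Fin A.rank → K) ≃ₗ[K] LinearMap.range f := LinearEquiv.ofFinrankEq _ _ (by rw [Module.finrank_fin_fun]; rfl)
  have h1 : f ∘ₗ (σ ∘ₗ e.toLinearMap) = (LinearMap.range f).subtype ∘ₗ e.toLinearMap := by
    refine LinearMap.ext fun x => ?_
    exact congrArg Subtype.val (LinearMap.congr_fun hσ (e x))
  obtain ⟨p, hp⟩ := ((LinearMap.range f).subtype ∘ₗ e.toLinearMap).exists_leftInverse_of_injective
    (LinearMap.ker_eq_bot.2 (Subtype.val_injective.comp e.injective))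
  refine ⟨LinearMap.toMatrix' p, LinearMap.toMatrix' (σ ∘ₗ e.toLinearMap), ?_⟩
  have h2 : A = LinearMap.toMatrix' f := by
    rw [show f = Matrix.toLin' A from rfl, LinearMap.toMatrix'_toLin']
  conv_lhs => rw [Matrix.mul_assoc]; enter [2, 1]; rw [h2]
  rw [← LinearMap.toMatrix'_comp, ← LinearMap.toMatrix'_comp, h1, hp, LinearMap.toMatrix'_id]

theorem exists_poly {m n : Type*} [Fintype m] [Fintype n] (A : Matrix m n ℂ[X]) (u0 : ℂ) :
    ∃ p : ℂ[X], p ≠ 0 ∧ ∀ u, p.eval u ≠ 0 → (A.map (evalRingHom u0)).rank ≤ (A.map (evalRingHom u)).rank := by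
  obtain ⟨P, Q, h⟩ := exists_PQ (A.map (evalRingHom u0))
  have key : ∀ u, (P.map C * A * Q.map C).det.eval u = (P * A.map (evalRingHom u) * Q).det := fun u => by
    rw [← coe_evalRingHom, RingHom.map_det, RingHom.mapMatrix_apply, Matrix.map_mul, Matrix.map_mul,
      Matrix.map_map, Matrix.map_map]
    congr 3 <;> ext <;> exact eval_C
  refine ⟨(P.map C * A * Q.map C).det, fun h0 => ?_, fun u hu => ?_⟩
  · have := key u0
    rw [h0, h, Matrix.det_one, eval_zero] at this
    exact zero_ne_one this
  · rw [key] at hu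
    have := Matrix.rank_of_det_ne_zero hu
    rw [Fintype.card_fin] at this
    rw [← this]
    exact (Matrix.rank_mul_le_left _ _).trans (Matrix.rank_mul_le_right _ _)

theorem rank_add_le {m n : Type*} [Fintype m] [Fintype n] (D : Matrix m n ℂ[X]) (A : Matrix n n ℂ[X])
    (h : {u : ℂ | D.map (evalRingHom u) * A.map (evalRingHom u) = 0}.Infinite) (u0 u1 : ℂ) :
    (D.map (evalRingHom u0)).rank + (A.map (evalRingHom u1)).rank ≤ Fintype.card n := by
  obtain ⟨p, hp, h1⟩ := exists_poly D u0
  obtain ⟨p', hp', h2⟩ := exists_poly A u1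
  obtain ⟨u, hu, hu'⟩ := h.exists_notMem_finite (Polynomial.finite_setOfPred_isRoot (mul_ne_zero hp hp'))
  have h3 : p.eval u * p'.eval u ≠ 0 := by simpa [IsRoot] using hu'
  exact (add_le_add (h1 u (left_ne_zero_of_mul h3)) (h2 u (right_ne_zero_of_mul h3))).trans
    (Matrix.rank_add_rank_le_card_of_mul_eq_zero hu)

variable {ι W R R' : Type*} [Group W] [Fintype W] [CommRing R] [CommRing R'] (s : ι → W) (A : ι → W → Prop)

/-- left multiplication by the normalised generator -/
noncomputable def Lm (u : R) (i : ι) : Matrix W W R := Matrix.of fun y v =>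
  if A i v then (if y = s i * v then 1 else 0) else (if y = s i * v then u else 0) + (if y = v then 1 - u else 0)

/-- a chosen reduced word -/
noncomputable def rw (w : W) : List ι := if h : ∃ l, Red s l ∧ wp s l = w then h.choose else []

noncomputable def Lw (u : R) (w : W) : Matrix W W R := ((rw s w).map (Lm s A u)).prod

noncomputable def Pm (u : R) : Matrix W W R :=
  ∑ w, u ^ ((∑ v, len s v) - len s w) • (Lw s A u w * Matrix.of fun y x => Lw s A u x y w⁻¹)

noncomputable def Dm (u : R) : Matrix (W × W) W R := Matrix.of fun p x => Lw s A u p.1 p.2 x - Lw s A u x p.2 p.1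

omit [Fintype W] in
theorem Lm_map (f : R →+* R') (u : R) (i : ι) : (Lm s A u i).map f = Lm s A (f u) i := by
  ext y v
  simp only [Lm, Matrix.map_apply, Matrix.of_apply]
  split_ifs <;> simp

theorem Lw_map (f : R →+* R') (u : R) (w : W) : (Lw s A u w).map f = Lw s A (f u) w := by
  rw [Lw, Lw, ← RingHom.mapMatrix_apply, map_list_prod, List.map_map]
  congr 2
  funext i
  exact Lm_map s A f u i

theorem Pm_map (f : R →+* R') (u : R) : (Pm s A u).map f = Pm s A (f u) := by
  ext y x
  simp only [Pm, Matrix.map_apply, Matrix.sum_apply, Matrix.smul_apply, Matrix.mul_apply, Matrix.of_apply, map_sum,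
    smul_eq_mul, map_mul, map_pow, ← Lw_map s A f]

theorem Dm_map (f : R →+* R') (u : R) : (Dm s A u).map f = Dm s A (f u) := by
  ext p x
  simp only [Dm, Matrix.map_apply, Matrix.of_apply, map_sub, ← Lw_map s A f]

theorem rank_DP (h : {u : ℂ | Dm s A u * Pm s A u = 0}.Infinite) (u0 u1 : ℂ) :
    (Dm s A u0).rank + (Pm s A u1).rank ≤ Fintype.card W := by
  have hX : ∀ u : ℂ, evalRingHom u X = u := fun u => eval_X
  have := rank_add_le (Dm s A (X : ℂ[X])) (Pm s A X) (by simpa only [Dm_map, Pm_map, hX] using h) u0 u1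
  simpa only [Dm_map, Pm_map, hX] using this

omit [Fintype W] in
theorem rw_spec (h : InvGen s) (w : W) : Red s (rw s w) ∧ wp s (rw s w) = w := by
  rw [rw, dif_pos (h.exists_red w)]
  exact (h.exists_red w).choose_spec

end H11.Hk
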