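import Mathlib
import Cfsg.Agent.H11.Hk1
import Cfsg.Agent.H20.Omega
import Cfsg.Agent.H12.StChar

/-! The Hecke algebra `e ℂ[G] e` of a finite group with a cell decomposition (namespace `H11.Hk`): the structure `HD`,
the realisation `Phi` of the generic matrices at `u = q⁻¹`. -/

namespace H11.Hk
open MonoidAlgebra Cfsg H05 H20 Classical Matrix

variable {G : Type*} [Group G] [Fintype G]

/-- the idempotent of a subgroup -/
noncomputable def eS (B : Subgroup G) : ℂ[G] := (Nat.card B : ℂ)⁻¹ • ∑ b : B, single (b : G) 1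

variable {B : Subgroup G}

theorem single_mul_eS {b : G} (hb : b ∈ B) : single b 1 * eS B = eS B := by
  rw [eS, mul_smul_comm, Finset.mul_sum]
  congr 1
  refine Fintype.sum_equiv (Equiv.mulLeft (⟨b, hb⟩ : B)) _ _ fun x => ?_
  simp [single_mul_single]

theorem eS_mul_single {b : G} (hb : b ∈ B) : eS B * single b 1 = eS B := by
  rw [eS, smul_mul_assoc, Finset.sum_mul]
  congr 1
  refine Fintype.sum_equiv (Equiv.mulRight (⟨b, hb⟩ : B)) _ _ fun x => ?_
  simp [single_mul_single]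

theorem avg_const (a : ℂ[G]) : (Nat.card B : ℂ)⁻¹ • ∑ _b : B, a = a := by
  rw [Finset.sum_const, Finset.card_univ, ← Nat.cast_smul_eq_nsmul ℂ, smul_smul, ← Nat.card_eq_fintype_card,
    inv_mul_cancel₀ (H12.St.card_ne B), one_smul]

theorem eS_mul_eS : eS B * eS B = eS B := by
  conv_lhs => enter [1]; rw [eS]
  rw [smul_mul_assoc, Finset.sum_mul, Finset.sum_congr rfl fun b _ => single_mul_eS b.2, avg_const]

variable (B) in
noncomputable def Eg (g : G) : ℂ[G] := eS B * single g 1 * eS B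

theorem Eg_bgb {b b' : G} (hb : b ∈ B) (hb' : b' ∈ B) (g : G) : Eg B (b * g * b') = Eg B g := by
  have : (single (b * g * b') 1 : ℂ[G]) = single b 1 * single g 1 * single b' 1 := by simp [single_mul_single]
  rw [Eg, this, ← mul_assoc, ← mul_assoc, eS_mul_single hb, mul_assoc, single_mul_eS hb', Eg]

theorem Eg_one : Eg B 1 = eS B := by rw [Eg, ← one_def, mul_one, eS_mul_eS]

theorem eS_mul_Eg (g : G) : eS B * Eg B g = Eg B g := by rw [Eg, ← mul_assoc, ← mul_assoc, eS_mul_eS]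

theorem Eg_mul_eS (g : G) : Eg B g * eS B = Eg B g := by rw [Eg, mul_assoc, eS_mul_eS]

theorem Eg_mul_Eg (x y : G) : Eg B x * Eg B y = (Nat.card B : ℂ)⁻¹ • ∑ b : B, Eg B (x * b * y) := by
  have : Eg B x * Eg B y = eS B * single x 1 * eS B * (single y 1 * eS B) := by
    rw [Eg, Eg, mul_assoc, ← mul_assoc (eS B), ← mul_assoc (eS B), eS_mul_eS]; simp only [mul_assoc]
  rw [this]
  conv_lhs => enter [1, 2]; rw [eS]
  rw [mul_smul_comm, smul_mul_assoc, Finset.mul_sum, Finset.sum_mul]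
  refine congrArg _ (Finset.sum_congr rfl fun b _ => ?_)
  have : (single (x * b * y) 1 : ℂ[G]) = single x 1 * single (b : G) 1 * single y 1 := by simp [single_mul_single]
  rw [Eg, this]; simp only [mul_assoc]

theorem ev_eS (χ : G → ℂ) : ev χ (eS B) = H12.St.avg B χ := by
  simp [eS, H12.St.avg, map_sum, div_eq_inv_mul]

theorem ev_Eg {χ : G → ℂ} (h : ∀ b ∈ B, ∀ b' ∈ B, ∀ g, χ (b * g * b') = χ g) (g : G) : ev χ (Eg B g) = χ g := by
  have h0 := H12.St.card_ne B
  simp only [Eg, eS, smul_mul_assoc, mul_smul_comm, Finset.sum_mul, Finset.mul_sum, single_mul_single, map_smul, map_sum,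
    ev_single, one_mul, smul_eq_mul]
  rw [Finset.sum_congr rfl fun b' _ => Finset.sum_congr rfl fun b _ => by rw [h _ b.2 _ b'.2]]
  simp only [Finset.sum_const, Finset.card_univ, nsmul_eq_mul, ← Nat.card_eq_fintype_card]
  field_simp

variable {ι W : Type*} [Group W]

/-- a Hecke datum -/
structure HD (s : ι → W) (A : ι → W → Prop) (B : Subgroup G) (δ : G → W) (q : ℕ) : Prop where
  cox : PreCox s A
  q0 : q ≠ 0
  surj : Function.Surjective δ
  eq_iff : ∀ g g', δ g = δ g' ↔ ∃ b ∈ B, ∃ b' ∈ B, g' = b * g * b'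
  one : δ 1 = 1
  inv : ∀ g, δ g⁻¹ = (δ g)⁻¹
  step : ∀ i x y, δ x = s i → A i (δ y) → δ (x * y) = s i * δ y
  sq : ∀ i x y, δ x = s i → δ y = s i → δ (x * y) = 1 ∨ δ (x * y) = s i
  card : ∀ w, (Finset.univ.filter (δ · = w)).card = Nat.card B * q ^ len s w

noncomputable def EW (B : Subgroup G) (δ : G → W) (w : W) : ℂ[G] := Eg B (Function.invFun δ w)

noncomputable def Phi [Fintype W] (B : Subgroup G) (δ : G → W) : (W → ℂ) →ₗ[ℂ] ℂ[G] :=
  Fintype.linearCombination ℂ (EW B δ)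

omit [Group W] in
theorem Phi_apply [Fintype W] (δ : G → W) (a : W → ℂ) : Phi B δ a = ∑ w, a w • EW B δ w :=
  Fintype.linearCombination_apply _ _ _

omit [Group W] in
theorem eS_mul_Phi [Fintype W] (δ : G → W) (a : W → ℂ) : eS B * Phi B δ a = Phi B δ a := by
  simp only [Phi_apply, Finset.mul_sum, mul_smul_comm, EW, eS_mul_Eg]

omit [Group W] in
theorem Phi_mul_eS [Fintype W] (δ : G → W) (a : W → ℂ) : Phi B δ a * eS B = Phi B δ a := by
  simp only [Phi_apply, Finset.sum_mul, smul_mul_assoc, EW, Eg_mul_eS]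

namespace HD
variable {s : ι → W} {A : ι → W → Prop} {δ : G → W} {q : ℕ} (C : HD s A B δ q)
include C

theorem sec (w : W) : δ (Function.invFun δ w) = w := Function.rightInverse_invFun C.surj w

theorem bi {b b' : G} (hb : b ∈ B) (hb' : b' ∈ B) (g : G) : δ (b * g * b') = δ g :=
  ((C.eq_iff _ _).2 ⟨b, hb, b', hb', rfl⟩).symm

theorem mem_iff {g : G} : δ g = 1 ↔ g ∈ B := by
  rw [← C.one, eq_comm, C.eq_iff]
  exact ⟨fun ⟨b, hb, b', hb', e⟩ => by rw [e, mul_one]; exact mul_mem hb hb', fun h => ⟨g, h, 1, one_mem _, by simp⟩⟩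

theorem Eg_eq (g : G) : Eg B g = EW B δ (δ g) := by
  obtain ⟨b, hb, b', hb', e⟩ := (C.eq_iff _ _).1 (C.sec (δ g))
  rw [EW]
  conv_lhs => rw [e]
  exact Eg_bgb hb hb' _

theorem EW_one : EW B δ 1 = eS B := by rw [← C.one, ← C.Eg_eq, Eg_one]

theorem ev_EW (v w : W) : ev (fun g => if δ g = v then (1 : ℂ) else 0) (EW B δ w) = if w = v then 1 else 0 := by
  rw [EW, ev_Eg fun b hb b' hb' g => by rw [C.bi hb hb'], C.sec]

theorem Phi_inj [Fintype W] : Function.Injective (Phi B δ) := by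
  refine (injective_iff_map_eq_zero _).2 fun a h => funext fun v => ?_
  have := congrArg (ev fun g => if δ g = v then (1 : ℂ) else 0) h
  simpa [Phi_apply, map_sum, C.ev_EW] using this

theorem mul_up {i : ι} {v : W} (h : A i v) : EW B δ (s i) * EW B δ v = EW B δ (s i * v) := by
  rw [EW, EW, Eg_mul_Eg, Finset.sum_congr rfl fun b _ => ?_, avg_const]
  rw [C.Eg_eq, C.step i _ _ (by simpa [C.sec] using C.bi (one_mem _) b.2 (Function.invFun δ (s i))) (by rwa [C.sec]), C.sec]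

theorem mul_sq (i : ι) : EW B δ (s i) * EW B δ (s i) = (q : ℂ)⁻¹ • eS B + (1 - (q : ℂ)⁻¹) • EW B δ (s i) := by
  have h0 := H12.St.card_ne B
  have hq : (q : ℂ) ≠ 0 := by exact_mod_cast C.q0
  set x := Function.invFun δ (s i)
  have hx : δ x = s i := C.sec _
  have hxb : ∀ b : B, δ (x * b) = s i := fun b => by simpa [hx] using C.bi (one_mem _) b.2 x
  let t : ℂ := (Nat.card B : ℂ)⁻¹ * ∑ b : B, if δ (x * b * x) = 1 then 1 else 0
  have h1 : EW B δ (s i) * EW B δ (s i) = t • eS B + (1 - t) • EW B δ (s i) := by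
    rw [EW, Eg_mul_Eg, Finset.sum_congr rfl (g := fun b : B => (if δ (x * b * x) = 1 then (1 : ℂ) else 0) • (eS B - Eg B x) + Eg B x)
      fun b _ => ?_, Finset.sum_add_distrib, smul_add, avg_const, ← Finset.sum_smul, smul_smul]
    · module
    · split_ifs with h
      · rw [C.Eg_eq, h, C.EW_one]; simp
      · rw [C.Eg_eq, (C.sq i _ _ (hxb b) hx).resolve_left h, zero_smul, zero_add, C.Eg_eq, hx]
  have h2 : ∀ g, δ g = s i → (Nat.card B : ℂ)⁻¹ * ∑ b : B, (if δ (x * b * g) = 1 then (1 : ℂ) else 0) = t := fun g hg => by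
    have e1 : Eg B x * Eg B g = Eg B x * Eg B x := by rw [C.Eg_eq g, C.Eg_eq x, hg, hx]
    rw [Eg_mul_Eg, Eg_mul_Eg] at e1
    have := congrArg (ev fun g => if δ g = 1 then (1 : ℂ) else 0) e1
    simpa only [map_smul, map_sum, C.Eg_eq, C.ev_EW, smul_eq_mul] using this
  have h3 : ∀ b : B, ∑ g ∈ Finset.univ.filter (δ · = s i), (if δ (x * b * g) = 1 then (1 : ℂ) else 0) = Nat.card B := fun b => by
    rw [Finset.sum_filter_of_ne fun g _ hg => ?_, ← Equiv.sum_comp (Equiv.mulLeft (x * b)⁻¹)]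
    · simp only [Equiv.coe_mulLeft, mul_inv_cancel_left, C.mem_iff]
      rw [Finset.sum_boole, Nat.card_eq_fintype_card, Fintype.card_subtype]
    · have h4 : x * b * g ∈ B := C.mem_iff.1 (by by_contra h; simp [h] at hg)
      have : g = 1 * (x * b)⁻¹ * (x * b * g) := by group
      rw [this, C.bi (one_mem _) h4, C.inv, hxb, C.cox.inv_eq]
  have h4 : ((Nat.card B * q : ℕ) : ℂ) * t = Nat.card B := by
    have := C.card (s i)
    rw [C.cox.len_s, pow_one] at this
    rw [← this, ← nsmul_eq_mul, ← Finset.sum_const, ← Finset.sum_congr rfl fun g hg => h2 g (Finset.mem_filter.1 hg).2,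
      ← Finset.mul_sum, Finset.sum_comm, Finset.sum_congr rfl fun b _ => h3 b, Finset.sum_const, Finset.card_univ,
      ← Nat.card_eq_fintype_card, nsmul_eq_mul, inv_mul_cancel_left₀ h0]
  have h5 : t = (q : ℂ)⁻¹ := by
    push_cast at h4
    field_simp
    apply mul_left_cancel₀ h0
    linear_combination h4
  rw [h1, h5]

variable [Fintype W]

theorem Phi_Lm_col (i : ι) (v : W) : Phi B δ (fun y => Lm s A (q : ℂ)⁻¹ i y v) = EW B δ (s i) * EW B δ v := by
  rw [Phi_apply]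
  by_cases h : A i v
  · simp [Lm, h, C.mul_up h]
  · have h1 : A i (s i * v) := C.cox.iff_not.2 h
    have h2 := C.mul_up h1
    rw [C.cox.mul_mul] at h2
    conv_rhs => rw [← h2, ← mul_assoc, C.mul_sq, add_mul, smul_mul_assoc, smul_mul_assoc, h2, EW, eS_mul_Eg, ← EW]
    simp [Lm, h, add_smul, Finset.sum_add_distrib]

omit C [Group W] in
theorem Phi_mulVec (M : Matrix W W ℂ) (a : W → ℂ) : Phi B δ (M *ᵥ a) = ∑ v, a v • Phi B δ fun y => M y v := by
  simp only [← map_smul, ← map_sum]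
  congr 1
  ext y
  simp [Matrix.mulVec, dotProduct, mul_comm]

theorem Phi_prod {l : List ι} (hl : Red s l) (a : W → ℂ) :
    Phi B δ ((l.map (Lm s A (q : ℂ)⁻¹)).prod *ᵥ a) = EW B δ (wp s l) * Phi B δ a := by
  induction l with
  | nil => simp [C.EW_one, eS_mul_Phi]
  | cons i l ih =>
    rw [List.map_cons, List.prod_cons, ← Matrix.mulVec_mulVec, Phi_mulVec, wp_cons, ← C.mul_up (C.cox.of_red_cons hl),
      mul_assoc, ← ih hl.tail]
    simp only [C.Phi_Lm_col]
    rw [Phi_apply, Finset.mul_sum]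
    simp only [mul_smul_comm]

theorem Phi_Lw (w : W) (a : W → ℂ) : Phi B δ (Lw s A (q : ℂ)⁻¹ w *ᵥ a) = EW B δ w * Phi B δ a := by
  rw [Lw, C.Phi_prod (rw_spec s C.cox.toInvGen w).1, (rw_spec s C.cox.toInvGen w).2]

theorem Phi_Rw (v : W) (a : W → ℂ) :
    Phi B δ ((Matrix.of fun y x => Lw s A (q : ℂ)⁻¹ x y v) *ᵥ a) = Phi B δ a * EW B δ v := by
  rw [Phi_mulVec, Phi_apply δ a, Finset.sum_mul]
  refine Finset.sum_congr rfl fun x _ => ?_
  have := C.Phi_Lw x (Pi.single v 1)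
  rw [Matrix.mulVec_single_one, Phi, Fintype.linearCombination_apply_single, one_smul] at this
  rw [smul_mul_assoc, ← this]; rfl

theorem Dm_iff (a : W → ℂ) : Dm s A (q : ℂ)⁻¹ *ᵥ a = 0 ↔ ∀ v, EW B δ v * Phi B δ a = Phi B δ a * EW B δ v := by
  simp only [← C.Phi_Lw, ← C.Phi_Rw, C.Phi_inj.eq_iff, funext_iff, Prod.forall]
  refine forall₂_congr fun v y => ?_
  simp [Dm, Matrix.mulVec, dotProduct, sub_mul, Finset.sum_sub_distrib, sub_eq_zero]

end HD
end H11.Hk
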