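import Mathlib
import Cfsg.Agent.H11.Hk2

/-! Ranks of the Hecke matrices at a realised parameter (namespace `H11.Hk`): `HD.DP`, `HD.rank_P`, `HD.rank_D`, and
the deformation theorem `HD.card_eq` (constituents of `1_B^G` versus conjugacy classes of `W`). -/

namespace H11.Hk
open MonoidAlgebra Cfsg H05 H20 Classical Matrix

variable {G : Type*} [Group G] [Fintype G] {B : Subgroup G}

noncomputable def cav (a : ℂ[G]) : ℂ[G] := ∑ g : G, single g 1 * a * single g⁻¹ 1

theorem isCen_cav (a : ℂ[G]) : IsCen (cav a) := by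
  refine isCen_iff_commute.2 fun u => ?_
  rw [Commute, SemiconjBy, cav, Finset.mul_sum, Finset.sum_mul]
  refine Fintype.sum_equiv (Equiv.mulLeft u) _ _ fun g => ?_
  have h1 : (single (u * g) 1 : ℂ[G]) = single u 1 * single g 1 := by simp [single_mul_single]
  have h2 : (single (u * g)⁻¹ 1 : ℂ[G]) * single u 1 = single g⁻¹ 1 := by simp [single_mul_single]
  rw [Equiv.coe_mulLeft, mul_assoc _ (single (u * g)⁻¹ 1), h2, h1]
  simp only [mul_assoc]

theorem cav_mul {z : ℂ[G]} (hz : IsCen z) (a : ℂ[G]) : cav (a * z) = cav a * z := by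
  rw [cav, cav, Finset.sum_mul]
  refine Finset.sum_congr rfl fun g _ => ?_
  rw [← mul_assoc, mul_assoc _ z, hz.comm, ← mul_assoc]

theorem ev_cav (χ : IrrCharacter G) (a : ℂ[G]) : ev (χ : G → ℂ) (cav a) = Nat.card G * ev (χ : G → ℂ) a := by
  rw [cav, map_sum, Finset.sum_congr rfl (g := fun _ => ev (χ : G → ℂ) a) fun g _ => ?_]
  · simp
  · rw [ev_mul_comm χ.2.isCharacter.isClassFunction, ← mul_assoc, single_mul_single, inv_mul_cancel, mul_one, ← one_def, one_mul]

theorem cen_mul_idem {z : ℂ[G]} (hz : IsCen z) (χ : IrrCharacter G) :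
    z * idem {χ} = omega (χ : G → ℂ) z • idem {χ} := by
  refine cen_ext (hz.mul (isCen_idem _)) ((isCen_idem _).smul _) fun ψ => ?_
  rw [omega_mul ψ.2 hz, omega_smul, omega_idem]
  split_ifs with h
  · rw [Set.mem_singleton_iff.1 h]
  · simp

theorem eS_idem_eq_zero {χ : IrrCharacter G} (h : ev (χ : G → ℂ) (eS B) = 0) : eS B * idem {χ} = 0 := by
  refine eq_zero_of_ev_mul fun ψ b => ?_
  rw [← (isCen_idem _).comm, mul_assoc]
  by_cases e : ψ = χ
  · subst e
    rw [ev_idem_mul_of_mem (Set.mem_singleton _)]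
    obtain ⟨n, ρ, -, e⟩ := ψ.2
    rw [← e, ev_character] at h ⊢
    have h1 : IsIdempotentElem (ρ.asAlgebraHom (eS B)) := by rw [IsIdempotentElem, ← map_mul, eS_mul_eS]
    rw [map_mul, LinearMap.IsIdempotentElem.eq_zero_of_trace_eq_zero h1 h, zero_mul, map_zero]
  · exact ev_idem_mul_of_notMem (A := {χ}) (fun h => e (Set.mem_singleton_iff.1 h)) _

theorem omega_cav_ne {χ : IrrCharacter G} (h : ev (χ : G → ℂ) (eS B) ≠ 0) : omega (χ : G → ℂ) (cav (eS B)) ≠ 0 := by
  rw [omega, ev_cav]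
  exact div_ne_zero (mul_ne_zero card_ne_zero' h) χ.2.apply_one_ne_zero

theorem eS_mul_cav {z : ℂ[G]} (h1 : eS B * z = z) (h2 : z * eS B = z) :
    eS B * cav z = ∑ g : G, Eg B g * z * Eg B g⁻¹ := by
  have : eS B * cav z = eS B * cav z * eS B := by rw [mul_assoc, (isCen_cav z).comm, ← mul_assoc, eS_mul_eS]
  rw [this, cav, Finset.mul_sum, Finset.sum_mul]
  refine Finset.sum_congr rfl fun g _ => ?_
  conv_lhs => rw [← h1, ← h2]
  simp only [Eg, mul_assoc]

variable (B) in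
/-- the constituents of the permutation character -/
abbrev Con : Type _ := {χ : IrrCharacter G // ev (χ : G → ℂ) (eS B) ≠ 0}

theorem li_Con : LinearIndependent ℂ fun χ : Con B => eS B * idem {χ.1} := by
  refine Fintype.linearIndependent_iff.2 fun c h χ => ?_
  have := congrArg (ev (χ.1 : G → ℂ)) h
  rw [map_sum, Finset.sum_eq_single χ (fun ψ _ e => ?_) (by simp), map_smul, ← (isCen_idem _).comm,
    ev_idem_mul_of_mem (Set.mem_singleton _), map_zero, smul_eq_mul] at this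
  · exact (mul_eq_zero.1 this).resolve_right χ.2
  · rw [map_smul, ← (isCen_idem _).comm, ev_idem_mul_of_notMem (fun e' => e (Subtype.ext (Set.mem_singleton_iff.1 e').symm)),
      smul_zero]

variable {ι W : Type*} [Group W] [Fintype W]

namespace HD
variable {s : ι → W} {A : ι → W → Prop} {δ : G → W} {q : ℕ} (C : HD s A B δ q)
include C

theorem Phi_Pm (a : W → ℂ) : Phi B δ (Pm s A (q : ℂ)⁻¹ *ᵥ a) =
    (((q : ℂ)⁻¹) ^ (∑ v, len s v) * (Nat.card B : ℂ)⁻¹) • (eS B * cav (Phi B δ a)) := by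
  have h0 := H12.St.card_ne B
  have hq : (q : ℂ) ≠ 0 := by exact_mod_cast C.q0
  rw [eS_mul_cav (eS_mul_Phi δ a) (Phi_mul_eS δ a), ← Finset.sum_fiberwise _ δ, Pm, Matrix.sum_mulVec, map_sum,
    Finset.smul_sum]
  refine Finset.sum_congr rfl fun w _ => ?_
  rw [Finset.sum_congr rfl (g := fun _ => EW B δ w * Phi B δ a * EW B δ w⁻¹) fun g hg => by
    rw [C.Eg_eq, C.Eg_eq, C.inv, (Finset.mem_filter.1 hg).2], Finset.sum_const, C.card, Matrix.smul_mulVec, map_smul,
    ← Matrix.mulVec_mulVec, C.Phi_Lw, C.Phi_Rw, ← Nat.cast_smul_eq_nsmul ℂ, smul_smul, mul_assoc (EW B δ w)]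
  congr 1
  obtain ⟨k, hk⟩ := Nat.exists_eq_add_of_le (Finset.single_le_sum (f := len s) (fun _ _ => Nat.zero_le _) (Finset.mem_univ w))
  rw [hk, Nat.add_sub_cancel_left, pow_add]
  push_cast
  rw [inv_pow, inv_pow]
  field_simp

theorem DP : Dm s A (q : ℂ)⁻¹ * Pm s A (q : ℂ)⁻¹ = 0 := by
  refine Matrix.toLin'.injective (LinearMap.ext fun a => ?_)
  rw [map_zero, Matrix.toLin'_apply, ← Matrix.mulVec_mulVec, LinearMap.zero_apply, C.Dm_iff]
  intro v
  rw [C.Phi_Pm, mul_smul_comm, smul_mul_assoc, ← mul_assoc, EW, Eg_mul_eS, mul_assoc, (isCen_cav _).comm, ← mul_assoc,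
    eS_mul_Eg]

theorem exists_Phi (z : ℂ[G]) : ∃ a, Phi B δ a = eS B * z * eS B := by
  change _ ∈ LinearMap.range (Phi B δ)
  rw [eq_sum_single z, Finset.mul_sum, Finset.sum_mul]
  refine Submodule.sum_mem _ fun g _ => ?_
  rw [mul_smul_comm, smul_mul_assoc]
  refine Submodule.smul_mem _ _ ⟨Pi.single (δ g) 1, ?_⟩
  rw [Phi, Fintype.linearCombination_apply_single, one_smul, ← C.Eg_eq, Eg]

theorem rank_P : Fintype.card (Con B) ≤ (Pm s A (q : ℂ)⁻¹).rank := by
  have h0 := H12.St.card_ne B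
  have hq : (q : ℂ) ≠ 0 := by exact_mod_cast C.q0
  rw [← finrank_span_eq_card li_Con]
  refine le_trans (Submodule.finrank_mono (t := (LinearMap.range (Pm s A (q : ℂ)⁻¹).mulVecLin).map (Phi B δ)) ?_)
    (Submodule.finrank_map_le _ _)
  refine Submodule.span_le.2 ?_
  rintro _ ⟨χ, rfl⟩
  obtain ⟨a, ha⟩ := C.exists_Phi (idem {χ.1})
  rw [mul_assoc, (isCen_idem _).comm, ← mul_assoc, eS_mul_eS] at ha
  have h1 := C.Phi_Pm a
  rw [ha, cav_mul (isCen_idem _), cen_mul_idem (isCen_cav _), mul_smul_comm, smul_smul] at h1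
  have h2 : ((q : ℂ)⁻¹) ^ (∑ v, len s v) * (Nat.card B : ℂ)⁻¹ * omega (χ.1 : G → ℂ) (cav (eS B)) ≠ 0 :=
    mul_ne_zero (mul_ne_zero (pow_ne_zero _ (inv_ne_zero hq)) (inv_ne_zero h0)) (omega_cav_ne χ.2)
  refine (Submodule.smul_mem_iff _ h2).1 ?_
  rw [← h1]
  exact Submodule.mem_map_of_mem ⟨a, rfl⟩

theorem rank_D : Fintype.card W ≤ (Dm s A (q : ℂ)⁻¹).rank + Fintype.card (Con B) := by
  have h1 := (Dm s A (q : ℂ)⁻¹).mulVecLin.finrank_range_add_finrank_ker
  rw [Module.finrank_fintype_fun_eq_card] at h1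
  rw [← h1, ← finrank_span_eq_card li_Con, (Submodule.equivMapOfInjective _ C.Phi_inj (Dm s A (q : ℂ)⁻¹).mulVecLin.ker).finrank_eq]
  refine Nat.add_le_add_left (Submodule.finrank_mono ?_) _
  rintro _ ⟨a, ha, rfl⟩
  have h2 := (C.Dm_iff a).1 ha
  have h3 : eS B * cav (Phi B δ a) = Phi B δ a * cav (eS B) := by
    rw [eS_mul_cav (eS_mul_Phi δ a) (Phi_mul_eS δ a), ← Phi_mul_eS δ a, mul_assoc _ _ (cav _),
      eS_mul_cav eS_mul_eS eS_mul_eS, Finset.mul_sum, Phi_mul_eS]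
    refine Finset.sum_congr rfl fun g _ => ?_
    rw [Eg_mul_eS, ← mul_assoc, C.Eg_eq g, h2]
  have h4 : Phi B δ a = ∑ χ : IrrCharacter G, Phi B δ a * idem {χ} := by
    rw [← Finset.mul_sum]
    conv_lhs => rw [← mul_one (Phi B δ a), eq_sum_omega_smul_idem isCen_one]
    simp only [omega_one_irr, one_smul]
  rw [h4]
  refine Submodule.sum_mem _ fun χ _ => ?_
  by_cases h : ev (χ : G → ℂ) (eS B) = 0
  · rw [← Phi_mul_eS, mul_assoc, eS_idem_eq_zero h, mul_zero]
    exact Submodule.zero_mem _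
  · refine (Submodule.smul_mem_iff _ (omega_cav_ne h)).1 ?_
    rw [← mul_smul_comm, ← cen_mul_idem (isCen_cav _), ← mul_assoc, ← h3, mul_assoc, cen_mul_idem (isCen_cav _),
      mul_smul_comm]
    exact Submodule.smul_mem _ _ (Submodule.subset_span ⟨⟨χ, h⟩, rfl⟩)

end HD

theorem hd_self {s : ι → W} {A : ι → W → Prop} (h : PreCox s A) : HD s A (⊥ : Subgroup W) id 1 where
  cox := h
  q0 := one_ne_zero
  surj := Function.surjective_id
  eq_iff g g' := by simp [eq_comm]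
  one := rfl
  inv _ := rfl
  step i x y hx _ := by rw [← hx]; rfl
  sq i x y hx hy := Or.inl (by rw [id] at hx hy; rw [hx, hy]; exact h.sq i)
  card w := by simp [Finset.card_eq_one, Finset.ext_iff]

omit [Fintype W] in
theorem card_Con_bot [Fintype W] : Fintype.card (Con (⊥ : Subgroup W)) = Nat.card (ConjClasses W) := by
  rw [← card_irr_eq_card_conjClasses, ← Nat.card_eq_fintype_card]
  refine Nat.card_congr (Equiv.subtypeUnivEquiv fun χ => ?_)
  rw [ev_eS, H12.St.avg_congr (f' := fun _ => (χ : W → ℂ) 1) fun g hg => by rw [Subgroup.mem_bot.1 hg]]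
  simpa [H12.St.avg] using χ.2.apply_one_ne_zero

theorem card_Con : Nat.card {χ : IrrCharacter G // ∃ φ : G → ℂ, IsCharacter G φ ∧
    fixedPointCharacter B = (χ : G → ℂ) + φ} = Fintype.card (Con B) := by
  rw [← Nat.card_eq_fintype_card]
  refine Nat.card_congr (Equiv.subtypeEquivRight fun χ => ?_)
  have hc : IsCharacter G (fixedPointCharacter B) := isCharacter_perm (G ⧸ B)
  have h1 : classInner (χ : G → ℂ) (fixedPointCharacter B) = ev (χ : G → ℂ) (eS B) := by
    rw [ev_eS, ← H12.St.frob (M := ⊤) le_top fun y _ g _ => by simpa using χ.2.isCharacter.isClassFunction g y⁻¹]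
    rw [H12.St.avg, classInner, div_eq_inv_mul, Subgroup.card_top]
    congr 1
    refine (Fintype.sum_equiv Subgroup.topEquiv.toEquiv _ _ fun g => ?_).symm
    simp [H12.St.ind_top, fixedPointCharacter]
  rw [← h1]
  constructor
  · rintro ⟨φ, hφ, e⟩
    obtain ⟨n, hn⟩ := χ.2.isCharacter.exists_classInner_eq_nat hφ
    rw [e, classInner_add_right, χ.2.classInner_self, hn]
    exact_mod_cast (show 1 + n ≠ 0 by omega)
  · intro h
    refine ⟨_, hc.sub_constituent χ.2 fun h' => h ?_, (add_sub_cancel _ _).symm⟩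
    rw [← classInner_conj_symm, h', map_zero]

theorem HD.card_eq {s : ι → W} {A : ι → W → Prop} {δ : G → W} {q : ℕ} (C : HD s A B δ q)
    (h : {u : ℂ | Dm s A u * Pm s A u = 0}.Infinite) :
    Nat.card {χ : IrrCharacter G // ∃ φ : G → ℂ, IsCharacter G φ ∧ fixedPointCharacter B = (χ : G → ℂ) + φ} =
      Nat.card (ConjClasses W) := by
  have C' := hd_self C.cox
  have h1 := rank_DP s A h (q : ℂ)⁻¹ ((1 : ℕ) : ℂ)⁻¹
  have h2 := rank_DP s A h ((1 : ℕ) : ℂ)⁻¹ (q : ℂ)⁻¹
  have h3 := C.rank_P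
  have h4 := C.rank_D
  have h5 := C'.rank_P
  have h6 := C'.rank_D
  rw [card_Con, ← card_Con_bot]
  omega

end H11.Hk
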