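import Mathlib
import Cfsg.Agent.H11.Hk3
import Cfsg.Agent.H11.PoinAll
import Cfsg.Agent.H12.StLie

/-! The Hecke datum of a Chevalley group (namespace `H11.Hk`): `exists_hd`, `inf_chev`, `chev_card`. -/

namespace H11.Hk
open Cfsg Cfsg.Lie Equiv H11.StSys Classical

variable {D : ChevalleyDatum} [Good D] [Cert D] {K : Type*} [Field K] {G : Type*} [Group G] {S : StSys D K G}

theorem n_B_up (i : Node D) {m b : G} {w : Weyl D} (hw : S.Acts m w) (hm : m ∈ S.N) (hb : b ∈ S.B)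
    (h3 : IsPos ((w⁻¹ : Weyl D).1 (sroot i))) :
    ∃ b1 ∈ S.B, ∃ b2 ∈ S.B, S.n (sroot i) 1 * b * m = b1 * (S.n (sroot i) 1 * m) * b2 := by
  obtain ⟨u, hu, y, hy, rfl⟩ := exists_mul_of_mem_B hb
  obtain ⟨v, hv, t, rfl⟩ := exists_mul_x_of_mem_U i hu
  have h1 : S.n (sroot i) 1 * v * (S.n (sroot i) 1)⁻¹ ∈ S.B := U_le_B (UJ_le_U _
    ((Subgroup.mem_normalizer_iff.1 (PJ_le_normalizer {i} (n_mem_PJ rfl)) v).1 hv))
  have h2 : m⁻¹ * y * m ∈ S.B := by simpa using H_le_B (conj_mem_H (inv_mem hm) hy)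
  exact ⟨_, h1, _, mul_mem (U_le_B (inv_conj_x_mem_U hw h3 t)) h2, by group⟩

theorem exists_hd [Finite K] [Fintype G] (hgen : S.grp = ⊤) : ∃ δ : G → Weyl D,
    HD (sW (D := D)) (fun i w => IsPos ((w⁻¹ : Weyl D).1 (sroot i))) S.B δ (Nat.card K) := by
  have hb : ∀ g : G, ∃ m : S.N, ∃ b ∈ S.B, ∃ b' ∈ S.B, g = b * m * b' := fun g => by
    obtain ⟨b, hb, m, hm, b', hb', e⟩ := exists_bnb (S := S) (g := g) (by rw [hgen]; trivial)
    exact ⟨⟨m, hm⟩, b, hb, b', hb', e⟩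
  choose μ hμ using hb
  have hδ : ∀ (m : S.N) {b b' : G}, b ∈ S.B → b' ∈ S.B → S.π (μ (b * m * b')) = S.π m := fun m b b' hb hb' => by
    obtain ⟨c, hc, c', hc', e⟩ := hμ (b * m * b')
    exact (π_eq_of_bnb hb hb' hc hc' e).symm
  have hH : ∀ m m' : S.N, S.π m = S.π m' → (m : G)⁻¹ * m' ∈ S.B := fun m m' h =>
    H_le_B ((π_eq_one_iff (g := m⁻¹ * m')).1 (by rw [map_mul, map_inv, h, inv_mul_cancel]))
  have hs : ∀ i x, S.π (μ x) = sW i → ∃ b ∈ S.B, ∃ b' ∈ S.B, x = b * S.n (sroot i) 1 * b' := fun i x h => by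
    obtain ⟨c, hc, c', hc', e⟩ := hμ x
    have := hH ⟨_, n_one_mem_N (sroot i)⟩ (μ x) (by rw [π_n_sroot, h])
    exact ⟨c, hc, _, mul_mem this hc', e.trans (by simp [mul_assoc])⟩
  refine ⟨fun g => S.π (μ g), weylPreCox D, Nat.card_pos.ne', fun w => ?_, fun g g' => ⟨fun h => ?_, ?_⟩, ?_, fun g => ?_,
    fun i x y hx hy => ?_, fun i x y hx hy => ?_, fun w => ?_⟩
  · obtain ⟨m, rfl⟩ := π_surjective (S := S) w
    exact ⟨1 * m * 1, hδ m (one_mem _) (one_mem _)⟩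
  · obtain ⟨c, hc, c', hc', e⟩ := hμ g
    obtain ⟨d, hd, d', hd', e'⟩ := hμ g'
    refine ⟨d * c⁻¹, mul_mem hd (inv_mem hc), _, mul_mem (inv_mem hc') (mul_mem (hH _ _ h) hd'), ?_⟩
    conv_lhs => rw [e']
    conv_rhs => enter [1, 2]; rw [e]
    group
  · rintro ⟨b, hb, b', hb', rfl⟩
    obtain ⟨c, hc, c', hc', e⟩ := hμ g
    have : b * g * b' = (b * c) * μ g * (c' * b') := by
      conv_lhs => rw [e]
      group
    rw [this, hδ _ (mul_mem hb hc) (mul_mem hc' hb')]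
  · simpa using hδ 1 (one_mem _) (one_mem _)
  · obtain ⟨c, hc, c', hc', e⟩ := hμ g
    have : g⁻¹ = c'⁻¹ * ((μ g)⁻¹ : S.N) * c⁻¹ := by
      conv_lhs => rw [e]
      simp [mul_assoc]
    rw [this, hδ _ (inv_mem hc') (inv_mem hc), map_inv]
  · obtain ⟨b, hb, b', hb', rfl⟩ := hs i x hx
    obtain ⟨c, hc, c', hc', e⟩ := hμ y
    obtain ⟨b1, h1, b2, h2, e'⟩ := n_B_up i (acts_π (μ y)) (μ y).2 (mul_mem hb' hc) hy
    have : b * S.n (sroot i) 1 * b' * y = (b * b1) * (⟨_, n_one_mem_N (sroot i)⟩ * μ y : S.N) * (b2 * c') := by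
      conv_lhs => rw [e]
      calc _ = b * (S.n (sroot i) 1 * (b' * c) * μ y) * c' := by group
        _ = _ := by rw [e']; simp [mul_assoc]
    rw [this, hδ _ (mul_mem hb h1) (mul_mem h2 hc'), map_mul, π_n_sroot]
  · obtain ⟨b, hb, b', hb', rfl⟩ := hs i x hx
    obtain ⟨c, hc, c', hc', rfl⟩ := hs i y hy
    rcases n_mul_B_mul i (n_one_mem_N (S := S) (sroot i)) (mul_mem hb' hc) with ⟨b1, h1, b2, h2, e'⟩ | ⟨b1, h1, b2, h2, e'⟩
    · left
      have : b * S.n (sroot i) 1 * b' * (c * S.n (sroot i) 1 * c') =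
          (b * b1) * (⟨_, n_one_mem_N (sroot i)⟩ * ⟨_, n_one_mem_N (sroot i)⟩ : S.N) * (b2 * c') := by
        calc _ = b * (S.n (sroot i) 1 * (b' * c) * S.n (sroot i) 1) * c' := by group
          _ = _ := by rw [e']; simp [mul_assoc]
      rw [this, hδ _ (mul_mem hb h1) (mul_mem h2 hc'), map_mul, π_n_sroot, (weylPreCox D).sq]
    · right
      have : b * S.n (sroot i) 1 * b' * (c * S.n (sroot i) 1 * c') =
          (b * b1) * (⟨_, n_one_mem_N (sroot i)⟩ : S.N) * (b2 * c') := by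
        calc _ = b * (S.n (sroot i) 1 * (b' * c) * S.n (sroot i) 1) * c' := by group
          _ = _ := by rw [e']; simp [mul_assoc]
      rw [this, hδ _ (mul_mem hb h1) (mul_mem h2 hc'), π_n_sroot]
  · obtain ⟨m, hm⟩ := π_surjective (S := S) w
    have hact : S.Acts m (w : Weyl D) := hm ▸ acts_π m
    have hT : S.US {r | IsPos r ∧ ¬ IsPos ((w : Perm (Root D)) r)} ≤ S.B := (US_mono fun _ h => h.1).trans U_le_B
    rw [← card_US_Inv (S := S) w, ← Nat.card_prod, ← Fintype.card_subtype, ← Nat.card_eq_fintype_card]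
    refine (Nat.card_eq_of_bijective (fun p => ⟨p.1 * m * p.2, (hδ m p.1.2 (hT p.2.2)).trans hm⟩) ⟨?_, ?_⟩).symm
    · rintro ⟨b, u⟩ ⟨b', u'⟩ e
      obtain ⟨h1, h2⟩ := eq_of_bnu hact b.2 b'.2 u.2 u'.2 (congrArg Subtype.val e)
      rw [Subtype.ext h1, Subtype.ext h2]
    · rintro ⟨g, hg⟩
      obtain ⟨c, hc, c', hc', e⟩ := hμ g
      obtain ⟨d, hd, u, hu, e'⟩ := exists_bnu_of m.2 hact hc (mul_mem (hH m (μ g) (hm.trans hg.symm)) hc')
      exact ⟨(⟨d, hd⟩, ⟨u, hu⟩), Subtype.ext (e'.symm.trans (e.trans (by simp [mul_assoc])).symm)⟩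

variable (D) in
theorem inf_chev : {u : ℂ | Dm (sW (D := D)) (fun i w => IsPos ((w⁻¹ : Weyl D).1 (sroot i))) u *
    Pm (sW (D := D)) (fun i w => IsPos ((w⁻¹ : Weyl D).1 (sroot i))) u = 0}.Infinite := by
  refine (Nat.infinite_setOfPred_prime.image (f := fun p : ℕ => (p : ℂ)⁻¹) fun a _ b _ h => ?_).mono ?_
  · exact_mod_cast inv_injective h
  · rintro _ ⟨p, hp, rfl⟩
    have : Fact p.Prime := ⟨hp⟩
    have := finite_of_gen (grpSys_grp D (ZMod p))
    have := Fintype.ofFinite (D.group (ZMod p))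
    obtain ⟨δ, C⟩ := exists_hd (grpSys_grp D (ZMod p))
    have h := C.DP
    rwa [Nat.card_zmod] at h

theorem card_conj_congr {A A' : Type*} [Group A] [Group A'] (e : A ≃* A') :
    Nat.card (ConjClasses A) = Nat.card (ConjClasses A') := by
  refine Nat.card_congr (Quotient.congr e.toEquiv fun a b => ?_)
  change IsConj a b ↔ IsConj (e a) (e b)
  exact ⟨fun h => e.toMonoidHom.map_isConj h, fun h => by simpa using e.symm.toMonoidHom.map_isConj h⟩

theorem chev_card (F : Type*) [Field F] [Finite F] {M : CoxeterMatrix (Node D)}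
    (h : ∃ cs : CoxeterSystem M (Weyl D), ∀ i, cs.simple i = sW i) :
    Nat.card {χ : IrrCharacter ↥(D.group F) // ∃ φ : ↥(D.group F) → ℂ, IsCharacter ↥(D.group F) φ ∧
      fixedPointCharacter ((D.borelSubgroup F).subgroupOf (D.group F)) = (χ : ↥(D.group F) → ℂ) + φ} =
      Nat.card (ConjClasses M.Group) := by
  obtain ⟨cs, -⟩ := h
  have := finite_of_gen (grpSys_grp D F)
  have := Fintype.ofFinite (D.group F)
  obtain ⟨δ, C⟩ := exists_hd (grpSys_grp D F)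
  rw [← grpSys_B, C.card_eq (inf_chev D), card_conj_congr cs.mulEquiv]

end H11.Hk
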