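import Cfsg.Agent.H06.J0

/-! Part U2 of S5566: fixed spaces of the involutions of the hexad subgroup (namespace `H11.JU2`). -/

set_option autoImplicit false
set_option linter.unusedSectionVars false

namespace H11.JU2
open Cfsg.Agent.H06.J
universe u

variable {V : Type u} [AddCommGroup V] [Module (ZMod 2) V] [Finite V] {Γ : Type u} [Group Γ] [Finite Γ]
  {T : Γ → V →+ V} {d : Γ} {M K Y : Subgroup Γ} {β : V →+ V →+ ZMod 2} {q : V → ZMod 2} {B : AddSubgroup V}

omit [Finite V] in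
theorem two (v : V) : v + v = 0 := by rw [← two_smul (ZMod 2), show (2 : ZMod 2) = 0 from rfl, zero_smul]

/-- the fixed space -/
def C (T : Γ → V →+ V) (y : Γ) : AddSubgroup V := (AddMonoidHom.id V + T y).ker

omit [Finite V] [Group Γ] [Finite Γ] in
theorem mC {y : Γ} {v : V} : v ∈ C T y ↔ T y v = v :=
  ⟨fun (h : v + T y v = 0) => add_left_cancel (h.trans (two v).symm),
    fun h => show v + T y v = 0 by rw [h, two]⟩

variable (g : Gj T d M β q)
include g

theorem can (k : Γ) (v : V) : T k⁻¹ (T k v) = v := by rw [← g.mul, inv_mul_cancel, g.one]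

theorem cj (k y : Γ) (v : V) : T k v ∈ C T (k * y * k⁻¹) ↔ v ∈ C T y := by
  rw [mC, mC, g.mul, can g, g.mul]
  exact ⟨fun h => by simpa only [can g] using congrArg (T k⁻¹) h, fun h => by rw [h]⟩

theorem p4 {W : AddSubgroup V} (h : ∀ v ∈ W, T d v ∈ W) : ∃ j ≤ 6, Nat.card W = 4 ^ j := by
  classical
  have := Fintype.ofFinite W
  have := Fact.mk Nat.prime_three
  let f : Function.End W := fun v => ⟨T d v, h _ v.2⟩
  have e := Equiv.Perm.card_fixedPoints_modEq (f := f) (p := 3) (n := 1) (funext fun v => Subtype.ext (by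
    show T d (T d (T d v)) = v
    rw [← g.mul, ← g.mul, mul_assoc, g.d3, g.one]))
  have o : Fintype.card (Function.fixedPoints f) = 1 := Fintype.card_eq_one_iff.2 ⟨⟨0, Subtype.ext (map_zero (T d))⟩, fun v => Subtype.ext (Subtype.ext (by
    have a : T d v.1.1 = v.1.1 := congrArg Subtype.val v.2
    have b := g.hf v.1.1
    rwa [a, a, two, zero_add] at b))⟩
  rw [← Nat.card_eq_fintype_card, o] at e
  obtain ⟨j, hj, c⟩ := (Nat.dvd_prime_pow Nat.prime_two).1 ((g.card.trans (by norm_num) : Nat.card V = 2 ^ 12) ▸ W.card_addSubgroup_dvd_card)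
  rw [c] at e ⊢
  refine ⟨j / 2, by omega, ?_⟩
  interval_cases j <;> first | rfl | exact absurd e (by decide)

variable (x : Hx d K Y) (KM : K ≤ M) (p : Pj T d K Y q B)
include x KM p

omit g KM p [Finite Γ] in
theorem cm {a b : Γ} (ha : a ∈ Y) (hb : b ∈ Y) : a * b * a⁻¹ = b :=
  calc a * b * a⁻¹ = a * b * a⁻¹ * (a * a) * (b * b) := by rw [x.Y2 a ha, x.Y2 b hb]; simp
    _ = a * b * (a * b) * b := by group
    _ = b := by rw [x.Y2 _ (mul_mem ha hb), one_mul]

omit p in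
theorem dC {y : Γ} (hy : y ∈ Y) (v : V) : T d v ∈ C T y ↔ v ∈ C T y := by
  have := cj g d y v
  rwa [← g.Md y (KM (x.YK hy)), mul_inv_cancel_right] at this

omit KM p in
theorem eqC {y y' : Γ} (hy : y ∈ Y) (hy' : y' ∈ Y) (n : y ≠ 1) (n' : y' ≠ 1) (h : C T y ≤ C T y') : C T y' = C T y := by
  obtain ⟨k, -, rfl⟩ := x.tr _ hy' _ hy n' n
  exact (AddSubgroup.eq_of_le_of_card_ge h (Nat.card_le_card_of_injective (fun v => ⟨T k v, (cj g k y' v).2 v.2⟩) fun v w e =>
    Subtype.ext (by simpa only [can g] using congrArg (fun z => T k⁻¹ z.1) e))).symm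

omit x KM p in
theorem nt {y : Γ} (n : y ≠ 1) : C T y ≠ ⊤ := fun e => n (g.fai y fun v => mC.1 (e ▸ AddSubgroup.mem_top v))

omit g x KM [Finite V] [Finite Γ] in
theorem BC {y : Γ} (hy : y ∈ Y) : B ≤ C T y := fun v hv => mC.2 ((p.mB v).1 hv y hy)

theorem dist {y y' : Γ} (hy : y ∈ Y) (hy' : y' ∈ Y) (n : y ≠ 1) (n' : y' ≠ 1) (ne : y ≠ y') (h : C T y ≤ C T y') : Nat.card (C T y) = 64 := by
  let J : Subgroup Γ :=
    { carrier := {k | k ∈ K ∧ ∀ v, T k v ∈ C T y ↔ v ∈ C T y}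
      one_mem' := ⟨one_mem _, fun v => by rw [g.one]⟩
      mul_mem' := fun a b => ⟨mul_mem a.1 b.1, fun v => by rw [g.mul, a.2, b.2]⟩
      inv_mem' := fun {k} a => ⟨inv_mem a.1, fun v => by rw [← a.2, ← g.mul, mul_inv_cancel, g.one]⟩ }
  have n2 : y * y' ≠ 1 := fun e => ne (mul_left_cancel ((x.Y2 y hy).trans e.symm))
  let z : Fin 3 → Γ := ![y, y', y * y']
  have hz : ∀ i, z i ∈ Y ∧ C T (z i) = C T y := fun i => by
    fin_cases i
    · exact ⟨hy, rfl⟩
    · exact ⟨hy', eqC g x hy hy' n n' h⟩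
    · exact ⟨mul_mem hy hy', eqC g x hy (mul_mem hy hy') n n2 fun v hv => mC.2 (show T (y * y') v = v by rw [g.mul, mC.1 (h hv), mC.1 hv])⟩
  have zi : Function.Injective z := fun i j e => by
    fin_cases i <;> fin_cases j <;> simp_all [z]
  have c := Nat.card_le_card_of_injective (fun a : (K ⧸ J.subgroupOf K) × Fin 3 =>
    (⟨a.1.out * z a.2 * a.1.out⁻¹, x.nY _ a.1.out.2 _ (hz _).1⟩ : Y)) fun ⟨a, i⟩ ⟨b, j⟩ e => by
      have e : a.out.1 * z i * a.out.1⁻¹ = b.out.1 * z j * b.out.1⁻¹ := congrArg Subtype.val e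
      have : a = b := by
        rw [← QuotientGroup.out_eq' a, ← QuotientGroup.out_eq' b]
        refine QuotientGroup.eq.2 ⟨(a.out⁻¹ * b.out).2, fun v => ?_⟩
        show T (a.out.1⁻¹ * b.out.1) v ∈ _ ↔ _
        rw [← (hz i).2, ← cj g a.out.1, ← g.mul, mul_inv_cancel_left, e, cj g, (hz i).2, (hz j).2]
      subst this
      rw [zi (mul_left_cancel (mul_right_cancel e))]
  rw [Nat.card_prod, x.cY, Nat.card_eq_fintype_card (α := Fin 3), Fintype.card_fin] at c
  have k := x.s1 J (fun _ a => a.1) (fun a ha => ⟨x.YK ha, fun v => by have := cj g a y v; rwa [cm x ha hy] at this⟩)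
    ⟨x.dK, dC g x KM hy⟩ (show Nat.card (K ⧸ J.subgroupOf K) ≤ 5 by omega)
  rcases p.w64 (C T y) fun a ha v hv => ((k ha).2 v).2 hv with e | e | e
  · have := AddSubgroup.card_le_of_le (BC p hy)
    rw [e, p.cB, AddSubgroup.card_bot] at this; omega
  · exact absurd e (nt g n)
  · exact e

theorem c256 {y : Γ} (hy : y ∈ Y) (n : y ≠ 1) : Nat.card (C T y) ≤ 256 := by
  have c1 : ∀ y ∈ Y, y ≠ 1 → Nat.card (C T y) ≤ 256 ∨ Nat.card (C T y) = 1024 := fun y hy n => by
    obtain ⟨j, hj, e⟩ := p4 g fun v => (dC g x KM hy v).2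
    have : Nat.card (C T y) ≠ 4096 := fun a => nt g n (AddSubgroup.eq_top_of_card_eq _ (a.trans g.card.symm))
    interval_cases j <;> omega
  refine (c1 y hy n).resolve_right fun e => ?_
  obtain ⟨y', hy', n', ne⟩ : ∃ y' ∈ Y, y' ≠ 1 ∧ y ≠ y' := by
    by_contra! a
    have := Nat.card_le_card_of_injective (fun z : Y => z.1 = 1) fun z w (e : (z.1 = 1) = (w.1 = 1)) => Subtype.ext (by
      by_cases b : z.1 = 1
      · rw [b, e.mp b]
      · rw [← a _ z.2 b, ← a _ w.2 fun c => b (e.mpr c)])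
    rw [x.cY] at this; simp at this
  have n2 : y * y' ≠ 1 := fun e => ne (mul_left_cancel ((x.Y2 y hy).trans e.symm))
  have I : ∀ y, Nat.card (C T y) * Nat.card (AddMonoidHom.id V + T y).range = 4096 := fun y => by
    rw [← AddSubgroup.index_ker, C, AddSubgroup.card_mul_index, g.card]
  have dI : ∀ y ∈ Y, ∀ v ∈ (AddMonoidHom.id V + T y).range, T d v ∈ (AddMonoidHom.id V + T y).range := by
    rintro y hy _ ⟨v, rfl⟩
    exact ⟨T d v, show T d v + T y (T d v) = T d (v + T y v) by rw [map_add, ← g.mul, ← g.mul, g.Md y (KM (x.YK hy))]⟩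
  obtain ⟨v, v1, v2⟩ : ∃ v ∈ C T y', v ∉ C T y := by
    by_contra! a
    have := dist g x KM p hy hy' n n' ne (eqC g x hy' hy n' n a).le
    omega
  obtain ⟨j, -, c⟩ := p4 g (W := (AddMonoidHom.id V + T y).range ⊓ (AddMonoidHom.id V + T (y * y')).range)
    fun v hv => ⟨dI y hy v hv.1, dI _ (mul_mem hy hy') v hv.2⟩
  have j0 : j ≠ 0 := fun a => v2 (by
    rw [a, pow_zero, AddSubgroup.card_eq_one] at c
    exact AddSubgroup.mem_bot.1 (c.le ⟨⟨v, rfl⟩, v, show v + T (y * y') v = v + T y v by rw [g.mul, mC.1 v1]⟩))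
  have le : (AddMonoidHom.id V + T y).range ≤ (AddMonoidHom.id V + T (y * y')).range := by
    have := I y
    have := Nat.pow_le_pow_right (by decide : 0 < 4) (Nat.pos_of_ne_zero j0)
    exact inf_eq_left.1 (AddSubgroup.eq_of_le_of_card_ge inf_le_left (by rw [c]; rw [e] at *; omega))
  have ad : ∀ y ∈ Y, ∀ u v, β u (v + T y v) = β (u + T y u) v := fun y hy u v => by
    rw [map_add, map_add, AddMonoidHom.add_apply, ← g.toQF.inv (g.qT y) u (T y v), ← g.mul, x.Y2 y hy, g.one]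
  have := dist g x KM p (mul_mem hy hy') hy n2 n (by simpa using n') fun u hu => g.nd _ fun v => by
    obtain ⟨w, hw⟩ := le ⟨v, rfl⟩
    have hw : w + T (y * y') w = v + T y v := hw
    have hu : u + T (y * y') u = 0 := hu
    show β (u + T y u) v = 0
    rw [← ad y hy, ← hw, ad _ (mul_mem hy hy'), hu, map_zero, AddMonoidHom.zero_apply]
  have a := I (y * y')
  have b := I y
  have := AddSubgroup.card_le_of_le (show C T y ≤ C T (y * y') from (eqC g x (mul_mem hy hy') hy n2 n fun u hu => g.nd _ fun v => by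
    obtain ⟨w, hw⟩ := le ⟨v, rfl⟩
    have hw : w + T (y * y') w = v + T y v := hw
    have hu : u + T (y * y') u = 0 := hu
    show β (u + T y u) v = 0
    rw [← ad y hy, ← hw, ad _ (mul_mem hy hy'), hu, map_zero, AddMonoidHom.zero_apply]).le)
  omega

omit g x KM p in
theorem u2 : U2Stmt.{u} := by
  intro V _ _ _ Γ _ _ T d M K Y β q B g x KM p
  refine ⟨fun y hy n U hU => (AddSubgroup.card_le_of_le fun v hv => mC.2 (hU v hv)).trans (c256 g x KM p hy n), fun y hy y' hy' n n' ne v a b => ?_⟩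
  obtain ⟨j, -, c⟩ := p4 g (W := C T y ⊓ C T y') fun v hv => ⟨(dC g x KM hy v).2 hv.1, (dC g x KM hy' v).2 hv.2⟩
  have h1 := c256 g x KM p hy n
  have h2 : Nat.card ↥(C T y ⊓ C T y') ≤ Nat.card (C T y) := AddSubgroup.card_le_of_le inf_le_left
  refine (AddSubgroup.eq_of_le_of_card_ge (le_inf (BC p hy) (BC p hy')) ?_).ge ⟨mC.2 a, mC.2 b⟩
  rw [p.cB]
  by_contra! l
  have h3 : 4 ^ 4 ≤ 4 ^ j := Nat.pow_le_pow_right (by decide) (by
    by_contra! j4
    have := Nat.pow_le_pow_right (by decide : 0 < 4) (Nat.le_of_lt_succ j4); omega)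
  have := dist g x KM p hy hy' n n' ne (inf_eq_left.1 (AddSubgroup.eq_of_le_of_card_ge inf_le_left (by omega)))
  omega

end H11.JU2
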