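import Cfsg.Agent.L.Jf0

/-! Part B of S5572 (namespace `H11.S5B`). -/

set_option autoImplicit false

namespace H11.S5B
open Subgroup BG
universe u

theorem b : L.Jf.BStmt.{u} := by
  intro G _ _ z t σ V K m7 ha pu tN hV cV KV KT ⟨e⟩ σt σ7
  have sq : ∀ x ∈ V, x ^ 2 = 1 := hV.2
  have cm : ∀ a ∈ V, ∀ b ∈ V, a * b = b * a := fun a i b j => by
    refine (mul_eq_one_iff_eq_inv.1 ((pow_two _).symm.trans (sq _ (mul_mem i j)))).trans ?_
    rw [mul_inv_rev, ← mul_eq_one_iff_eq_inv.1 ((pow_two _).symm.trans (sq _ i)), ← mul_eq_one_iff_eq_inv.1 ((pow_two _).symm.trans (sq _ j))]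
  have c4 : Nat.card ↥(V ⊓ C_[σ]) ∣ 8 := by
    obtain ⟨j, -, hj⟩ := (Nat.dvd_prime_pow Nat.prime_two).1 (cV ▸ card_dvd_of_le (inf_le_left : V ⊓ C_[σ] ≤ V))
    have : Nat.card ↥(V ⊓ C_[σ]) ≤ 4 ∨ Nat.card ↥(V ⊓ C_[σ]) ∣ 960 := by
      by_cases h : ∀ x ∈ V ⊓ C_[σ], x ≠ 1 → ¬ IsConj z x
      · exact .inl (pu V hV cV _ inf_le_left h)
      push Not at h
      obtain ⟨x, hx, -, h⟩ := h
      obtain ⟨g, rfl⟩ := isConj_iff.1 h
      have k : ∀ a b : G, a * (g * b * g⁻¹) = g * b * g⁻¹ * a → g⁻¹ * a * g⁻¹⁻¹ ∈ C_[b] := fun a b h => mem_centralizer_singleton_iff.2 (by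
        calc _ = g⁻¹ * (a * (g * b * g⁻¹)) * g := by group
          _ = _ := by rw [h]; group)
      refine .inr (Dvd.dvd.trans ?_ (dvd_of_eq (ha.2 (g⁻¹ * σ * g⁻¹⁻¹) (k σ z (mem_centralizer_singleton_iff.1 hx.2).symm)
        (((MulAut.conj g⁻¹).orderOf_eq σ).trans σ7)).1))
      rw [← card_cj g⁻¹]
      refine card_dvd_of_le fun y hy => ?_
      obtain ⟨a, h1, rfl⟩ := mem_cj'.1 hy
      exact ⟨k a z (cm _ h1.1 _ hx.1), k a _ (by simpa [mul_assoc] using mem_centralizer_singleton_iff.1 h1.2)⟩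
    have f5 := Fact.mk (by norm_num : Nat.Prime 5)
    have md : Nat.card V ≡ Nat.card ↥(V ⊓ C_[σ]) [MOD 5] := by
      have sN : zpowers σ ≤ N_(V) := zpowers_le.2 (tN σt)
      letI : MulAction (zpowers σ) V := MulAction.compHom V (V.normalizerMonoidHom.comp (inclusion sN))
      have pg : IsPGroup 5 (zpowers σ) := IsPGroup.of_card (n := 1) (by rw [Nat.card_zpowers, σ7]; rfl)
      refine (pg.card_modEq_card_fixedPoints V).trans (by
        rw [Nat.card_congr (β := ↥(V ⊓ C_[σ])) ⟨fun x => ⟨x.1.1, x.1.2, mem_centralizer_singleton_iff.2 (by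
          have h : σ * x.1.1 * σ⁻¹ = x.1.1 := congrArg Subtype.val (x.2 ⟨σ, mem_zpowers σ⟩)
          exact (mul_inv_eq_iff_eq_mul.1 h).symm)⟩, fun y => ⟨⟨y.1, y.2.1⟩, fun g => Subtype.ext (by
          obtain ⟨_, n, rfl⟩ := g
          show σ ^ n * y.1 * (σ ^ n)⁻¹ = y.1
          have c : Commute y.1 σ := mem_centralizer_singleton_iff.1 y.2.2
          rw [← (c.zpow_right n).eq, mul_inv_cancel_right])⟩, fun _ => rfl, fun _ => rfl⟩])
    rw [cV, hj] at md
    rw [hj] at this ⊢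
    have j2 : j ≤ 3 := by
      by_contra! h
      rcases this with a | a
      · have := (Nat.le_of_dvd (by positivity) (Nat.pow_dvd_pow 2 (show 3 ≤ j by omega))).trans a; omega
      · have j7 : j < 7 := by
          by_contra! h7
          have := (Nat.pow_dvd_pow 2 h7).trans a; omega
        interval_cases j <;> simp [Nat.ModEq] at md
    exact Nat.pow_dvd_pow 2 j2
  have Vt : V ≤ C_[t] := KT ▸ le_sup_right
  have Kt : K ≤ C_[t] := KT ▸ le_sup_left
  have : (V.subgroupOf C_[t]).Normal := (normal_subgroupOf_iff Vt).2 fun a b i j => (mem_normalizer_iff.1 (tN j) a).1 i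
  have ic : IsComplement' (K.subgroupOf C_[t]) (V.subgroupOf C_[t]) := isComplement'_of_disjoint_and_mul_eq_univ
    (disjoint_iff.2 (eq_bot_iff.2 fun a h => Subtype.ext (mem_bot.1 (KV.le ⟨h.1, h.2⟩))))
    (by rw [← mul_normal, ← subgroupOf_sup Kt Vt, KT, subgroupOf_self, coe_top])
  let ψ := (ic.QuotientMulEquiv.trans (subgroupOfEquivOfLe Kt)).trans e
  let φ := ψ.toMonoidHom.comp (QuotientGroup.mk' (V.subgroupOf C_[t]))
  have kφ : φ.ker = V.subgroupOf C_[t] := Subgroup.ext fun a => (map_eq_one_iff ψ ψ.injective).trans (QuotientGroup.eq_one_iff a)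
  have := Fact.mk (by norm_num : Nat.Prime 5)
  have o : orderOf (φ ⟨σ, σt⟩) = 5 := orderOf_eq_prime (by
    rw [← map_pow, show (⟨σ, σt⟩ : C_[t]) ^ 5 = 1 from Subtype.ext (σ7 ▸ pow_orderOf_eq_one σ), map_one]) fun q => by
      have : orderOf σ ∣ 2 := orderOf_dvd_of_pow_eq_one (sq σ (kφ.le q))
      rw [σ7] at this; omega
  have a1 := card_inf_mul_relIndex φ.ker (C_[σ].subgroupOf C_[t])
  rw [relIndex_ker, kφ, show V.subgroupOf C_[t] ⊓ C_[σ].subgroupOf C_[t] = (V ⊓ C_[σ]).subgroupOf C_[t] from rfl,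
    Nat.card_congr (subgroupOfEquivOfLe (inf_le_left.trans Vt)).toEquiv, ← inf_subgroupOf_left C_[σ],
    Nat.card_congr (subgroupOfEquivOfLe inf_le_left).toEquiv] at a1
  rw [← a1]
  refine mul_dvd_mul c4 ((card_dvd_of_le ?_).trans (m7 _ o))
  rintro _ ⟨a, h, rfl⟩
  refine mem_centralizer_singleton_iff.2 ?_
  rw [← map_mul, ← map_mul, show a * ⟨σ, σt⟩ = ⟨σ, σt⟩ * a from Subtype.ext (mem_centralizer_singleton_iff.1 h.2)]

end H11.S5B
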