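import Cfsg.Agent.H11.Spl
import Cfsg.Agent.L.ML8

/-! Central extensions and subgroups generated by `p`-elements: the canonical lift `Ah`, the splitting `sp`, `noStem_of_quot`,
`noStem_SL2`, `tc_cyc`, `tc_meta`. -/

namespace H11
open Subgroup Cfsg
open scoped commutatorElement MatrixGroups
attribute [-simp] commutatorElement_inv map_commutatorElement

universe u
variable {E G : Type*} [Group E] [Group G] {κ : E →* G} {p r : ℕ} {L M : Subgroup G}

variable (p κ L) in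
/-- the subgroup generated by the `p`-elements above `L` -/
def Ah : Subgroup E := closure {e | PE p e ∧ κ e ∈ L}

variable (p L) in
/-- `L` is generated by its `p`-elements -/
def Pg : Prop := L ≤ closure {g | PE p g ∧ g ∈ L}

theorem Ah_mono (h : L ≤ M) : Ah κ p L ≤ Ah κ p M := closure_mono fun _ a => ⟨a.1, h a.2⟩

theorem Ah_le : Ah κ p L ≤ L.comap κ := (closure_le _).2 fun _ a => a.2

theorem Pg.map (h : Pg p (⊤ : Subgroup E)) : Pg p κ.range := by
  rintro _ ⟨e, rfl⟩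
  refine (show ⊤ ≤ comap κ (closure {g | PE p g ∧ g ∈ κ.range}) from h.trans ((closure_le _).2 fun a ⟨⟨k, b⟩, _⟩ =>
    Subgroup.subset_closure ⟨⟨k, ?_⟩, a, rfl⟩)) (mem_top e)
  rw [← map_pow, b, map_one]

theorem Ah_norm [Finite E] {g : E} (h : κ g ∈ normalizer (L : Set G)) : g ∈ normalizer (Ah κ p L : Set E) :=
  mem_normalizer_fintype fun a ha => (show Ah κ p L ≤ comap (MulAut.conj g).toMonoidHom (Ah κ p L) from (closure_le _).2 fun a b =>
    Subgroup.subset_closure ⟨b.1.conj g, by simpa using (h _).1 b.2⟩) ha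

theorem Ah_comm (C : PF p κ) {a b : E} (h : ∀ x ∈ L, Commute x (κ b)) (ha : a ∈ Ah κ p L) : Commute a b :=
  (show Ah κ p L ≤ centralizer {b} from (closure_le _).2 fun a c => mem_centralizer_singleton_iff.2
    (mul_inv_eq_iff_eq_mul.1 (C.uniq (by simp [← (h _ c.2).eq]) (c.1.conj b) c.1)).symm) ha b rfl |>.symm

theorem Ah_map [Finite E] [Fact p.Prime] (h : Pg p L) (hs : Function.Surjective κ) : (Ah κ p L).map κ = L :=
  le_antisymm (map_le_iff_le_comap.2 Ah_le) (h.trans ((closure_le _).2 fun g ⟨⟨k, a⟩, b⟩ => by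
    obtain ⟨e, rfl, c⟩ := PF.exists_pe (κ := κ) (P := zpowers g) (p := p) (fun ⟨_, m, rfl⟩ => ⟨k, Subtype.ext (by
      change (g ^ m) ^ p ^ k = 1; rw [← zpow_natCast, ← zpow_mul, mul_comm, zpow_mul, zpow_natCast, a, one_zpow])⟩) (mem_zpowers g) (hs g)
    exact ⟨e, Subgroup.subset_closure ⟨c, b⟩, rfl⟩))

theorem Ah_inj {G E : Type u} [Group G] [Group E] [Finite E] [Fact p.Prime] {κ : E →* G} (C : PF p κ) (hr : r.Prime) (e : r ≠ p)
    (he : ∀ z, κ z = 1 → z ^ r = 1) {L : Subgroup G} (h : H15.NoStem r ((Ah κ p L).map κ)) {z : E} (hz : z ∈ Ah κ p L) (h1 : κ z = 1) :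
    z = 1 := by
  have h2 : ∀ a ∈ (κ.subgroupMap (Ah κ p L)).ker, κ a = 1 := fun a => congrArg Subtype.val
  refine congrArg Subtype.val ((h _ (κ.subgroupMap _) ⟨κ.subgroupMap_surjective _, fun a ha => mem_center_iff.2 fun g =>
    Subtype.ext (mem_center_iff.1 (C.cent (h2 a ha)) g), fun a ha => ?_⟩ fun a ha => Subtype.ext (he _ (h2 a ha))).le
    (show ⟨z, hz⟩ ∈ MonoidHom.ker _ from Subtype.ext h1))
  obtain ⟨k, hk⟩ : PE p (Abelianization.of a) := closure_induction (p := fun a h => PE p (Abelianization.of (⟨a, h⟩ : Ah κ p L)))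
    (fun a ⟨⟨k, e⟩, _⟩ => ⟨k, by rw [← map_pow, ← map_one Abelianization.of]; exact congrArg _ (Subtype.ext e)⟩) ⟨0, by rw [pow_zero, pow_one]; exact map_one _⟩
    (fun a b a' b' ⟨k, c⟩ ⟨l, d⟩ => ⟨k + l, (congrArg (· ^ _) (map_mul _ (⟨a, a'⟩ : Ah κ p L) ⟨b, b'⟩)).trans (by
      rw [mul_pow, pow_add, pow_mul, c, mul_comm (p ^ k), pow_mul, d]; simp)⟩)
    (fun a a' ⟨k, c⟩ => ⟨k, (congrArg (· ^ _) (map_inv _ (⟨a, a'⟩ : Ah κ p L))).trans (by rw [inv_pow, c, inv_one])⟩) a.2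
  have := pow_gcd_eq_one.2 ⟨hk, by rw [← map_pow, show a ^ r = 1 from Subtype.ext (he _ (h2 a ha)), map_one]⟩
  rw [(((Nat.coprime_primes Fact.out hr).2 e.symm).pow_left k).gcd_eq_one, pow_one] at this
  exact (Abelianization.ker_of _).le this

theorem pf_of (hc : κ.ker ≤ center E) (hp : p.Prime) (hr : r.Prime) (e : r ≠ p) (he : ∀ z, κ z = 1 → z ^ r = 1) : PF p κ :=
  ⟨hc, fun z a b => by simpa [((Nat.coprime_primes hr hp).2 e).gcd_eq_one] using pow_gcd_eq_one.2 ⟨he z a, b⟩⟩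

variable (p κ L) in
open Classical in
/-- the splitting over `L` -/
noncomputable def sp (g : G) : E := if h : g ∈ (Ah κ p L).map κ then h.choose else 1

theorem sp_spec {g : G} (h : g ∈ (Ah κ p L).map κ) : sp κ p L g ∈ Ah κ p L ∧ κ (sp κ p L g) = g := by
  rw [sp, dif_pos h]; exact h.choose_spec

theorem sp_eq (h : ∀ a ∈ Ah κ p L, κ a = 1 → a = 1) {a : E} (ha : a ∈ Ah κ p L) : sp κ p L (κ a) = a :=
  have := sp_spec (mem_map_of_mem κ ha)
  mul_inv_eq_one.1 (h _ (mul_mem this.1 (inv_mem ha)) (by simp [this.2]))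

theorem sp_le (h : ∀ a ∈ Ah κ p L, κ a = 1 → a = 1) (e : M ≤ L) {g : G} (hg : g ∈ (Ah κ p M).map κ) : sp κ p L g = sp κ p M g := by
  rw [← (sp_spec hg).2, sp_eq h (Ah_mono e (sp_spec hg).1), (sp_spec hg).2]

theorem sp_mul (h : ∀ a ∈ Ah κ p L, κ a = 1 → a = 1) (e : (Ah κ p L).map κ = L) : ∀ a ∈ L, ∀ b ∈ L, sp κ p L (a * b) = sp κ p L a * sp κ p L b := by
  intro a ha b hb
  obtain ⟨a, c, rfl⟩ := e.ge ha
  obtain ⟨b, d, rfl⟩ := e.ge hb
  rw [← map_mul, sp_eq h (mul_mem c d), sp_eq h c, sp_eq h d]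

theorem ker_bot_of_split (h : IsStemExtension κ) {f : G →* E} (e : ∀ g, κ (f g) = g) : κ.ker = ⊥ := eq_bot_iff.2 fun z hz => by
  obtain ⟨g, rfl⟩ := (H16.eq_top_of_stem h (H := f.range) (eq_top_iff.2 fun g _ => ⟨_, ⟨g, rfl⟩, e g⟩)).ge (mem_top z)
  rw [(e g).symm.trans hz, map_one]; exact one_mem _

theorem noStem_congr {A B : Type u} [Group A] [Group B] (e : B ≃* A) (h : H15.NoStem p A) : H15.NoStem p B := fun X _ _ ξ hξ he =>
  have k : (e.toMonoidHom.comp ξ).ker = ξ.ker := MonoidHom.ker_comp_of_injective _ _ e.injective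
  k ▸ h X _ ⟨e.surjective.comp hξ.1, k ▸ hξ.2.1, k ▸ hξ.2.2⟩ (k ▸ he)

theorem noStem_of_quot {G : Type u} [Group G] [Fact p.Prime] (hr : r.Prime) (e : r ≠ p) (hg : Pg p (⊤ : Subgroup G)) {A : Type*} [CommGroup A]
    (h : HasSchurMultiplier (G ⧸ center G) A) (hp : commutator G = ⊤) (hn : ¬ r * Nat.card (center G) ∣ Nat.card A) : H15.NoStem r G :=
  fun X _ _ ξ a b => by
  by_contra c
  obtain ⟨f, hf⟩ := h.2 X ((QuotientGroup.mk' _).comp ξ) ⟨(QuotientGroup.mk'_surjective _).comp a.1, fun z hz => mem_center_iff.2 fun g =>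
    (Ah_comm (pf_of a.2.1 Fact.out hr e b) (fun x _ => mem_center_iff.1 ((QuotientGroup.eq_one_iff _).1 hz) x)
      ((H16.eq_top_of_stem a (Ah_map hg a.1)).ge (mem_top g))).eq, 
    H16.eq_top_of_stem a (H := commutator X) (by rw [map_commutator_eq, MonoidHom.range_eq_top.2 a.1]; exact hp) ▸ le_top⟩
  refine hn (.trans ?_ (card_dvd_of_surjective f hf))
  rw [← MonoidHom.comap_ker, QuotientGroup.ker_mk', ← relIndex_bot_left, ← relIndex_bot_left, ← relIndex_mul_relIndex ⊥ ξ.ker _ bot_le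
    (comap_mono bot_le), ← MonoidHom.comap_bot, relIndex_comap ⊥ ξ, map_comap_eq_self_of_surjective a.1, MonoidHom.comap_bot,
    relIndex_bot_left ξ.ker]
  obtain ⟨z, h1, h2⟩ := (ξ.ker.bot_or_exists_ne_one).resolve_left c
  have := Fact.mk hr
  exact Nat.mul_dvd_mul_right ((orderOf_eq_prime (b z h1) h2).symm ▸ Subgroup.orderOf_dvd_natCard _ h1) _

theorem noStem_SL2 {K : Type u} [Field K] [Finite K] [Fact p.Prime] [CharP K p] (hr : r.Prime) (h : r ≠ p) : H15.NoStem r SL(2, K) := by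
  have := Fact.mk hr
  have := Fintype.ofFinite K
  obtain ⟨P⟩ : Nonempty (Sylow r SL(2, K)) := inferInstance
  refine .of_sub hr P P.not_dvd_index fun E _ _ π C _ => ?_
  by_cases h2 : r = 2
  · subst h2
    obtain ⟨k, ⟨e⟩⟩ := H09.SL2_sylow_two (Nat.odd_iff.2 ((Nat.mod_two_eq_zero_or_one _).resolve_left fun e => h
      ((ringChar.eq K p).symm.trans (FiniteField.even_card_iff_char_two.2 e)).symm)) P
    exact L.RD.inf_of_trivial ⟨C.1, C.2.1⟩ (H16.hsm_congr_left (Cfsg.Agent.S3963.result _) e.symm)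
  · have := H09.SL2_cyclic_of_odd p h2 h P.isPGroup'
    exact L.RD.inf_of_cyclic ⟨C.1, C.2.1⟩

theorem tc_cyc (C : CE κ) [IsCyclic L] : Tc κ L := fun _ a b => (_root_.L.RD.inf_of_cyclic C (U := L)).le ⟨b, a⟩

theorem comm_le_gen {A : Subgroup E} {s : Set E} (hs : s ⊆ normalizer (A : Set E)) (h : ∀ a ∈ s, ∀ b ∈ s, ⁅a, b⁆ ∈ A) :
    ⁅closure s, closure s⁆ ≤ A := by
  have h1 := (closure_le _).2 hs
  have h2 : ∀ b, (∀ a ∈ s, ⁅a, b⁆ ∈ A) → ∀ a ∈ closure s, ⁅a, b⁆ ∈ A := fun b h a ha => by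
    induction ha using closure_induction with
    | mem a ha => exact h a ha
    | one => simp
    | mul a a' u v i j => convert mul_mem ((h1 u _).1 j) i using 1; simp only [commutatorElement_def]; group
    | inv a u i => exact (show a⁻¹ * ⁅a, b⁆⁻¹ * a⁻¹⁻¹ = ⁅a⁻¹, b⁆ by simp only [commutatorElement_def]; group) ▸ (h1 (inv_mem u) _).1 (inv_mem i)
  exact commutator_le.2 fun a ha b hb => h2 b (fun a u => commutatorElement_inv b a ▸ inv_mem (h2 a (fun b v => h b v a u) b hb)) a ha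

theorem comap_closure_le (hs : Function.Surjective κ) {s : Set G} (h : 1 ∈ s) : (closure s).comap κ ≤ closure (κ ⁻¹' s) := by
  conv_lhs => rw [← Set.image_preimage_eq s hs, ← MonoidHom.map_closure, comap_map_eq]
  exact sup_le le_rfl fun z hz => subset_closure (show κ z ∈ s from hz ▸ h)

theorem tc_meta (hs : Function.Surjective κ) (T : Tc κ L) (hL : ∀ a ∈ L, ∀ b ∈ L, Commute a b) {c : E} (h1 : κ c ∈ normalizer (L : Set G))
    (h2 : ∀ x, κ x ∈ L → Commute (κ c) (κ x) → Commute c x) (h3 : κ.ker ≤ center E) : Tc κ (L ⊔ zpowers (κ c)) := fun z hz h0 => by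
  have h4 : ∀ {a b}, κ a ∈ L → κ b ∈ L → Commute a b := fun {a b} u v => commutatorElement_eq_one_iff_commute.1
    (T _ (commutator_mem_commutator u v) (by rw [map_commutatorElement, (hL _ u _ v).commutator_eq]))
  have h5 : ∀ {a}, κ a ∈ L → κ (c * a * c⁻¹) ∈ L := fun u => by simpa using (h1 _).1 u
  have h6 : ∀ {a}, κ a ∈ L → κ ⁅c, a⁆ ∈ L := fun u => by simpa [commutatorElement_def] using mul_mem (h5 u) (inv_mem u)
  let A : Subgroup E :=
    { carrier := {e | ∃ x, κ x ∈ L ∧ ⁅c, x⁆ = e}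
      one_mem' := ⟨1, by simp, by simp⟩
      mul_mem' := by
        rintro _ _ ⟨x, a, rfl⟩ ⟨y, b, rfl⟩
        exact ⟨x * y, by simpa using mul_mem a b, c2_right (h4 (h6 b) a)⟩
      inv_mem' := by
        rintro _ ⟨x, a, rfl⟩
        exact ⟨x⁻¹, by simpa using a, eq_inv_of_mul_eq_one_right ((c2_right (h4 (h6 (by simpa using a)) a)).symm.trans (by simp))⟩ }
  have h7 : ∀ e, κ e = κ c → ∀ x, ⁅e, x⁆ = ⁅c, x⁆ := fun e u x => H16.commutatorElement_eq_of_map_eq h3 u rfl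
  obtain ⟨x, a, rfl⟩ : z ∈ A := comm_le_gen (s := κ ⁻¹' (L ∪ {κ c})) (by
    rintro e (u | u)
    · exact centralizer_le_normalizer _ (by rintro _ ⟨x, a, rfl⟩; exact h4 (h6 a) u)
    · refine mem_norm_of h3 ⟨c, mem_normalizer_iff.2 fun e => ⟨?_, ?_⟩, u.symm⟩
      · rintro ⟨x, a, rfl⟩; exact ⟨_, h5 a, conj_of_map h3 (by simp)⟩
      · rintro ⟨x, a, b⟩
        exact ⟨c⁻¹ * x * c⁻¹⁻¹, by simpa using (inv_mem h1 _).1 a, by rw [conj_of_map h3 (by simp), b]; group⟩) (by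
    rintro a (u | u) b (v | v)
    · rw [(h4 u v).commutator_eq]; exact one_mem _
    · rw [← commutatorElement_inv, h7 _ v]; exact inv_mem ⟨a, u, rfl⟩
    · exact ⟨b, v, (h7 _ u b).symm⟩
    · rw [h7 _ u, ← commutatorElement_inv, h7 _ v]; simp) (by
    have := comap_closure_le hs (s := L ∪ {κ c}) (.inl (one_mem L))
    rw [Subgroup.closure_union, closure_eq, ← zpowers_eq_closure] at this
    exact commutator_mono this this hz)
  exact (h2 x a (commutatorElement_eq_one_iff_commute.1 (by rwa [← map_commutatorElement]))).commutator_eq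

end H11
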