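import Cfsg.Agent.H11.Su1
import Cfsg.Agent.H09.SUn5
import Cfsg.Agent.H16.SpecU
import Cfsg.Agent.H10.SUGen
import Cfsg.Agent.S0278
import Cfsg.Agent.S0279
import Cfsg.Agent.S0822
import Cfsg.Agent.S2090
import Cfsg.Agent.S2092

/-! The part prime to the characteristic of the multiplier of `SU_n(q)`: `noStem_SU_ne`. -/

namespace H11
open Subgroup Cfsg Cfsg.Agent H09 Matrix H15
open scoped commutatorElement

universe u
variable {F : Type u} [Field F] [Finite F] {q n m k p r : ℕ} [hF : Fact (Nat.card F = q ^ 2)]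

theorem sbl_eq (h : k + m ≤ n) : sbl F q n k (k + m) = (suPad (shift k h)).range := by rw [suPad_range, range_shift]

theorem seg_disj {a b c d : ℕ} (h : b ≤ c) : Disjoint (seg n a b) (seg n c d) := Set.disjoint_left.2 fun _ u v => by
  have := u.2; have := v.1; omega

theorem rt_norm (s : rootsOfUnity (q + 1) F) : (s.1 : F) ^ q * s.1 = 1 := by
  rw [← pow_succ, ← Units.val_pow_eq_pow_val, (mem_rootsOfUnity ..).1 s.2, Units.val_one]

/-- the diagonal subgroup of `SU₃` -/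
noncomputable def dg3 : rootsOfUnity (q + 1) F × rootsOfUnity (q + 1) F →* SU 3 F q :=
  .mk' (fun x => suDiag (fun i => (![x.1, x.1⁻¹ * x.2, x.2⁻¹] i).1) (fun _ => rt_norm _) (by simp [Fin.prod_univ_three])) fun x y =>
    SU_ext' fun i j => by
      rw [SU_mul_val, suDiag_val, suDiag_val, suDiag_val, diagonal_mul_diagonal]; congr 1; ext i; fin_cases i <;> simp <;> ring

theorem dg3_val (x) : (dg3 x : SU 3 F q).1.1 = diagonal ![(x.1.1 : F), (x.1.1 : F)⁻¹ * x.2.1, (x.2.1 : F)⁻¹] := by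
  refine congrArg diagonal ?_; ext i; fin_cases i <;> simp

theorem dg3_inj : Function.Injective (dg3 (F := F) (q := q)) := (injective_iff_map_eq_one _).2 fun x h => by
  have a := congrArg (fun g : SU 3 F q => g.1.1 0 0) h
  have b := congrArg (fun g : SU 3 F q => g.1.1 2 2) h
  simp [dg3_val] at a b
  exact Prod.ext a b

theorem card_rt : Nat.card (rootsOfUnity (q + 1) F) = q + 1 := by
  obtain ⟨ζ, -, -, h, -⟩ := u3_gen (F := F) (q := q)
  exact IsPrimitiveRoot.card_rootsOfUnity ⟨by rw [pow_succ, div_pow, cq_cq]; field_simp, h⟩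

theorem card_SU3 : Nat.card (SU 2 F q) = q * ((q - 1) * (q + 1)) ∧ Nat.card (SU 3 F q) = q ^ 3 * ((q - 1) * (q + 1) * ((q + 1) * (q * (q - 1) + 1))) := by
  have := Fintype.ofFinite F
  have h := Nat.card_eq_fintype_card.symm.trans hF.1
  have h1 := S0278.result h 2 (by omega)
  have h2 := S0278.result h 3 (by omega)
  obtain ⟨k, rfl⟩ := Nat.exists_eq_add_of_le' (H10.two_le_q hF.1)
  simp [Finset.prod_range_succ, show (k + 2) ^ 2 - 1 = (k + 1) * (k + 3) from Nat.sub_eq_of_eq_add (by ring), show ¬ Even 1 by decide] at h1 h2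
  exact ⟨Nat.eq_of_mul_eq_mul_left (show 0 < k + 3 by omega) (h1.trans (by simp; ring)),
    Nat.eq_of_mul_eq_mul_left (show 0 < k + 3 by omega) (h2.trans (by simp; ring))⟩

theorem dg3_norm (x) (A) : dg3 x ∈ normalizer (ubl q F (n := 3) A : Set (SU 3 F q)) :=
  mem_normalizer_iff.2 fun _ => (diag_conj_iff (by rw [dg3_val]; exact isDiag_diagonal _)).symm

theorem dg3_disj {g} (h : g ∈ sbl F q 3 0 (0 + 2)) (h' : g ∈ (dg3.comp (.inr _ _)).range) : g = 1 := by
  obtain ⟨t, rfl⟩ := h'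
  have := congrFun (h 2 (by simp)) 2
  simp [uac_ev, dg3_val] at this
  rw [this, map_one]

/-- a cyclic permutation matrix -/
def cy3 : SU 3 F q := ⟨⟨!![0, 0, 1; 1, 0, 0; 0, 1, 0], by simp [det_fin_three]⟩, mem_SU_iff.2 (by
  ext i j; fin_cases i <;> fin_cases j <;> simp [Matrix.mul_apply, Fin.sum_univ_three])⟩

theorem cy3_val : (cy3 : SU 3 F q).1.1 = !![0, 0, 1; 1, 0, 0; 0, 1, 0] := rfl

theorem cy3_norm : (cy3 : SU 3 F q) ∈ normalizer ((dg3 (F := F) (q := q)).range : Set (SU 3 F q)) := mem_normalizer_fintype (by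
  rintro _ ⟨x, rfl⟩
  refine ⟨(x.2⁻¹, x.2⁻¹ * x.1), eq_mul_inv_of_mul_eq (SU_ext' fun i j => ?_)⟩
  fin_cases i <;> fin_cases j <;> simp [dg3_val, cy3_val, mul_comm, mul_left_comm])

theorem cy3_comm {x} (h : Commute (cy3 : SU 3 F q) (dg3 x)) (g) : Commute g (dg3 x) := by
  have a := congrArg (fun g : SU 3 F q => g.1.1 0 2) h
  have b := congrArg (fun g : SU 3 F q => g.1.1 1 0) h
  simp [dg3_val, cy3_val] at a b
  have c : (dg3 x : SU 3 F q).1.1 = (x.1.1 : F) • 1 := by rw [dg3_val, a, ← b, smul_one_eq_diagonal]; congr 1; ext i; fin_cases i <;> rfl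
  exact SU_ext' fun i j => by simp [c]

theorem card_meta : Nat.card ↥((dg3 (F := F) (q := q)).range ⊔ zpowers cy3) = 3 * ((q + 1) * (q + 1)) := by
  have h1 : (cy3 : SU 3 F q) ∉ dg3.range := fun ⟨x, h⟩ => by simpa [dg3_val, cy3_val] using congrArg (fun g : SU 3 F q => g.1.1 0 2) h
  have := Fact.mk Nat.prime_three
  have h2 : Nat.card (zpowers (cy3 : SU 3 F q)) = 3 := (Nat.card_zpowers _).trans (orderOf_eq_prime (SU_ext' fun i j => by
    fin_cases i <;> fin_cases j <;> simp [pow_succ, cy3_val]) fun e => h1 (e ▸ one_mem _))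
  have := Fact.mk (h2 ▸ Nat.prime_three)
  rw [sup_comm, H02.card_sup_of_disjoint (zpowers_le.2 cy3_norm) (disjoint_iff.1 (subgroupOf_eq_bot.1
    ((dg3.range.subgroupOf (zpowers cy3)).eq_bot_or_eq_top_of_prime_card.resolve_right fun e => h1 (subgroupOf_eq_top.1 e (mem_zpowers _)))).symm),
    h2, ← Nat.card_congr (MonoidHom.ofInjective dg3_inj).toEquiv, Nat.card_prod, card_rt]

variable [Fact p.Prime] [CharP F p]

theorem pg_SU (hm : 2 ≤ m) : Pg p (⊤ : Subgroup (SU m F q)) := fun g _ => by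
  rcases hm.eq_or_lt with rfl | h
  · exact su2_tr (H := closure {g | PE p g ∧ g ∈ ⊤}) (fun g r h => Subgroup.subset_closure ⟨⟨1, by simpa using h.pow p⟩, trivial⟩) g
  · exact SU_ind h (H := closure {g | PE p g ∧ g ∈ ⊤}) (fun g r v s h => Subgroup.subset_closure ⟨⟨2, h.pow_sq p⟩, trivial⟩) g

variable (hr : r.Prime) (e : r ≠ p)
section
variable {E : Type u} [Group E] [Finite E] {κ : E →* SU n F q} (hs : IsStemExtension κ) (he : ∀ z ∈ κ.ker, z ^ r = 1)
include hs

theorem ah_sbl (hm : 2 ≤ m) (h : k + m ≤ n) : (Ah κ p (sbl F q n k (k + m))).map κ = sbl F q n k (k + m) :=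
  Ah_map (by rw [sbl_eq h]; exact (pg_SU hm).map) hs.1

include hr e he
theorem inj_sbl (N : NoStem r (SU m F q)) (hm : 2 ≤ m) (h : k + m ≤ n) : ∀ a ∈ Ah κ p (sbl F q n k (k + m)), κ a = 1 → a = 1 := fun _ =>
  Ah_inj (pf_of hs.2.1 Fact.out hr e he) hr e he (by
    rw [ah_sbl hs hm h, sbl_eq h]; exact noStem_congr (MonoidHom.ofInjective (suPad_inj _)).symm N)

theorem sp_comm (hm : 2 ≤ m) (h : k + m ≤ n) {x y} (hx : x ∈ sbl F q n k (k + m)) {j l c d : ℕ} (hl : 2 ≤ l) (h' : j + l ≤ n)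
    (hy : y ∈ sbl F q n j (j + l)) (h1 : y ∈ sbl F q n c d) (h2 : k + m ≤ c) :
    Commute (sp κ p (sbl F q n k (k + m)) x) (sp κ p (sbl F q n j (j + l)) y) :=
  Ah_comm (pf_of hs.2.1 Fact.out hr e he) (fun _ a => by rw [(sp_spec ((ah_sbl hs hl h').ge hy)).2]; exact ubl_comm (seg_disj h2) a h1)
    (sp_spec ((ah_sbl hs hm h).ge hx)).1

omit hr e he in
theorem ker_of_blk (hm : 3 ≤ m) (h : m ≤ n) {f : SU n F q →* E}
    (hf : ∀ i, i + m ≤ n → ∀ g ∈ sbl F q n i (i + m), f g = sp κ p (sbl F q n i (i + m)) g) : κ.ker = ⊥ :=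
  ker_bot_of_split hs (f := f) fun g => sbl_gen3 (a := 0) (b := n) (H := (κ.comp f).eqLocus (.id _)) (by omega) le_rfl (fun j _ a g hg => by
    have b : min j (n - m) + m ≤ n := by omega
    have c : g ∈ sbl F q n (min j (n - m)) (min j (n - m) + m) := sbl_mono (min_le_left _ _) (by omega) hg
    exact (congrArg κ (hf _ b g c)).trans (sp_spec ((ah_sbl hs (by omega) b).ge c)).2) (sbl_top.ge trivial)
end
include hr e

theorem glue3 (hq : 4 ≤ q) (hn : 3 ≤ n) (N : NoStem r (SU 3 F q)) : NoStem r (SU n F q) := fun E _ _ κ a b => by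
  have i := fun k => inj_sbl hr e a b N (k := k) (by omega)
  obtain ⟨f, hf⟩ := phan3 hq hn (fun i => sp κ p (sbl F q n i (i + 2))) (fun i => sp κ p (sbl F q n i (i + 3)))
    (fun k h => sp_mul (i k h) (ah_sbl a (by omega) h))
    (fun k h g hg => sp_le (i k h) (sbl_mono le_rfl (by omega)) ((ah_sbl a le_rfl (by omega)).ge hg))
    (fun k h g hg => sp_le (i k h) (sbl_mono (by omega) le_rfl) ((ah_sbl a le_rfl (by omega)).ge hg))
    fun k j h h' x hx y hy => sp_comm hr e a b le_rfl (by omega) hx le_rfl h' hy hy h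
  exact ker_of_blk a le_rfl hn hf

theorem glue4 (hn : 4 ≤ n) (N : NoStem r (SU 4 F q)) : NoStem r (SU n F q) := fun E _ _ κ a b => by
  have i := fun k => inj_sbl hr e a b N (k := k) (by omega)
  have i' : ∀ k, k + 3 ≤ n → ∀ a ∈ Ah κ p (sbl F q n k (k + 3)), κ a = 1 → a = 1 := fun k h a u =>
    i (min k (n - 4)) (by omega) a (Ah_mono (sbl_mono (min_le_left _ _) (by omega)) u)
  obtain ⟨f, hf⟩ := phan4 hn (fun i => sp κ p (sbl F q n i (i + 3))) (fun i => sp κ p (sbl F q n i (i + 4)))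
    (fun k h => sp_mul (i k h) (ah_sbl a (by omega) h))
    (fun k h g hg => sp_le (i k h) (sbl_mono le_rfl (by omega)) ((ah_sbl a (k := k) (m := 3) (by omega) (by omega)).ge hg))
    (fun k h g hg => sp_le (i k h) (sbl_mono (by omega) le_rfl) ((ah_sbl a (k := k + 1) (m := 3) (by omega) (by omega)).ge hg))
    (fun k j h h' x hx y hy => sp_le (i' k (by omega)) (sbl_mono le_rfl (by omega)) ((ah_sbl a (k := k) le_rfl (by omega)).ge hx) ▸
      sp_comm hr e a b (l := 3) le_rfl (by omega) hx (by omega) h' hy hy h)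
    (fun k j h h' x hx y hy => sp_comm hr e a b (m := 3) (l := 3) (by omega) (by omega) hx (by omega) h' hy hy h)
    fun k j h h' x hx y hy => sp_comm hr e a b (m := 3) (l := 3) (by omega) (by omega) hx (by omega) h' (sbl_mono (by omega) le_rfl hy) hy (by omega)
  exact ker_of_blk a (by omega) hn hf

omit hr e in
variable (F) in
include F in
theorem char_eq (hq : q.Prime) : p = q := CharP.eq F inferInstance (charP_q hq)

theorem noStem_SU4 (hq : ¬ 4 ≤ q) : NoStem r (SU 4 F q) := by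
  have := Fintype.ofFinite F
  have h := Nat.card_eq_fintype_card.symm.trans hF.1
  have h1 := H10.two_le_q hF.1
  have h2 := S0279.result h 4 (by omega)
  obtain rfl | rfl : q = 2 ∨ q = 3 := by omega
  · obtain rfl := char_eq F (p := p) Nat.prime_two
    obtain ⟨j⟩ := S0822.result (K := ZMod 3) h rfl
    refine noStem_of_quot hr e (pg_SU (by omega)) (H16.hsm_congr_left (S2092.result (F := ZMod 3) (q := 3) rfl 2 le_rfl (fun _ => le_rfl) (by omega))
      j.symm) (H10.SU_commutator_eq_top hF.1 (by omega) (by omega)) fun c => e ?_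
    rw [h2] at c
    exact (Nat.prime_dvd_prime_iff_eq hr Nat.prime_two).1 (by simpa using c)
  · obtain rfl := char_eq F (p := p) Nat.prime_three
    refine noStem_of_quot hr e (pg_SU (by omega)) (S2090.result h) (H10.SU_commutator_eq_top hF.1 (by omega) (by omega)) fun c => e ?_
    rw [h2] at c
    exact (Nat.prime_dvd_prime_iff_eq hr Nat.prime_three).1 (hr.dvd_of_dvd_pow (n := 2) (Nat.dvd_of_mul_dvd_mul_right four_pos (by simpa using c)))

theorem tc_GU2 {E : Type u} [Group E] [Finite E] {κ : E →* SU 3 F q} (hs : IsStemExtension κ) (he : ∀ z ∈ κ.ker, z ^ r = 1) :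
    Tc κ (sbl F q 3 0 (0 + 2) ⊔ (dg3.comp (.inr _ _)).range) := by
  obtain ⟨-, j, -⟩ := su2_sl2 (F := F) (q := q)
  have := isCyclic_of_surjective _ ((dg3 (F := F) (q := q)).comp (.inr _ _)).rangeRestrict_surjective
  refine Tc.step (A := Ah κ p (sbl F q 3 0 (0 + 2))) (fun a ha h => inj_sbl hr e hs he (noStem_congr j.symm (noStem_SL2 hr e)) le_rfl
    (by omega) a ha (dg3_disj (Ah_le ha) h)) (fun g ⟨x, hx⟩ => Ah_norm (hx ▸ dg3_norm _ _)) (fun g hg => ?_) (tc_cyc ⟨hs.1, hs.2.1⟩)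
  obtain ⟨a, h1, b, h2, h3⟩ := (coe_mul_of_right_le_normalizer_left _ _ (by rintro _ ⟨x, rfl⟩; exact dg3_norm _ _)).le hg
  obtain ⟨a, h4, rfl⟩ := (ah_sbl hs le_rfl (by omega)).ge h1
  exact ⟨a, h4, by rwa [← h3, inv_mul_cancel_left]⟩

theorem noStem_SU3 : NoStem r (SU 3 F q) := by
  obtain ⟨h1, h2⟩ := card_SU3 (F := F) (q := q)
  obtain ⟨p', k, h3, _, h4⟩ := H10.exists_q_eq_pow hF.1
  obtain rfl : p = p' := CharP.eq F ‹_› ‹_›
  have h5 : ¬ r ∣ q := fun c => e ((Nat.prime_dvd_prime_iff_eq hr h3).1 (hr.dvd_of_dvd_pow (h4 ▸ c)))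
  clear h4
  obtain ⟨k, rfl⟩ := Nat.exists_eq_add_of_le' (H10.two_le_q hF.1)
  rw [show k + 2 - 1 = k + 1 from rfl] at h1 h2
  by_cases c : r ∣ (k + 2) * (k + 1) + 1
  · by_cases c' : r = 3
    · subst c'
      refine .of_sub hr (dg3.range ⊔ zpowers cy3) (fun ⟨l, hl⟩ => ?_) fun E _ _ κ a b => eq_bot_iff.2 fun z hz => ?_
      · rw [← (dg3.range ⊔ zpowers cy3).card_mul_index, card_meta, hl] at h2
        have h6 : 3 * 3 ∣ (k + 2) ^ 3 * (k + 1) * ((k + 2) * (k + 1) + 1) :=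
          ⟨l, Nat.eq_of_mul_eq_mul_left (show 0 < (k + 3) * (k + 3) by positivity) (by linear_combination h2.symm)⟩
        obtain ⟨k, rfl⟩ : 3 ∣ k := (hr.dvd_mul.1 ((Nat.dvd_add_left (show 3 ∣ 3 * (k + 1) by simp)).1 (by convert c using 1; ring))).elim id id
        have h7 : Nat.Coprime 3 ((3 * k + 2) ^ 3 * (3 * k + 1)) := .mul_right (.pow_right 3 (hr.coprime_iff_not_dvd.2 h5)) (by simp)
        have := (h7.mul_left h7).dvd_of_dvd_mul_left h6
        rw [show (3 * k + 2) * (3 * k + 1) + 1 = 9 * (k * k + k) + 3 by ring] at this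
        omega
      obtain ⟨c, h6, h7⟩ := (Ah_map (pg_SU (p := p) (by omega)) a.1).ge (mem_top cy3)
      refine tc_meta (L := dg3.range) a.1 ((tc_GU2 hr e a b).mono ?_) ?_ (h7 ▸ cy3_norm) (fun x ⟨y, hy⟩ h => Ah_comm (pf_of a.2.1 h3 hr e b)
        (fun g _ => hy ▸ cy3_comm (h7 ▸ hy ▸ h) g) h6) a.2.1 z (h7 ▸ hz.2) hz.1
      · rintro _ ⟨⟨s, t⟩, rfl⟩
        rw [show (s, t) = (s, 1) * (1, t) by simp, map_mul]
        refine mul_mem_sup (fun i hi => ?_) ⟨t, rfl⟩
        obtain rfl : i = 2 := by simp at hi; omega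
        ext i; fin_cases i <;> simp [uac_ev, dg3_val]
      · rintro _ ⟨x, rfl⟩ _ ⟨y, rfl⟩
        exact (Commute.all x y).map _
    have := Fintype.ofFinite F
    obtain ⟨a, ha⟩ := H16.psu_torus hF.1 (show 2 ≤ 3 by omega)
    obtain ⟨a, rfl⟩ := QuotientGroup.mk'_surjective _ a
    obtain ⟨l, hl⟩ : (k + 2) * (k + 1) + 1 ∣ orderOf a * (k + 3) := .trans (Int.natCast_dvd_natCast.1 (by
      convert ha using 1
      · simp [Finset.sum_range_succ]; ring
      · push_cast; ring)) (Nat.mul_dvd_mul_right (orderOf_map_dvd (QuotientGroup.mk' _) a) _)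
    refine .of_cyc hr a fun d => ?_
    rw [← (zpowers a).card_mul_index, Nat.card_zpowers] at h2
    have h6 : r ∣ (k + 2) ^ 3 * (k + 1) * (k + 3) ^ 3 := (d.mul_left l).trans (dvd_of_eq (Nat.eq_of_mul_eq_mul_left
      (show 0 < (k + 2) * (k + 1) + 1 by omega) (by linear_combination (k + 3) * h2 + (zpowers a).index * hl.symm)))
    rcases hr.dvd_mul.1 h6 with d | d
    · rcases hr.dvd_mul.1 d with d | d
      · exact h5 (hr.dvd_of_dvd_pow d)
      · exact hr.not_dvd_one ((Nat.dvd_add_right (d.mul_left _)).1 c)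
    · exact c' ((Nat.prime_dvd_prime_iff_eq hr Nat.prime_three).1 ((Nat.dvd_add_right ((hr.dvd_of_dvd_pow d).mul_left k)).1 (by
        convert c using 1; ring)))
  refine .of_sub hr _ (fun d => ?_) fun E _ _ κ a b => eq_bot_iff.2 fun z hz => tc_GU2 hr e a b z hz.2 hz.1
  have h6 := ((sbl F (k + 2) 3 0 (0 + 2) ⊔ (dg3.comp (.inr _ _)).range).card_mul_index).trans h2
  rw [sup_comm, H02.card_sup_of_disjoint (by rintro _ ⟨x, rfl⟩; exact dg3_norm _ _) (eq_bot_iff.2 fun g h => dg3_disj h.2 h.1), sup_comm,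
    ← Nat.card_congr (MonoidHom.ofInjective (f := dg3.comp (.inr _ _)) (dg3_inj.comp (Prod.mk_right_injective _))).toEquiv, card_rt,
    sbl_eq (by omega), ← Nat.card_congr (MonoidHom.ofInjective (suPad_inj _)).toEquiv, h1, ← sbl_eq] at h6
  exact (hr.dvd_mul.1 (d.trans (dvd_of_eq (Nat.eq_of_mul_eq_mul_left (show 0 < (k + 3) * ((k + 2) * ((k + 1) * (k + 3))) by positivity)
    (h6.trans (by ring)) : _ = (k + 2) ^ 2 * ((k + 2) * (k + 1) + 1))))).elim (fun d => h5 (hr.dvd_of_dvd_pow d)) c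

theorem noStem_SU_ne (hn : 3 ≤ n) : NoStem r (SU n F q) := by
  rcases hn.eq_or_lt with rfl | h
  · exact noStem_SU3 hr e
  by_cases hq : 4 ≤ q
  · exact glue3 hr e hq hn (noStem_SU3 hr e)
  · exact glue4 hr e h (noStem_SU4 hr e hq)

end H11
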