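import Cfsg.Agent.H11.Su2

/-! The unipotent radical of the stabiliser of an isotropic vector of `SU_n(q)` in an orthonormal basis (`Qg`), torus elements (`Ut`). -/

namespace H11
open Subgroup Cfsg H09 Matrix
open scoped commutatorElement
attribute [-simp] commutatorElement_inv map_commutatorElement

variable {F : Type*} [Field F] {q n : ℕ} {i k : Fin n} {θ : F}
local notation "B" => hermForm _ F q

variable (i k θ) in
/-- an isotropic vector -/
def rv : Fin n → F := ev i + θ • ev k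

variable (q i k θ) in
/-- hyperbolic data -/
structure Hy : Prop where
  ne : i ≠ k
  nm : θ ^ q * θ = -1

variable (i k θ) in
/-- Siegel elements with normalised vector part -/
def SG (g : SU n F q) (v : Fin n → F) (s : F) : Prop := v i = 0 ∧ v k = 0 ∧ IsSg g (rv i k θ) v s

variable (i k θ) in
/-- torus elements -/
def Ut (y : SU n F q) (c : F) (d : Fin n → F) : Prop := uac y (rv i k θ) = c • rv i k θ ∧ ∀ v, v i = 0 → v k = 0 → uac y v = d * v

variable {g g' y : SU n F q} {v v' d : Fin n → F} {s s' c : F} {A : Set (Fin n)}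

theorem SG.ext (h : SG i k θ g v s) (h' : SG i k θ g' v s) : g = g' := h.2.2.ext h'.2.2

theorem ex_nm (l : List (Fin n)) (h : l.length < n) : ∃ a, a ∉ l := by
  by_contra! c
  have := (List.toFinset_card_le l).trans' (Finset.card_le_card (s := Finset.univ) fun a _ => List.mem_toFinset.2 (c a))
  simp at this; omega

theorem on_empty : On ∅ v ↔ v = 0 := ⟨fun h => funext fun a => h a id, fun h _ _ => h ▸ rfl⟩

variable [Finite F] [hF : Fact (Nat.card F = q ^ 2)]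

theorem hB_rv (v : Fin n → F) : B v (rv i k θ) = v i + θ ^ q * v k := by simp [rv, hB_add', hB_smul']

theorem SG.mul (h : SG i k θ g v s) (h' : SG i k θ g' v' s') : SG i k θ (g * g') (v + v') (s + s' + B v' v) :=
  ⟨by simp [h.1, h'.1], by simp [h.2.1, h'.2.1], h.2.2.mul h'.2.2⟩

theorem SG.conj (h : SG i k θ g v s) (e : uac y (rv i k θ) = c • rv i k θ) (h1 : uac y v i = 0) (h2 : uac y v k = 0) :
    SG i k θ (y * g * y⁻¹) (c ^ q • uac y v) (c ^ q * c * s) := by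
  obtain ⟨-, -, a, b, h3, h4⟩ := h
  refine ⟨by simp [h1], by simp [h2], a, by simp [hB_rv, h1, h2], ?_, fun x => ?_⟩
  · rw [hB_smul, hB_smul', hB_uac, ← h3, mul_pow, mul_pow, cq_cq]; ring
  · rw [uac_mul, uac_mul, h4, uac_sub, uac_sub, uac_add, uac_smul, uac_smul, uac_smul, uac_uac_inv, ← hB_uac y _ v, ← hB_uac y _ (rv i k θ),
      uac_uac_inv, e, hB_smul', hB_smul', cq_cq]
    module

theorem Ut.conj (T : Ut i k θ y c d) (h : SG i k θ g v s) : SG i k θ (y * g * y⁻¹) (c ^ q • (d * v)) (c ^ q * c * s) :=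
  have := T.2 v h.1 h.2.1
  this ▸ h.conj T.1 (by simp [this, h.1]) (by simp [this, h.2.1])

theorem Ut.comm (T : Ut i k θ y c d) (h : SG i k θ g v s) (h1 : c ^ q • (d * v) = v) (h2 : c ^ q * c * s = s) : Commute y g :=
  mul_inv_eq_iff_eq_mul.1 ((T.conj h).ext (by rwa [h1, h2]))

theorem Ut.mem (T : Ut i k θ y c 1) : y ∈ ubl q F {i, k} := fun a h => by
  simp only [Set.mem_insert_iff, Set.mem_singleton_iff, not_or] at h
  rw [T.2 _ (Pi.single_eq_of_ne' h.1 _) (Pi.single_eq_of_ne' h.2 _), one_mul]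

theorem uac_diag {h h'} (v : Fin n → F) : uac (suDiag (q := q) d h h') v = d * v := funext fun a => mulVec_diagonal d v a

theorem tr_diag {h h'} (h1 : d i = c) (h2 : d k = c) : Ut i k θ (suDiag (q := q) d h h') c d :=
  ⟨(uac_diag _).trans (by simp [rv, mul_add, ← Pi.single_mul_right, h1, h2, ← Pi.single_smul, mul_comm]), fun v _ _ => uac_diag v⟩

theorem diag_comm {h h'} (e : ∀ a ∈ A, d a = c) (hg : g ∈ ubl q F A) : Commute g (suDiag d h h') := SU_ext fun a => by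
  rw [uac_mul, uac_mul, uac_diag, uac_diag, show d * ev a = d a • ev a by simp [← Pi.single_mul_right, ← Pi.single_smul], uac_smul]
  by_cases u : a ∈ A
  · ext b
    by_cases w : b ∈ A
    · simp [e a u, e b w]
    · simp [(on_ev u).uac hg b w]
  · rw [hg a u]; simp [← Pi.single_mul_right, ← Pi.single_smul]

theorem ex_diag1 (h : ∀ x, d x ^ q * d x = 1) (a : Fin n) :
    ∃ d' : Fin n → F, (∀ x, d' x ^ q * d' x = 1) ∧ ∏ x, d' x = 1 ∧ d' a * ∏ x, d x = d a ∧ ∀ x ≠ a, d' x = d x := by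
  have h1 : (∏ x, d x) ^ q * ∏ x, d x = 1 := by simp [← Finset.prod_pow, ← Finset.prod_mul_distrib, h]
  refine ⟨d * Pi.mulSingle a ((∏ x, d x) ^ q), fun x => ?_, by simpa [Finset.prod_mul_distrib, mul_comm] using h1, by simp [mul_assoc, h1],
    fun x e => by simp [e]⟩
  rcases eq_or_ne x a with rfl | e
  · simp only [Pi.mul_apply, Pi.mulSingle_eq_same, mul_pow, cq_cq]; linear_combination h x + d x ^ q * d x * h1
  · simp [e, h]

theorem ex_diag2 (h : ∀ x, d x ^ q * d x = 1) {a b : Fin n} (e : a ≠ b) :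
    ∃ d' : Fin n → F, (∀ x, d' x ^ q * d' x = 1) ∧ ∏ x, d' x = 1 ∧ d' a ≠ 1 ∧ d' b ≠ 1 ∧ ∀ x ≠ a, x ≠ b → d' x = d x := by
  obtain ⟨ν, h1, h2⟩ := ex_theta (F := F) (q := q)
  have h3 : ν ≠ 1 := by rintro rfl; simp at h2
  have k : ∀ μ : F, μ ^ q * μ = 1 → ∀ x, Function.update d a μ x ^ q * Function.update d a μ x = 1 := fun μ u x => by
    rcases eq_or_ne x a with rfl | e <;> simp [*]
  obtain ⟨d1, a1, a2, a3, a4⟩ := ex_diag1 (k ν h1) b
  obtain ⟨d2, b1, b2, b3, b4⟩ := ex_diag1 (k (ν * ν) (by rw [mul_pow]; linear_combination (ν ^ q * ν + 1) * h1)) b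
  by_cases c : d1 b = 1
  · refine ⟨d2, b1, b2, by simpa [b4 a e], fun c' => h3 ?_, fun x u w => by simp [b4 x w, u]⟩
    rw [Finset.prod_update_of_mem (Finset.mem_univ _), Function.update_of_ne e.symm] at a3 b3
    rw [c] at a3; rw [c'] at b3
    exact mul_right_cancel₀ (right_ne_zero_of_mul_eq_one (h b)) (by linear_combination b3 - ν * a3)
  · exact ⟨d1, a1, a2, by simpa [a4 a e], c, fun x u w => by simp [a4 x w, u]⟩

theorem ex_diag3 (h : ¬ q + 1 ∣ n) (a : Fin n) :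
    ∃ (c : F) (d : Fin n → F), (∀ x, d x ^ q * d x = 1) ∧ ∏ x, d x = 1 ∧ d a ≠ c ∧ ∀ x ≠ a, d x = c := by
  obtain ⟨ζ, -, -, h1, -⟩ := u3_gen (F := F) (q := q)
  obtain ⟨d, a1, a2, a3, a4⟩ := ex_diag1 (q := q) (d := fun _ => ζ.1 ^ q / ζ) (fun _ => by rw [div_pow, cq_cq]; field_simp) a
  exact ⟨_, d, a1, a2, fun e => h (h1 n (by simpa [e, div_pow] using a3)), a4⟩

namespace Hy
variable (H : Hy q i k θ)
include H

omit [Finite F] hF in
theorem ri : rv i k θ i = 1 := by simp [rv, H.ne]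

omit [Finite F] hF in
theorem rk : rv i k θ k = θ := by simp [rv, H.ne.symm]

theorem rr : B (rv i k θ) (rv i k θ) = 0 := by rw [hB_rv, H.ri, H.rk, H.nm, add_neg_cancel]

theorem ex (h1 : v i = 0) (h2 : v k = 0) (h : s + s ^ q = B v v) : ∃ g : SU n F q, SG i k θ g v s :=
  (ex_sg H.rr (by simp [hB_rv, h1, h2]) h).imp fun _ a => ⟨h1, h2, a⟩

theorem ex' (h1 : v i = 0) (h2 : v k = 0) : ∃ (g : SU n F q) (s : F), SG i k θ g v s :=
  let ⟨s, h⟩ := ex_tr_eq (hB_cq v v); (H.ex h1 h2 h).imp fun _ a => ⟨s, a⟩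

theorem one : SG i k θ (1 : SU n F q) 0 0 := ⟨rfl, rfl, .one H.rr⟩

theorem ei (h : SG i k θ g v s) : uac g (ev i) = ev i - v - s • rv i k θ := by simp [h.2.2.2.2.2, h.1, H.ri, cq_zero]

theorem inj (h : SG i k θ g v s) (h' : SG i k θ g v' s') : v = v' ∧ s = s' := by
  have e := (H.ei h).symm.trans (H.ei h')
  obtain rfl : s = s' := by simpa [h.1, h'.1, H.ri] using congrFun e i
  simpa using e

theorem inv (h : SG i k θ g v s) : SG i k θ g⁻¹ (-v) (s ^ q) := by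
  have e : B (-v) v = -B v v := by rw [← neg_one_smul F v, hB_smul, neg_one_mul]
  obtain ⟨g', a⟩ := H.ex (v := -v) (s := s ^ q) (by simp [h.1]) (by simp [h.2.1]) (by
    rw [cq_cq, add_comm, h.2.2.2.2.1, ← neg_one_smul F v, hB_smul, hB_smul', cq_neg]; simp)
  exact eq_inv_of_mul_eq_one_right ((h.mul a).ext (by simpa [h.2.2.2.2.1, e] using H.one)) ▸ a

theorem cmt (h : SG i k θ g v s) (h' : SG i k θ g' v' s') : SG i k θ ⁅g, g'⁆ 0 (B v' v - B v v') := by
  obtain ⟨z, a⟩ := H.ex (v := 0) (s := B v' v - B v v') rfl rfl (by simp [cq_sub, hB_cq])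
  have := (a.mul (h'.mul h)).ext (by convert h.mul h' using 1 <;> simp [add_comm]; ring)
  rwa [commutatorElement_def, ← this, mul_assoc, mul_assoc, mul_assoc g', mul_inv_cancel_left, mul_inv_cancel, mul_one]

theorem commute (h : SG i k θ g v s) (h' : SG i k θ g' v' s') (e : B v' v = B v v') : Commute g g' :=
  commutatorElement_eq_one_iff_commute.1 ((H.cmt h h').ext (by simpa [e] using H.one))

/-- the radical -/
def Qg (A : Set (Fin n)) : Subgroup (SU n F q) where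
  carrier := {g | ∃ v s, On A v ∧ SG i k θ g v s}
  one_mem' := ⟨0, 0, fun _ _ => rfl, H.one⟩
  mul_mem' := fun ⟨_, _, a, b⟩ ⟨_, _, c, d⟩ => ⟨_, _, a.add c, b.mul d⟩
  inv_mem' := fun ⟨_, _, a, b⟩ => ⟨_, _, fun x e => by simp [a x e], H.inv b⟩

theorem mono {A' : Set (Fin n)} (h : A ⊆ A') : H.Qg A ≤ H.Qg A' := fun _ ⟨v, s, a, b⟩ => ⟨v, s, a.mono h, b⟩

theorem mem_Z : g ∈ H.Qg ∅ ↔ ∃ s, SG i k θ g 0 s :=
  ⟨fun ⟨_, s, a, b⟩ => ⟨s, on_empty.1 a ▸ b⟩, fun ⟨s, a⟩ => ⟨0, s, on_empty.2 rfl, a⟩⟩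

theorem cen (h : g ∈ H.Qg ∅) (h' : g' ∈ H.Qg A) : Commute g g' :=
  let ⟨_, a⟩ := H.mem_Z.1 h; let ⟨_, _, _, b⟩ := h'; H.commute a b (by simp)

theorem comm_le : ⁅H.Qg A, H.Qg A⁆ ≤ H.Qg ∅ := commutator_le.2 fun _ ⟨_, _, _, a⟩ _ ⟨_, _, _, b⟩ => H.mem_Z.2 ⟨_, H.cmt a b⟩

theorem le_comm {a} (h : a ∈ A) (h1 : a ≠ i) (h2 : a ≠ k) : H.Qg ∅ ≤ ⁅H.Qg A, H.Qg A⁆ := fun g hg => by
  obtain ⟨s, e⟩ := H.mem_Z.1 hg
  obtain ⟨c, hc⟩ := ex_tr_eq (q := q) (one_pow (M := F) q)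
  obtain ⟨x, _, u⟩ := H.ex' (v := ev a) (by simp [h1.symm]) (by simp [h2.symm])
  obtain ⟨y, _, w⟩ := H.ex' (v := (c * s) • ev a) (by simp [h1.symm]) (by simp [h2.symm])
  have e' := e.2.2.2.2.1
  exact (H.cmt u w).ext (g' := g) (by
    convert e using 1; simp [hB_smul', mul_pow] at e' ⊢; linear_combination s * hc - c ^ q * e') ▸
    commutator_mem_commutator ⟨_, _, on_ev h, u⟩ ⟨_, _, (on_ev h).smul _, w⟩

theorem norm (T : Ut i k θ y c d) : y ∈ normalizer (H.Qg A : Set (SU n F q)) :=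
  mem_normalizer_fintype fun _ ⟨_, _, a, b⟩ => ⟨_, _, fun x e => by simp [a x e], T.conj b⟩

theorem norm' (h1 : i ∉ A) (h2 : k ∉ A) (h : y ∈ ubl q F A) : y ∈ normalizer (H.Qg A : Set (SU n F q)) :=
  mem_normalizer_fintype fun _ ⟨_, _, a, b⟩ => ⟨_, _, (a.uac h).smul _, b.conj (c := 1) (by
    rw [one_smul, rv, uac_add, uac_smul, h i h1, h k h2]) (a.uac h i h1) (a.uac h k h2)⟩

theorem fp (T : Ut i k θ y c d) {a} (h : a ∈ A) (h1 : a ≠ i) (h2 : a ≠ k) (e : ∀ x ∈ A, x ≠ i → x ≠ k → c ^ q * d x ≠ 1) : Fp (H.Qg A) y :=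
  ⟨H.norm T, fun g ⟨v, s, u, w⟩ hg => by
    obtain ⟨_, z⟩ := H.mem_Z.1 (H.comm_le hg)
    have h3 := (H.inj z ((T.conj w).mul (H.inv w))).1
    obtain rfl : v = 0 := funext fun x => by_contra fun c' => e x (by_contra fun z => c' (u x z)) (by rintro rfl; exact c' w.1)
      (by rintro rfl; exact c' w.2.1) (mul_right_cancel₀ c' (by have := congrFun h3 x; simp at this; linear_combination -this))
    exact H.le_comm h h1 h2 (H.mem_Z.2 ⟨s, w⟩)⟩

theorem fpZ (T : Ut i k θ y c d) (e : c ^ q * c ≠ 1) : Fp (H.Qg ∅) y := ⟨H.norm T, fun g hg h => by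
  obtain ⟨s, w⟩ := H.mem_Z.1 hg
  rw [commutator_eq_bot_iff_le_centralizer.2 fun _ a _ b => (H.cen b a).eq, mem_bot, commutatorElement_eq_one_iff_mul_comm,
    ← mul_inv_eq_iff_eq_mul] at h
  obtain rfl : s = 0 := by_contra fun z => e (mul_right_cancel₀ z ((H.inj (T.conj w) (h.symm ▸ w)).2.trans (one_mul _).symm))
  exact w.ext H.one ▸ one_mem _⟩

theorem fpD {h h'} (h1 : d i = c) (h2 : d k = c) {a} (h3 : a ∈ A) (h4 : a ≠ i) (h5 : a ≠ k) (e : ∀ x ∈ A, x ≠ i → x ≠ k → d x ≠ c) :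
    Fp (H.Qg A) (suDiag (q := q) d h h') := H.fp (tr_diag h1 h2) h3 h4 h5 fun x u w z b => e x u w z (by
  have := h i; rw [h1] at this; linear_combination c * b - d x * this)

theorem gen : H.Qg A ≤ closure {g : SU n F q | ∃ a, ∃ t s : F, SG i k θ g (t • ev a) s} := by
  rintro g ⟨v, s, -, h⟩
  suffices ∀ X : Finset (Fin n), ∀ g s, SG i k θ g (∑ a ∈ X, v a • ev a) s → g ∈ closure {g : SU n F q | ∃ a, ∃ t s : F, SG i k θ g (t • ev a) s} from
    this .univ g s (by simpa [← Pi.single_smul, Finset.univ_sum_single])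
  intro X
  induction X using Finset.induction_on with
  | empty => exact fun g s e => Subgroup.subset_closure ⟨i, 0, s, by simpa using e⟩
  | insert a X u j =>
    intro g s e
    obtain ⟨x, t, w⟩ := H.ex' (v := v a • ev a) (by rcases eq_or_ne a i with rfl | e <;> simp [*, h.1]) (by
      rcases eq_or_ne a k with rfl | e <;> simp [*, h.2.1])
    exact mul_inv_cancel_left x g ▸ mul_mem (Subgroup.subset_closure ⟨_, _, _, w⟩) (j _ _ (by simpa [u] using (H.inv w).mul e))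

theorem ex_T {a} (h1 : a ≠ i) (h2 : a ≠ k) : ∃ T : Fˣ →* SU n F q, ∀ l, Ut i k θ (T l) l (Function.update 1 a (l ^ q / l)) := by
  obtain ⟨β, hβ⟩ := ex_tr_eq (q := q) (c := (-1 : F)) (by simp [cq_neg])
  have c0 : θ ≠ 0 := by rintro rfl; simpa using H.nm
  obtain ⟨j, hj⟩ := U3_equiv' (q := q) (P := .mkOfDetNeZero !![1, 0, β + 1; θ, 0, β * θ; 0, 1, 0] (by simp [det_fin_three, mul_add, mul_comm, c0]))
    fun u v => by
      simp [hermForm, hyF, mulVec, dotProduct, Fin.sum_univ_three, cq_add, mul_pow, cq_zero]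
      linear_combination (u 0 + β * u 2) * (v 0 ^ q + β ^ q * v 2 ^ q) * H.nm + u 2 * v 2 ^ q * hβ
  obtain ⟨e, e0, e2, e3⟩ : ∃ e : Fin 3 ↪ Fin n, e 0 = i ∧ e 1 = k ∧ e 2 = a := ⟨⟨![i, k, a], fun x y => by
    have := H.ne; fin_cases x <;> fin_cases y <;> simp [*, Ne.symm]⟩, rfl, rfl, rfl⟩
  have e1 : ∀ v : Fin 3 → F, incl F e *ᵥ v = v 0 • ev i + v 1 • ev k + v 2 • ev a := fun v => by
    ext x; simp [incl, mulVec, dotProduct, Fin.sum_univ_three, e0, e2, e3, Pi.single_apply]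
  refine ⟨(suPad e).comp (j.toMonoidHom.comp uH), fun l => ?_⟩
  have a1 : uac (j (uH l)) ![1, θ, 0] = l.1 • ![1, θ, 0] := funext fun x => by
    have := congrFun₂ (hj (uH l)) x 0
    fin_cases x <;> simpa [uH_val, Matrix.mul_apply, Fin.sum_univ_three, uac, mulVec, dotProduct, mul_comm] using this
  have a2 : uac (j (uH l)) ![0, 0, 1] = (l.1 ^ q / l) • ![0, 0, 1] := funext fun x => by
    have := congrFun₂ (hj (uH l)) x 1
    fin_cases x <;> simpa [uH_val, Matrix.mul_apply, Fin.sum_univ_three, uac, mulVec, dotProduct, mul_comm] using this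
  refine ⟨(uac_suPad ..).trans ?_, fun v b c => (uac_suPad ..).trans ?_⟩
  · rw [show rv i k θ ∘ e = ![1, θ, 0] by ext x; fin_cases x <;> simp [H.ne, H.ne.symm, rv, *]]
    erw [a1]; simp [e1, rv]; module
  · rw [show v ∘ e = v a • ![0, 0, 1] by ext x; fin_cases x <;> simp [*], uac_smul]
    erw [a2]; ext x; rcases eq_or_ne x a with rfl | u <;> simp [*]; ring

end Hy
end H11
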