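import Cfsg.Agent.H11.Su3

/-! The multiplier of `SU_n(q)`: `noStem_SU_eq`, `mult_SU`. -/

namespace H11
open Subgroup Cfsg H09 Matrix
open scoped commutatorElement
attribute [-simp] commutatorElement_inv map_commutatorElement

universe u
section abs
variable {E G : Type*} [Group E] [Group G] {κ : E →* G} {p : ℕ}

theorem trick {K : Type*} [Field K] {C : Subgroup E} {β : K → K → E} (c : ∀ s t s' t', Commute (β s t) (β s' t'))
    (a1 : ∀ s s' t, β (s + s') t = β s t * β s' t) (a2 : ∀ s t t', β s (t + t') = β s t * β s t') {v : K} (h0 : v ≠ 0) (h1 : v ≠ 1)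
    (h2 : v - v ^ 2 ≠ 1) (h : ∀ μ, μ = v ∨ μ = 1 - v → ∀ s t, β (μ * s) (μ * t) * (β s t)⁻¹ ∈ C) (s t : K) : β s t ∈ C := by
  have h3 := sub_ne_zero.2 h1.symm
  have h4 := sub_ne_zero.2 h2.symm
  obtain ⟨u, rfl⟩ : ∃ u, t = u / v + u / (1 - v) - u := ⟨t / (1 - (v - v ^ 2)) * (v - v ^ 2), by
    rw [← div_mul_cancel₀ t h4, mul_div_cancel_right₀ _ h4]; field_simp; ring⟩
  have e := mul_mem (h v (.inl rfl) s (u / v)) (h _ (.inr rfl) s (u / (1 - v)))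
  rw [mul_div_cancel₀ _ h0, mul_div_cancel₀ _ h3, (c _ _ _ _).inv_left.mul_mul_mul_comm, ← a1, ← _root_.mul_inv_rev, (c _ _ _ _).eq (a := β s _), ← a2,
    show v * s + (1 - v) * s = s by ring, ← sub_add_cancel (u / v + u / (1 - v)) u, a2, _root_.mul_inv_rev, mul_inv_cancel_left] at e
  exact inv_mem_iff.1 e

theorem comm_cop (hc : κ.ker ≤ center E) (he : ∀ z, κ z = 1 → z ^ p = 1) {g d : E} (h : Commute (κ g) (κ d)) {m : ℕ} (h1 : κ g ^ m = 1)
    (h2 : p.Coprime m) : Commute g d := by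
  have a : κ ⁅g, d⁆ = 1 := by rw [map_commutatorElement, h.commutator_eq]
  have b : ∀ j, ⁅g ^ j, d⁆ = ⁅g, d⁆ ^ j := fun j => by
    induction j with
    | zero => simp
    | succ j e => rw [pow_succ, c2_left (mem_center_iff.1 (hc a) _).symm (mem_center_iff.1 (hc a) _).symm, e, pow_succ]
  simpa [h2.gcd_eq_one, commutatorElement_eq_one_iff_commute] using pow_gcd_eq_one.2 ⟨he _ a, (b m).symm.trans
    (commutatorElement_eq_one_iff_mul_comm.2 (mem_center_iff.1 (hc (show κ (g ^ m) = 1 by simpa)) d).symm)⟩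

theorem Tc.conj {Y Y' : Subgroup G} (h : Tc κ Y') (g : E) (e : ∀ x ∈ Y, κ g * x * (κ g)⁻¹ ∈ Y') : Tc κ Y := fun z hz h0 => by
  have : (Y.comap κ).map (MulAut.conj g).toMonoidHom ≤ Y'.comap κ := map_le_iff_le_comap.2 fun a u => by simpa using e _ u
  simpa using h _ (((map_commutator ..).trans_le (commutator_mono this this)) (mem_map_of_mem (MulAut.conj g).toMonoidHom hz)) (by simp [h0])

theorem tc_of_pgrp [Finite E] [Finite G] [Fact p.Prime] (hc : κ.ker ≤ center E) (hs : Function.Surjective κ) (he : ∀ z, κ z = 1 → z ^ p = 1)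
    {L : Subgroup G} (h : ∀ P ≤ L, IsPGroup p P → Tc κ P) : Tc κ L := by
  obtain ⟨P⟩ : Nonempty (Sylow p L) := inferInstance
  refine Tc.of_index hc Fact.out he (fun g _ => hs g) ?_ (h _ (map_subtype_le P.1) (P.2.map _))
  rw [relIndex, subgroupOf, comap_map_eq_self_of_injective L.subtype_injective]; exact P.not_dvd_index

end abs

/-- the non exceptional parameters -/
structure Ok (n q : ℕ) : Prop where
  h3 : 3 ≤ n
  h32 : n = 3 → 3 ≤ q
  h4 : n = 4 → 4 ≤ q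
  h6 : n = 6 → 3 ≤ q

variable {F : Type*} [Field F] {q n p : ℕ} {i k a b : Fin n} {θ : F} [Finite F] [hF : Fact (Nat.card F = q ^ 2)] {A : Set (Fin n)}
local notation "B" => hermForm _ F q

theorem ex_nu : ∃ ν : F, ν ≠ 1 ∧ ν ^ q * ν = 1 ∧ ∀ (P : Fin n → Prop) [DecidablePred P] (x), (if P x then ν else 1) ^ q * (if P x then ν else 1) = 1 :=
  let ⟨ν, h, h'⟩ := ex_theta (F := F) (q := q)
  ⟨ν, by rintro rfl; simp at h', h, fun P _ x => by split_ifs <;> simp [h]⟩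

theorem ex_zeta (hq : 3 ≤ q) : ∃ l : Fˣ, l.1 ^ q * l ≠ 1 :=
  let ⟨ζ, _, _, _, h⟩ := u3_gen (F := F) (q := q)
  ⟨ζ, fun e => by have := h (q + 1) (by omega) (by rwa [pow_succ]); nlinarith⟩

theorem ex_fix [Fact p.Prime] (hp : p ∣ q) {m j : ℕ} (hm : 2 ≤ m) (h : j + m ≤ n) {P : Subgroup (SU n F q)} (h1 : P ≤ sbl F q n j (j + m))
    (h2 : IsPGroup p P) : ∃ r ≠ 0, On (seg n j (j + m)) r ∧ B r r = 0 ∧ ∀ x ∈ P, uac x r = r := by
  let _ : MulAction (P.comap (suPad (shift j h))) {v : Fin m → F // B v v = 0} :=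
    { smul x v := ⟨uac (q := q) x v, by simp [v.2]⟩, one_smul _ := Subtype.ext (uac_one (q := q) _)
      mul_smul _ _ _ := Subtype.ext (uac_mul (q := q) _ _ _) }
  obtain ⟨⟨r, r1⟩, r2, r3⟩ := (h2.comap_of_injective _ (suPad_inj (shift j h))).exists_fixed_point_of_prime_dvd_card_of_fixed_point
    {v : Fin m → F // B v v = 0} (dvd_cnt hm hp) (a := ⟨0, by simp⟩) fun x => Subtype.ext (uac_zero _)
  have e : (incl F (shift j h) *ᵥ r) ∘ shift j h = r := funext (incl_apply _ r)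
  refine ⟨_, fun c => r3 (Subtype.ext (e.symm.trans (congrArg (· ∘ shift j h) c)).symm), range_shift h ▸ on_incl _ r, by rw [hB_incl, e, r1], fun x hx => ?_⟩
  obtain ⟨x, rfl⟩ := (sbl_iff h).1 (h1 hx)
  rw [uac_suPad, e, show uac x r = r from congrArg Subtype.val (r2 ⟨x, hx⟩), sub_self, mulVec_zero, add_zero]

theorem ex_mu (hq : 3 ≤ q) (a b : Fin n) : ∃ v : F, v ≠ 0 ∧ v ≠ 1 ∧ v - v ^ 2 ≠ 1 ∧ ∀ μ, μ = v ∨ μ = 1 - v →
    ∃ l : Fˣ, l.1 ^ q * Function.update (1 : Fin n → F) a (l ^ q / l) b = μ := by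
  have := Fintype.ofFinite F
  by_cases h : 5 ≤ q
  · have := Fintype.ofFinite (ufix F q)
    obtain ⟨v, h0, h1, h2⟩ := exists_trick (K := ufix F q) ⟨.univ, by rwa [Finset.card_univ, Fintype.card_eq_nat_card, card_ufix]⟩
    have k : ∀ μ : ufix F q, μ ≠ 0 → ∃ l : Fˣ, l.1 ^ q * Function.update (1 : Fin n → F) a (l ^ q / l) b = μ := fun μ h =>
      have h : (μ : F) ≠ 0 := by simpa
      ⟨.mk0 μ h, by simp [mem_ufix.1 μ.2, h]⟩
    exact ⟨v, by simpa, by exact_mod_cast h1, by exact_mod_cast h2, by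
      rintro _ (rfl | rfl); exacts [k v h0, k (1 - v) (sub_ne_zero.2 h1.symm)]⟩
  obtain ⟨v, h0, h1, h2⟩ := exists_trick (K := F) ⟨.univ, by rw [Finset.card_univ, Fintype.card_eq_nat_card, hF.1]; nlinarith⟩
  refine ⟨v, h0, h1, h2, fun μ e => ?_⟩
  replace e : μ ≠ 0 := by rcases e with rfl | rfl; exacts [h0, sub_ne_zero.2 h1.symm]
  rcases eq_or_ne b a with rfl | c
  · have c := cq_cq (q := q) μ
    obtain rfl | rfl : q = 3 ∨ q = 4 := by omega
    · exact ⟨.mk0 μ e ^ 5, by simp; rw [← mul_div_assoc, div_eq_iff (pow_ne_zero _ e)]; linear_combination (μ ^ 21 + μ ^ 13 + μ ^ 5) * c⟩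
    · exact ⟨.mk0 μ e ^ 13, by
        simp; rw [← mul_div_assoc, div_eq_iff (pow_ne_zero _ e)]; linear_combination (μ ^ 75 + μ ^ 60 + μ ^ 45 + μ ^ 30 + μ ^ 15 + 1) * μ ^ 13 * c⟩
  · exact ⟨.mk0 μ e ^ q, by simp [c, cq_cq]⟩

variable (O : Ok n q)
include O

theorem ex_D1 (h : i ≠ k) : ∃ (c : F) (d : Fin n → F), (∀ x, d x ^ q * d x = 1) ∧ ∏ x, d x = 1 ∧ d i = c ∧ d k = c ∧ ∀ x ≠ i, x ≠ k → d x ≠ c := by
  rcases O.h3.eq_or_lt with rfl | hn
  · obtain ⟨a, h1, h2, h3⟩ : ∃ a, i ≠ a ∧ k ≠ a ∧ ∀ x ≠ i, x ≠ k → x = a := by revert i k; decide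
    obtain ⟨c, d, a1, a2, a3, a4⟩ := ex_diag3 (F := F) (q := q) (fun e => by have := Nat.le_of_dvd three_pos e; have := O.h32 rfl; omega) a
    exact ⟨c, d, a1, a2, a4 i h1, a4 k h2, fun x u w => h3 x u w ▸ a3⟩
  obtain ⟨a, ha⟩ := ex_nm [i, k] (by simp; omega)
  obtain ⟨b, hb⟩ := ex_nm [i, k, a] (by simpa)
  obtain ⟨ν, h1, -, h2⟩ := ex_nu (F := F) (q := q) (n := n)
  simp only [List.mem_cons, not_or] at ha hb
  obtain ⟨d, a1, a2, a3, a4, a5⟩ := ex_diag2 (h2 fun x => x ≠ i ∧ x ≠ k) hb.2.2.1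
  refine ⟨1, d, a1, a2, by simp [a5 i (Ne.symm hb.1) (Ne.symm ha.1)], by simp [a5 k (Ne.symm hb.2.1) (Ne.symm ha.2.1)], fun x u w => ?_⟩
  by_cases c : x = b; · rwa [c]
  by_cases c' : x = a; · rwa [c']
  simpa [a5 x c c', u, w]

theorem ex_D2 (h1 : i ≠ b) (h2 : k ≠ b) (h3 : a ≠ b) :
    ∃ (c : F) (d : Fin n → F), (∀ x, d x ^ q * d x = 1) ∧ ∏ x, d x = 1 ∧ d i = c ∧ d k = c ∧ d a = c ∧ d b ≠ c := by
  by_cases hn : n ≤ 4
  · obtain ⟨c, d, a1, a2, a3, a4⟩ := ex_diag3 (F := F) (q := q) (fun e => by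
      have := Nat.le_of_dvd (by have := O.h3; omega) e; have := O.h3; have := O.h32; have := O.h4; omega) b
    exact ⟨c, d, a1, a2, a4 i h1, a4 k h2, a4 a h3, a3⟩
  obtain ⟨e, he⟩ := ex_nm [i, k, a, b] (by simpa using hn)
  obtain ⟨ν, h4, -, h5⟩ := ex_nu (F := F) (q := q) (n := n)
  simp only [List.mem_cons, not_or] at he
  obtain ⟨d, a1, a2, -, a3⟩ := ex_diag1 (h5 (· = b)) e
  exact ⟨1, d, a1, a2, by simp [a3 i (Ne.symm he.1), h1], by simp [a3 k (Ne.symm he.2.1), h2], by simp [a3 a (Ne.symm he.2.2.1), h3],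
    by simpa [a3 b (Ne.symm he.2.2.2.1)]⟩

omit [Finite F] hF in
theorem ex_third (i k : Fin n) : ∃ a, a ≠ i ∧ a ≠ k := by simpa using ex_nm [i, k] O.h3

variable {E : Type*} [Group E] {κ : E →* SU n F q} (hc : κ.ker ≤ center E) (hs : Function.Surjective κ)
namespace Hy
variable (H : Hy q i k θ)
include hc hs H

theorem cenD {d x : E} (hd : κ d ∈ H.Qg ∅) (hx : κ x ∈ H.Qg A) : Commute d x := by
  obtain ⟨c, δ, h1, h2, h3, h4, h5⟩ := ex_D1 (F := F) O H.ne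
  obtain ⟨a, h6, h7⟩ := ex_third O i k
  obtain ⟨y, hy⟩ := hs (suDiag δ h1 h2)
  obtain ⟨s, e⟩ := H.mem_Z.1 hd
  exact Fp.comm hc (R := H.Qg .univ) (fun g _ => hs g) (hy ▸ H.fpD h3 h4 trivial h6 h7 fun x _ => h5 x)
    (hy ▸ (tr_diag h3 h4).comm e (by simp) (by rw [← h3, h1, one_mul])) (fun g => H.cen hd) (H.mono (Set.subset_univ _) hx)

theorem cross (h : a ≠ b) (h1 : b ≠ i) (h2 : b ≠ k) {x y : E} {s t σ τ : F} (hx : SG i k θ (κ x) (s • ev a) σ) (hy : SG i k θ (κ y) (t • ev b) τ) :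
    Commute x y := by
  obtain ⟨c, δ, h3, h4, h5, h6, h7, h8⟩ := ex_D2 (F := F) O h1.symm h2.symm h
  obtain ⟨z, hz⟩ := hs (suDiag δ h3 h4)
  have e : c ^ q * c = 1 := h5 ▸ h3 i
  exact Fp.comm hc (R := H.Qg {b}) (fun g _ => hs g) (hz ▸ H.fpD h5 h6 rfl h1 h2 fun x u _ _ => u ▸ h8)
    (hz ▸ (tr_diag h5 h6).comm hx (by simp [← Pi.single_smul, ← Pi.single_mul_right, h7, ← mul_assoc, e]) (by rw [e, one_mul]))
    (fun g ⟨v, _, u, w⟩ => H.commute hx w (by simp [hB_smul, hB_smul', u a h, cq_zero])) ⟨_, _, (on_ev (A := {b}) rfl).smul _, hy⟩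

theorem ex_beta (h1 : a ≠ i) (h2 : a ≠ k) : ∃ β : F → F → E, (∀ s t, κ (β s t) ∈ H.Qg ∅) ∧ (∀ s s' t, β (s + s') t = β s t * β s' t) ∧
    (∀ s t t', β s (t + t') = β s t * β s t') ∧ (∀ s t : F, ∃ x y σ τ, SG i k θ (κ x) (s • ev a) σ ∧ SG i k θ (κ y) (t • ev a) τ) ∧
    ∀ x y (s t σ τ : F), SG i k θ (κ x) (s • ev a) σ → SG i k θ (κ y) (t • ev a) τ → ⁅x, y⁆ = β s t := by
  choose x σ h using fun t : F => show ∃ x σ, SG i k θ (κ x) (t • ev a) σ from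
    let ⟨g, e⟩ := H.ex' (v := t • ev a) (by simp [h1.symm]) (by simp [h2.symm]); let ⟨x, e'⟩ := hs g; ⟨x, e' ▸ e⟩
  have m : ∀ {y v τ}, SG i k θ (κ y) v τ → κ y ∈ H.Qg .univ := fun e => ⟨_, _, on_univ _, e⟩
  have c : ∀ s t, κ ⁅x s, x t⁆ ∈ H.Qg ∅ := fun s t => H.mem_Z.2 ⟨_, map_commutatorElement κ _ _ ▸ H.cmt (h s) (h t)⟩
  have e : ∀ y z (s t σ τ : F), SG i k θ (κ y) (s • ev a) σ → SG i k θ (κ z) (t • ev a) τ → ⁅y, z⁆ = ⁅x s, x t⁆ := fun y z s t σ τ u w =>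
    c2_congr (H.cenD O hc hs (H.mem_Z.2 ⟨_, by simpa using (H.inv (h s)).mul u⟩) (m w))
      (H.cenD O hc hs (H.mem_Z.2 ⟨_, by simpa using (H.inv (h t)).mul w⟩) (m (h s)))
  exact ⟨fun s t => ⁅x s, x t⁆, c, fun s s' t => (e _ _ _ _ _ _ (by simpa [add_smul] using (h s).mul (h s')) (h t)).symm.trans
    (c2_left (H.cenD O hc hs (c _ _) (m (h s))) (H.cenD O hc hs (c _ _) (c _ _))), fun s t t' => (e _ _ _ _ _ _ (h s)
    (by simpa [add_smul] using (h t).mul (h t'))).symm.trans (c2_right (H.cenD O hc hs (c _ _) (m (h t)))),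
    fun s t => ⟨_, _, _, _, h s, h t⟩, e⟩

theorem tc_of {C : Subgroup E} (hC : ∀ z ∈ C, κ z = 1 → z = 1) (h : ∀ a ≠ i, a ≠ k → ∀ x y (s t σ τ : F), SG i k θ (κ x) (s • ev a) σ →
    SG i k θ (κ y) (t • ev a) τ → ⁅x, y⁆ ∈ C) : Tc κ (H.Qg A) := fun z hz => by
  have e := (comap_mono (H.gen (A := A))).trans (comap_closure_le hs ⟨i, 0, 0, by simpa using H.one⟩)
  have z0 : ∀ {x a} {s σ : F}, SG i k θ (κ x) (s • ev a) σ → κ x ∈ H.Qg ∅ ∨ a ≠ i ∧ a ≠ k := fun {x a s σ} u => or_iff_not_imp_right.2 fun c => by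
    obtain rfl : s = 0 := by
      rcases not_and_or.1 c with c | c <;> rw [not_not] at c <;> subst c
      exacts [by simpa using u.1, by simpa using u.2.1]
    exact H.mem_Z.2 ⟨_, by simpa using u⟩
  refine hC z (c2_gen (R := (H.Qg .univ).comap κ) (s := κ ⁻¹' {g | ∃ a, ∃ t s : F, SG i k θ g (t • ev a) s}) (fun _ ⟨_, _, _, u⟩ => ⟨_, _, on_univ _, u⟩) (fun x u y w _ => H.cenD O hc hs
    (map_commutatorElement κ _ _ ▸ H.comm_le (commutator_mem_commutator u w))) (fun x ⟨a, s, σ, u⟩ y ⟨b, t, τ, w⟩ => ?_) (commutator_mono e e hz))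
  rcases z0 w with c | c
  · rw [(H.cenD O hc hs c (A := .univ) ⟨_, _, on_univ _, u⟩).symm.commutator_eq]; exact one_mem _
  rcases eq_or_ne a b with rfl | c'
  · exact h a c.1 c.2 _ _ _ _ _ _ u w
  · rw [(H.cross O hc hs c' c.1 c.2 u w).commutator_eq]; exact one_mem _

theorem tc_big (hq : 3 ≤ q) : Tc κ (H.Qg A) := by
  obtain ⟨a, h1, h2⟩ := ex_third O i k
  obtain ⟨T, hT⟩ := H.ex_T h1 h2
  obtain ⟨l, hl⟩ := ex_zeta (F := F) hq
  obtain ⟨y, hy⟩ := hs (T l)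
  have f : Fp (H.Qg ∅) (κ y) := hy ▸ H.fpZ (hT l) hl
  obtain ⟨C, c1, c2, c3⟩ := exists_compl hc (R := H.Qg ∅) (fun g _ => hs g) (fun z hz _ => by
    rwa [commutator_eq_bot_iff_le_centralizer.2 fun _ u _ w => (H.cenD O hc hs w u).eq] at hz) f
  refine H.tc_of O hc hs c1 fun b h3 h4 x z s t σ τ u w => ?_
  obtain ⟨β, b1, b2, b3, b4, b5⟩ := H.ex_beta O hc hs h3 h4
  obtain ⟨v, v0, v1, v2, v3⟩ := ex_mu (F := F) hq a b
  refine b5 _ _ _ _ _ _ u w ▸ trick (β := β) (fun _ _ _ _ => H.cenD O hc hs (b1 _ _) (b1 _ _)) b2 b3 v0 v1 v2 (fun μ e s t => ?_) s t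
  obtain ⟨m, rfl⟩ := v3 μ e
  obtain ⟨g, hg⟩ := hs (T m)
  obtain ⟨x, z, σ, τ, u, w⟩ := b4 s t
  obtain ⟨c, h5, h6⟩ := c2.ge (b1 s t)
  have k : ∀ {x} {s σ : F}, SG i k θ (κ x) (s • ev b) σ → SG i k θ (κ (g * x * g⁻¹)) ((m.1 ^ q * Function.update (1 : Fin n → F) a (m ^ q / m) b * s) • ev b)
      (m.1 ^ q * m * σ) := fun u => by simpa [hg, ← Pi.single_smul, ← Pi.single_mul_right, mul_assoc] using (hT m).conj u
  rw [← b5 _ _ _ _ _ _ (k u) (k w), ← conjugate_commutatorElement, b5 _ _ _ _ _ _ u w, ← commutatorElement_def,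
    ← H16.commutatorElement_eq_of_map_eq hc rfl h6]
  exact mul_mem ((c3 y f (.refl _) g (hg ▸ H.norm (hT m)) (hg ▸ hy ▸ (Commute.all m l).map T) _).1 h5) (inv_mem h5)

theorem tc_two (hq : q = 2) (he : ∀ z, κ z = 1 → z ^ 2 = 1) : Tc κ (H.Qg A) := by
  obtain ⟨a, h1, h2⟩ := ex_third O i k
  obtain ⟨β, b1, b2, b3, b4, b5⟩ := H.ex_beta O hc hs h1 h2
  obtain ⟨ω, w1, w2, -⟩ := ex_nu (F := F) (q := q) (n := n)
  subst hq
  have := charP_q (F := F) Nat.prime_two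
  have w3 : ω ^ 2 + ω + 1 = 0 := mul_left_cancel₀ (sub_ne_zero.2 w1) (by linear_combination w2)
  have t2 : (2 : F) = 0 := CharP.cast_eq_zero F 2
  have z1 : ∀ s, β s 0 = 1 := fun s => by simpa using b3 s 0 0
  have z2 : ∀ s, β s s = 1 := fun s => let ⟨x, _, _, _, u, _⟩ := b4 s s; (b5 _ _ _ _ _ _ u u).symm.trans (by simp)
  have z3 : ∀ s t, β t s = (β s t)⁻¹ := fun s t => let ⟨x, _, _, _, u, w⟩ := b4 s t; by
    rw [← b5 _ _ _ _ _ _ u w, ← b5 _ _ _ _ _ _ w u, commutatorElement_inv]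
  have z4 : ∀ P : F → Prop, P 0 → P 1 → P ω → P (1 + ω) → ∀ x, P x := fun P a b c d x => by
    have : x * (x - 1) * (x - ω) * (x - (1 + ω)) = 0 := by
      linear_combination cq_cq (q := 2) x + x * (x - 1) * w3 - x * (x - 1) * (x * (ω + 1) + 1) * t2
    simp only [mul_eq_zero, sub_eq_zero] at this
    rcases this with ((rfl | rfl) | rfl) | rfl <;> assumption
  have z5 : ∀ s, β s 1 ∈ zpowers (β 1 ω) → β s ω ∈ zpowers (β 1 ω) → ∀ t, β s t ∈ zpowers (β 1 ω) := fun s u w =>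
    z4 _ (z1 s ▸ one_mem _) u w (b3 _ _ _ ▸ mul_mem u w)
  have z6 := z5 1 (z2 1 ▸ one_mem _) (mem_zpowers _)
  have z7 := z5 ω (z3 1 ω ▸ inv_mem (mem_zpowers _)) (z2 ω ▸ one_mem _)
  refine H.tc_of O hc hs (C := zpowers (β 1 ω)) ?_ fun b h3 h4 x y s t σ τ u w => ?_
  · have e : β 1 ω ^ 2 = 1 := by rw [sq, ← b3, ← two_mul, t2, zero_mul, z1]
    rintro _ ⟨m, rfl⟩ h
    obtain ⟨m, rfl | rfl⟩ := Int.even_or_odd' m
    · simp [_root_.zpow_mul, zpow_ofNat, e]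
    obtain ⟨x, y, σ, τ, u, w⟩ := b4 1 ω
    simp only [_root_.zpow_add, _root_.zpow_mul, zpow_ofNat, e, _root_.one_zpow, one_mul, pow_one] at h
    have := (H.inj (H.cmt u w) (by rw [← map_commutatorElement, b5 _ _ _ _ _ _ u w, h]; exact H.one)).2
    simp [hB_smul'] at this
    exact absurd (by linear_combination w3 + this - ω * t2) (one_ne_zero (α := F))
  have z8 : β s t ∈ zpowers (β 1 ω) := z5 s (z3 1 s ▸ inv_mem (z6 s)) (z3 ω s ▸ inv_mem (z7 s)) t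
  rcases eq_or_ne b a with rfl | c
  · exact b5 _ _ _ _ _ _ u w ▸ z8
  obtain ⟨e, h5⟩ := ex_nm [i, k, a, b] (by have := O.h3; have := O.h32; have := O.h4; simp; omega)
  simp only [List.mem_cons, not_or] at h5
  obtain ⟨pw, h6⟩ := ex_pw (F := F) (q := 2) (n := n)
  have h7 := Equiv.Perm.isThreeCycle_swap_mul_swap_same (Ne.symm h5.2.2.2.1) c h5.2.2.1
  obtain ⟨g, hg⟩ := hs (pw ⟨_, h7.mem_alternatingGroup⟩)
  have h8 : uac (κ g) (rv i k θ) = (1 : F) • rv i k θ := by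
    simp [rv, uac_add, uac_smul, hg, h6, Equiv.swap_apply_of_ne_of_ne, h1.symm, h2.symm, h3.symm, h4.symm, Ne.symm h5.1, Ne.symm h5.2.1]
  have h9 : uac (κ g) (ev b) = ev a := by simp [hg, h6, Equiv.swap_apply_of_ne_of_ne, c.symm, Ne.symm h5.2.2.1]
  have k : ∀ {x} {s σ : F}, SG i k θ (κ x) (s • ev b) σ → SG i k θ (κ (g * x * g⁻¹)) (s • ev a) σ := fun u => by
    simpa [uac_smul, h9] using u.conj h8 (by simp [uac_smul, h9, h1.symm]) (by simp [uac_smul, h9, h2.symm])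
  have := map_commutatorElement κ x y ▸ H.cmt u w
  rwa [← b5 _ _ _ _ _ _ (k u) (k w), ← conjugate_commutatorElement, (comm_cop hc he (m := 3) (mul_inv_eq_iff_eq_mul.1 ((this.conj h8 (by simp)
    (by simp)).ext (by simpa using this))) (by rw [hg, ← map_pow, ← map_one pw]; exact congrArg pw (Subtype.ext (h7.orderOf ▸ pow_orderOf_eq_one _)))
    (by decide)).mul_inv_cancel] at z8

omit O hc hs in
theorem dec {g : SU n F q} (hg : g ∈ ubl q F (insert i (insert k A))) (e : uac g (rv i k θ) = rv i k θ) :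
    ∃ u ∈ H.Qg A, u⁻¹ * g ∈ ubl q F A := by
  obtain ⟨s, hs⟩ : ∃ s, s = 1 - uac g (ev i) i := ⟨_, rfl⟩
  obtain ⟨v, hv⟩ : ∃ v, uac g (ev i) = ev i - v - s • rv i k θ := ⟨ev i - s • rv i k θ - uac g (ev i), by abel⟩
  have a1 : v i = 0 := by have := congrFun hv i; simp [H.ri] at this; linear_combination this - hs
  have a2 : v k = 0 := by
    have := hB_uac g (ev i) (rv i k θ)
    rw [e, hv, hB_sub, hB_sub, hB_smul, H.rr, hB_rv v] at this
    simpa [a1, show θ ≠ 0 by rintro rfl; simpa using H.nm] using this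
  have a3 : B v (rv i k θ) = 0 := by simp [hB_rv, a1, a2]
  have a4 : ∀ x, x ≠ i → x ≠ k → rv i k θ x = 0 := fun x u w => by simp [rv, u, w]
  have a5 : On A v := fun x u => by
    by_cases c : x = i; · rwa [c]
    by_cases c' : x = k; · rwa [c']
    simpa [hv, a4 x c c', c] using (on_ev (Set.mem_insert _ _)).uac hg x (by simp [*])
  obtain ⟨u, hu⟩ := H.ex a1 a2 (s := s) (by
    have := hB_uac g (ev i) (ev i)
    simp [hv, hB_sub, hB_sub', hB_smul, hB_smul', H.rr, a1, a3, hB_symm a3, H.ri, cq_zero] at this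
    linear_combination -this)
  have b1 : uac (u⁻¹ * g) (ev i) = ev i := by rw [uac_mul, hv, ← H.ei hu, uac_inv_uac]
  have b2 : uac (u⁻¹ * g) (rv i k θ) = rv i k θ := by rw [uac_mul, e]; exact uac_inv_eq (by simp [hu.2.2.2.2.2, H.rr, hB_symm a3])
  refine ⟨u, ⟨_, _, a5, hu⟩, fun x c => ?_⟩
  by_cases c1 : x = i; · rwa [c1]
  by_cases c2 : x = k
  · rw [rv, uac_add, uac_smul, b1, add_right_inj] at b2
    exact c2 ▸ smul_right_injective _ (by rintro rfl; simpa using H.nm) b2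
  rw [uac_mul, hg x (by simp [*])]
  exact uac_inv_eq (by simp [hu.2.2.2.2.2, a4 x c1 c2, a5 x c, cq_zero])

theorem step (h1 : i ∉ A) (h2 : k ∉ A) (T : Tc κ (H.Qg A)) (T' : Tc κ (ubl q F A)) (h3 : ∀ M : Subgroup (SU n F q), q < 3 →
      (∀ (c : F) d h h', d i = c → d k = c → (∀ x ∈ A, d x ≠ c) → ∀ g ∈ ubl q F A, Commute g (suDiag d h h') → g ∈ M) → ubl q F A ≤ M)
    {P : Subgroup (SU n F q)} (h4 : ∀ g ∈ P, g ∈ ubl q F (insert i (insert k A)) ∧ uac g (rv i k θ) = rv i k θ) : Tc κ P := by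
  rcases A.eq_empty_or_nonempty with rfl | ⟨a, ha⟩
  · refine T.mono fun g hg => ?_
    obtain ⟨u, h5, h6⟩ := H.dec (h4 g hg).1 (h4 g hg).2
    rwa [← inv_mul_eq_one.1 (ubl_single (i := i) (ubl_mono (Set.empty_subset _) h6))]
  have a1 : a ≠ i := fun e => h1 (e ▸ ha)
  have a2 : a ≠ k := fun e => h2 (e ▸ ha)
  obtain ⟨c, δ, d1, d2, d3, d4, d5⟩ := ex_D1 (F := F) O H.ne
  obtain ⟨y, hy⟩ := hs (suDiag δ d1 d2)
  obtain ⟨C, c1, c2, c3⟩ := exists_compl hc (fun g _ => hs g) T (hy ▸ H.fpD d3 d4 ha a1 a2 fun x _ => d5 x)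
  have c4 : ∀ y', Fp (H.Qg A) y' → Commute (κ y) y' → ∀ g ∈ ubl q F A, Commute g y' → g ∈ (normalizer (C : Set E)).map κ := fun y' u w g e z => by
    obtain ⟨y', rfl⟩ := hs y'
    obtain ⟨g, rfl⟩ := hs g
    exact mem_map_of_mem κ (c3 y' u w g (H.norm' h1 h2 e) z)
  refine Tc.step (A := C) (Y' := ubl q F A) (fun x u w => c1 x u ?_) (fun g hg => mem_norm_of hc ((?_ : ubl q F A ≤ _) hg)) (fun g hg => ?_) T'
  · obtain ⟨v, s, -, e⟩ := c2.le (mem_map_of_mem κ u)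
    have e' := (H.ei e).symm.trans (w i h1)
    obtain rfl : s = 0 := by simpa [e.1, H.ri] using congrFun e' i
    exact e.ext (by simpa [show v = 0 by simpa using e'] using H.one)
  · by_cases hq : q < 3
    · exact h3 _ hq fun c d h h' u w z => c4 _ (H.fpD u w ha a1 a2 fun x e _ _ => z x e)
        (hy ▸ SU_ext_v fun v => by simp [uac_mul, uac_diag, mul_left_comm])
    obtain ⟨T, hT⟩ := H.ex_T a1 a2
    obtain ⟨l, hl⟩ := ex_zeta (F := F) (not_lt.1 hq)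
    have e := hT (l ^ q * l)
    have e' : (l.1 ^ q * l) ^ q = l.1 ^ q * l := by rw [mul_pow, cq_cq, mul_comm]
    simp only [Units.val_mul, Units.val_pow_eq_pow_val, e', div_self (show l.1 ^ q * l ≠ 0 by simp), Function.update_eq_self_iff.2 (Pi.one_apply a).symm] at e
    exact fun g hg => c4 _ (H.fp e ha a1 a2 fun x _ _ _ => by rwa [e', Pi.one_apply, mul_one])
      (hy ▸ (diag_comm (c := c) (by rintro _ (rfl | rfl) <;> assumption) e.mem).symm) g hg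
      (ubl_comm (Set.disjoint_right.2 (by rintro _ (rfl | rfl) <;> assumption)) hg e.mem)
  · obtain ⟨u, h5, h6⟩ := H.dec (h4 _ hg).1 (h4 _ hg).2
    obtain ⟨u, h7, rfl⟩ := c2.ge h5
    exact ⟨u, h7, h6⟩

end Hy

theorem two_gen {j : ℕ} (h : j + 1 < n) (M : Subgroup (SU n F q)) (hq : q < 3) (hM : ∀ (c : F) d u w, d ⟨j, by omega⟩ = c → d ⟨j + 1, h⟩ = c →
    (∀ x ∈ seg n (j + 2) n, d x ≠ c) → ∀ g ∈ sbl F q n (j + 2) n, Commute g (suDiag d u w) → g ∈ M) : sbl F q n (j + 2) n ≤ M := by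
  obtain ⟨ν, h1, h2, h3⟩ := ex_nu (F := F) (q := q) (n := n)
  have := O.h3; have := O.h32; have := O.h4; have := O.h6
  by_cases c : j = 0
  · subst c
    by_cases c : n = 5
    · subst c
      obtain rfl : q = 2 := by have := H10.two_le_q hF.1; omega
      exact fun g hg => hM 1 _ (h3 (2 ≤ ·.1)) (by simpa [Fin.prod_univ_five, sq] using h2) (by simp) (by simp) (fun x e => by simpa [e.1]) g hg
        (diag_comm (c := ν) (fun x e => if_pos e.1) hg)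
    refine sbl_gen3 (by omega) le_rfl fun t u w g hg => ?_
    obtain ⟨a, ha⟩ := ex_nm (n := n) [⟨0, by omega⟩, ⟨1, by omega⟩, ⟨t, by omega⟩, ⟨t + 1, by omega⟩, ⟨t + 2, by omega⟩] (by simp; omega)
    obtain ⟨b, hb⟩ := ex_nm (n := n) [a, ⟨0, by omega⟩, ⟨1, by omega⟩, ⟨t, by omega⟩, ⟨t + 1, by omega⟩, ⟨t + 2, by omega⟩] (by simp; omega)
    simp only [List.mem_cons, not_or, Fin.ext_iff] at ha hb
    obtain ⟨d, a1, a2, a3, a4, a5⟩ := ex_diag2 (h3 (2 ≤ ·.1)) (a := a) (b := b) (fun e => hb.1 (e ▸ rfl))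
    have a6 : ∀ x : Fin n, x.1 ≠ a → x.1 ≠ b → d x = if 2 ≤ x.1 then ν else 1 := fun x u w => a5 x (Fin.ne_of_val_ne u) (Fin.ne_of_val_ne w)
    refine hM 1 d a1 a2 (by rw [a6 _ (by simp; omega) (by simp; omega)]; simp) (by rw [a6 _ (by simp; omega) (by simp; omega)]; simp)
      (fun x e => ?_) g (sbl_mono u w hg) (diag_comm (c := ν) (fun x e => by
        rw [mem_seg] at e; rw [a6 x (by omega) (by omega), if_pos (by omega)]) hg)
    by_cases c : x = a; · rwa [c]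
    by_cases c' : x = b; · rwa [c']
    rwa [a5 x c c', if_pos e.1]
  obtain ⟨d, a1, a2, -, a3⟩ := ex_diag1 (h3 (j + 2 ≤ ·.1)) ⟨0, by omega⟩
  have a4 : ∀ x ∈ seg n (j + 2) n, d x = ν := fun x e => by rw [a3 x (Fin.ne_of_val_ne (by have := e.1; simp; omega)), if_pos e.1]
  exact fun g hg => hM 1 d a1 a2 (by simp [a3, c]) (by simp [a3]) (fun x e => by rwa [a4 x e]) g hg (diag_comm a4 hg)

include hc hs in
theorem tc_sbl [Finite E] [Fact p.Prime] (hp : p ∣ q) (he : ∀ z, κ z = 1 → z ^ p = 1) (m : ℕ) : ∀ j, j + m = n → Tc κ (sbl F q n j n) := by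
  induction m using Nat.strong_induction_on with
  | _ m ih =>
  intro j e
  have := O.h3
  by_cases hm : m < 2
  · exact (tc_bot hc).mono fun g hg => ubl_single (i := ⟨n - 1, by omega⟩) (ubl_mono (fun x u => Fin.ext (by have := u.1; simp; omega)) hg)
  have h : j + 1 < n := by omega
  have key : ∀ θ : F, θ ^ q * θ = -1 → ∀ P : Subgroup (SU n F q), (∀ g ∈ P, g ∈ sbl F q n j n ∧ uac g (rv ⟨j, by omega⟩ ⟨j + 1, h⟩ θ) =
      rv ⟨j, by omega⟩ ⟨j + 1, h⟩ θ) → Tc κ P := fun θ u P w => by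
    have H : Hy q (⟨j, by omega⟩ : Fin n) ⟨j + 1, h⟩ θ := ⟨by simp, u⟩
    refine H.step O hc hs (A := seg n (j + 2) n) (by simp) (by simp) ?_ (ih (m - 2) (by omega) _ (by omega)) (two_gen O h)
      fun g hg => ⟨ubl_mono (fun x u => by have := u.1; simp [Fin.ext_iff]; omega) (w g hg).1, (w g hg).2⟩
    by_cases hq : 3 ≤ q
    · exact H.tc_big O hc hs hq
    obtain rfl : q = 2 := by have := H10.two_le_q hF.1; omega
    exact H.tc_two O hc hs rfl ((Nat.prime_dvd_prime_iff_eq Fact.out Nat.prime_two).1 hp ▸ he)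
  refine tc_of_pgrp hc hs he fun P h1 h2 => ?_
  obtain ⟨r, r0, r1, r2, r3⟩ := ex_fix hp (not_lt.1 hm) e.le (e.symm ▸ h1) h2
  rw [e] at r1
  by_cases h3 : m = 2
  · have a : r = r ⟨j, by omega⟩ • ev ⟨j, by omega⟩ + r ⟨j + 1, h⟩ • ev ⟨j + 1, h⟩ := funext fun x => by
      by_cases c : x = ⟨j, by omega⟩; · simp [c]
      by_cases c' : x = ⟨j + 1, h⟩; · simp [c']
      simp [c, c', r1 x (by simp [Fin.ext_iff] at c c' ⊢; omega)]
    generalize r ⟨j, _⟩ = s, r ⟨j + 1, _⟩ = t at a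
    subst a
    simp [hB_add', hB_smul'] at r2
    have s0 : s ≠ 0 := by rintro rfl; simp_all [q_ne F]
    refine key (t / s) (by rw [div_pow]; field_simp; linear_combination r2) P fun g hg => ⟨h1 hg, smul_right_injective _ s0 ?_⟩
    simpa [rv, ← uac_smul, smul_smul, mul_div_cancel₀ _ s0] using r3 g hg
  obtain ⟨θ, hθ⟩ := ex_norm (q := q) (c := (-1 : F)) (by rw [cq_neg, one_pow])
  have H : Hy q (⟨j, by omega⟩ : Fin n) ⟨j + 1, h⟩ θ := ⟨by simp, hθ⟩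
  obtain ⟨g, h4, h5⟩ := ubl_trans0 (q := q) (A := seg n j n) (i := ⟨j, by omega⟩) (j := ⟨j + 1, h⟩) (k := ⟨j + 2, by omega⟩) (by simp; omega)
    (by simp; omega) (by simp; omega) (by simp) (by simp) (by simp) r1 ((on_ev (by simp; omega)).add ((on_ev (by simp; omega)).smul θ)) r0
    (fun c => one_ne_zero (H.ri.symm.trans (congrFun c _))) (r2.trans H.rr.symm)
  obtain ⟨g, rfl⟩ := hs g
  refine (key θ hθ (P.map (MulAut.conj (κ g)).toMonoidHom) ?_).conj g fun x hx => mem_map_of_mem _ hx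
  rintro _ ⟨x, hx, rfl⟩
  exact ⟨mul_mem (mul_mem h4 (h1 hx)) (inv_mem h4), by rw [rv, ← h5]; simp [uac_mul, r3 x hx]⟩

theorem mult_SU {F : Type u} [Field F] [Finite F] [hF : Fact (Nat.card F = q ^ 2)] : HasCyclicSchurMultiplier (SU n F q) 1 := by
  obtain ⟨p, k, hp, _, e⟩ := H10.exists_q_eq_pow hF.1
  have := Fact.mk hp
  refine H15.hasTrivial_of_noStem fun r hr => ?_
  rcases eq_or_ne r p with rfl | c
  · exact noStem_of_tc fun X _ _ ξ a b c => sbl_top (F := F) (q := q) ▸ tc_sbl O b a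
      (e ▸ dvd_pow_self r (by rintro rfl; have := H10.two_le_q hF.1; rw [pow_zero] at e; omega)) c n 0 (zero_add n)
  · exact noStem_SU_ne hr c O.h3

end H11
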