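import Mathlib
import Cfsg.Agent.H22.Su11

/-! Overgroups of the orthogonal subfield subgroup of `SU₄(q)`, part 1 (namespace `H11.Su48`): `R4`, `R4.hZ`, `R4.pt`. -/

set_option autoImplicit false

namespace H11.Su48

open Module H10 H10.Form H22.Su H12.Xf

variable {F V : Type*} [Field F] [AddCommGroup V] [Module F V] {φ : Form F V}
  [φ.Nondeg] [FiniteDimensional F V] [Finite F]

/-- an orthogonal rational structure in dimension four and an overgroup of its stabiliser -/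
structure R4 (φ : Form F V) [φ.Nondeg] [FiniteDimensional F V] (K : Subfield F) (L : Submodule K V)
    (M : Subgroup φ.Isom) (θ : F) : Prop where
  rat : φ.RatS K L
  sing : φ.RSing K L
  dim : finrank F V = 4
  herm : φ.IsHerm
  two : (2 : F) ≠ 0
  fix : ∀ a, a ∈ K ↔ φ.σ a = a
  θ0 : θ ≠ 0
  θσ : φ.σ θ = -θ
  big : ∃ l ∈ K, l ≠ 0 ∧ l * l ≠ 1
  le : M ≤ φ.SIsom
  mem : ∀ k ∈ φ.SIsom, ∀ c : F, c ≠ 0 → (∀ x ∈ L, c • k.1 x ∈ L) → k ∈ M

omit [Finite F] in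
theorem rot_neg (hφ : φ.IsHerm) {M : Subgroup φ.Isom} {e f : V} (hyp : φ.IsHyp e f) (h1 : TF M e) (h2 : TF M f) {θ : F} (h0 : θ ≠ 0)
    (hθ : φ.σ θ = -θ) : φ.rot e f (-1) ∈ M := by
  have t1 : φ.T θ = 0 := by rw [hφ.T_eq, hθ, add_neg_cancel]
  have t2 : φ.T (-θ⁻¹) = 0 := by simp [hφ.T_eq, hθ]
  have := M.mul_mem (h1 _ t1) (h2 _ t2)
  convert M.mul_mem (M.mul_mem this this) this using 1
  refine Isom.ext fun z => ?_
  simp only [Isom.mul_apply, tv_apply hφ hyp.Qe t1, tv_apply hφ hyp.Qf t2, φ.rot_apply hyp (neg_ne_zero.2 one_ne_zero), map_sub,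
    map_smul, hyp.Bee, hyp.Bef, hyp.Bfe, hyp.Bff, hφ.ε_eq, smul_eq_mul, map_neg, map_one, inv_neg, inv_one]
  match_scalars <;> field_simp <;> ring

namespace R4
variable {K : Subfield F} {L : Submodule K V} {M : Subgroup φ.Isom} {θ : F} (h : R4 φ K L M θ)
  {p f u w z y a b : V} {s c t : F} {g k : φ.Isom}
include h

omit [Finite F] in
theorem sg (hp : φ.Q p = 0) (hw : φ.B p w = 0) (hs : φ.T s = φ.Q w) (x : V) :
    (φ.siegel p w s).1 x = x + φ.B w x • p - φ.B p x • w - (s * φ.B p x) • p := by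
  rw [φ.siegel_apply hp hw hs, h.herm.ε_eq, one_mul, one_mul]

omit [Finite F] in
theorem skew0 (hc : c ∈ K) (h1 : φ.σ c = -c) : c = 0 := by
  have := (h.fix c).1 hc
  exact (mul_eq_zero.1 (show 2 * c = 0 by linear_combination h1 - this)).resolve_left h.two

omit [Finite F] in
theorem z2 {a d : F} (ha : a ∈ K) (hd : d ∈ K) (e : a + θ * d = 0) : a = 0 ∧ d = 0 := by
  have h1 : θ * d = 0 := h.skew0 (by rw [show θ * d = -a by linear_combination e]; exact K.neg_mem ha)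
    (by rw [map_mul, h.θσ, (h.fix d).1 hd, neg_mul])
  exact ⟨by linear_combination e - h1, (mul_eq_zero.1 h1).resolve_left h.θ0⟩

omit [Finite F] in
theorem sq : θ * θ ∈ K := (h.fix _).2 (by simp [h.θσ])

omit [Finite F] in
theorem dec (v : V) : ∃ a ∈ L, ∃ b ∈ L, v = a + θ • b := by
  have h2 := h.two
  have h0 := h.θ0
  let A : Submodule F V :=
    { carrier := {x | ∃ a ∈ L, ∃ b ∈ L, x = a + θ • b}
      zero_mem' := ⟨0, L.zero_mem, 0, L.zero_mem, by simp⟩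
      add_mem' := by
        rintro _ _ ⟨a, ha, b, hb, rfl⟩ ⟨a', ha', b', hb', rfl⟩
        exact ⟨_, L.add_mem ha ha', _, L.add_mem hb hb', by module⟩
      smul_mem' := by
        rintro c _ ⟨a, ha, b, hb, rfl⟩
        have h1 : (c + φ.σ c) / 2 ∈ K := (h.fix _).2 (by simp [map_ofNat, add_comm])
        have h3 : (c - φ.σ c) / (2 * θ) ∈ K := (h.fix _).2 (by simp [map_ofNat, h.θσ]; field_simp; ring)
        refine ⟨_, L.add_mem (RatS.smul_mem h1 ha) (RatS.smul_mem (K.mul_mem h.sq h3) hb), _,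
          L.add_mem (RatS.smul_mem h3 ha) (RatS.smul_mem h1 hb), ?_⟩
        match_scalars <;> field_simp <;> ring }
  exact h.rat.mem_of_le (A := A) (fun x hx => ⟨x, hx, 0, L.zero_mem, by simp⟩) v

omit [Finite F] in
theorem comm (hx : u ∈ L) (hy : w ∈ L) : φ.B u w = φ.B w u := by
  rw [h.herm.B_comm w u, (h.fix _).1 (h.rat.B_mem _ hy _ hx)]

omit [Finite F] in
theorem half (hu : u ∈ L) : φ.Q u / 2 ∈ K ∧ φ.T (φ.Q u / 2) = φ.Q u := by
  have h1 := K.div_mem (h.rat.Q_mem u hu) (ofNat_mem K 2)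
  refine ⟨h1, ?_⟩
  have := h.two
  rw [h.herm.T_eq, (h.fix _).1 h1]; field_simp; ring

omit [Finite F] in
theorem sgL (hp : p ∈ L) (hw : w ∈ L) (hs : s ∈ K) (a1 : φ.Q p = 0) (a2 : φ.B p w = 0) (a3 : φ.T s = φ.Q w) :
    ∀ x ∈ L, (φ.siegel p w s).1 x ∈ L := fun x hx => by
  rw [h.sg a1 a2 a3]
  exact sub_mem (sub_mem (add_mem hx (RatS.smul_mem (h.rat.B_mem _ hw _ hx) hp)) (RatS.smul_mem (h.rat.B_mem _ hp _ hx) hw))
    (RatS.smul_mem (K.mul_mem hs (h.rat.B_mem _ hp _ hx)) hp)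

omit [Finite F] in
theorem sgm' (hp : p ∈ L) (hw : w ∈ L) (hs : s ∈ K) (a1 : φ.Q p = 0) (a2 : φ.B p w = 0) (a3 : φ.T s = φ.Q w) : φ.siegel p w s ∈ M :=
  h.mem _ (E_le_SIsom (φ.siegel_mem_E a1 a2 a3)) 1 one_ne_zero (by simpa using h.sgL hp hw hs a1 a2 a3)

omit [Finite F] in
theorem sgm (hp : p ∈ L) (hu : u ∈ L) (hQ : φ.Q p = 0) (h0 : φ.B p u = 0) : φ.siegel p u (φ.Q u / 2) ∈ M :=
  h.sgm' hp hu (h.half hu).1 hQ h0 (h.half hu).2

omit [Finite F] in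
theorem rotm (hp : p ∈ L) (hf : f ∈ L) (hyp : φ.IsHyp p f) (hc : c ∈ K) (c0 : c ≠ 0) : φ.rot p f c ∈ M :=
  h.mem _ (φ.mem_SIsom.2 (by rw [φ.det_rot hyp c0, (h.fix c).1 hc, mul_inv_cancel₀ c0])) 1 one_ne_zero fun x hx => by
    rw [one_smul, φ.rot_apply hyp c0, (h.fix c).1 hc, h.herm.ε_eq, mul_one]
    exact add_mem (add_mem hx (RatS.smul_mem (K.mul_mem (K.sub_mem hc K.one_mem) (h.rat.B_mem _ hf _ hx)) hp))
      (RatS.smul_mem (K.mul_mem (K.sub_mem (K.inv_mem hc) K.one_mem) (h.rat.B_mem _ hp _ hx)) hf)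

theorem exo (ha : a ∈ L) (hb : b ∈ L) (hp : p ∈ L) : ∃ e ∈ L, e ∉ F ∙ p ∧ φ.B a e = 0 ∧ φ.B b e = 0 := by
  have := h.rat.nondeg
  have := RatS.finiteDim (L := L)
  obtain ⟨e, -, h7, h3⟩ := h.rat.form.exists_orth ⊤ (K ∙ ⟨p, hp⟩) [⟨a, ha⟩, ⟨b, hb⟩] (by
    have := finrank_span_pair_le (F := K) (⟨p, hp⟩ : L) ⟨p, hp⟩
    have := finrank_span_le_card (R := K) ({⟨p, hp⟩} : Set L)
    simp [h.rat.rank, h.dim] at this ⊢; omega)
  refine ⟨e, e.2, fun h0 => ?_, congrArg Subtype.val (h3 ⟨a, ha⟩ (by simp)), congrArg Subtype.val (h3 ⟨b, hb⟩ (by simp))⟩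
  obtain ⟨v, h9, h10⟩ := h.rat.form.exists_sep h7
  obtain ⟨a, h11⟩ := Submodule.mem_span_singleton.1 h0
  have h12 : φ.B v p = 0 := congrArg Subtype.val (h9 ⟨p, hp⟩ (Submodule.mem_span_singleton_self _))
  have h13 : φ.B v e = 1 := congrArg Subtype.val h10
  simp [← h11, h12] at h13

theorem sep2 (hp : p ∈ L) (hz : z ∈ L) (hu : u ∈ L) (h1 : u ∉ Submodule.span F {p, z}) :
    ∃ w ∈ L, φ.B w p = 0 ∧ φ.B w z = 0 ∧ φ.B w u = 1 :=
  (h.rat.exists_sep hu h1).imp fun _ a => ⟨a.1, a.2.1 p hp (Submodule.subset_span (by simp)),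
    a.2.1 z hz (Submodule.subset_span (by simp)), a.2.2⟩

theorem sep1 (hp : p ∈ L) (hu : u ∈ L) (h1 : u ∉ F ∙ p) : ∃ w ∈ L, φ.B w p = 0 ∧ φ.B w u = 1 :=
  (h.rat.exists_sep hu h1).imp fun _ a => ⟨a.1, a.2.1 p hp (Submodule.mem_span_singleton_self p), a.2.2⟩

theorem nons (ha : a ∈ L) (hb : b ∈ L) (hd : φ.B a a * φ.B b b - φ.B a b * φ.B b a ≠ 0) :
    ∃ w ∈ L, φ.B a w = 0 ∧ φ.B b w = 0 ∧ φ.Q w ≠ 0 := by
  obtain ⟨e, he, h1, h2, h2'⟩ := h.exo ha hb L.zero_mem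
  obtain ⟨d, hd, h3, h4, h5⟩ := h.sep2 ha hb he fun h0 => h1 (by
    obtain ⟨α, β, rfl⟩ := Submodule.mem_span_pair.1 h0
    simp only [map_add, map_smul, smul_eq_mul] at h2 h2'
    rw [mul_left_cancel₀ hd (show _ * α = _ * 0 by linear_combination φ.B b b * h2 - φ.B a b * h2'),
      mul_left_cancel₀ hd (show _ * β = _ * 0 by linear_combination φ.B a a * h2' - φ.B b a * h2)]
    simp)
  by_cases q1 : φ.Q e = 0
  · by_cases q2 : φ.Q d = 0
    · refine ⟨d + e, L.add_mem hd he, by simp [h2, φ.B_symm_zero h3], by simp [h2', φ.B_symm_zero h4], ?_⟩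
      rw [φ.Q_add, q1, q2, h5, h.herm.T_eq, map_one, zero_add, zero_add, one_add_one_eq_two]
      exact h.two
    · exact ⟨d, hd, φ.B_symm_zero h3, φ.B_symm_zero h4, q2⟩
  · exact ⟨e, he, h2, h2', q1⟩

omit [Finite F] in
theorem selfA (hQ : φ.Q p = 0) (c : F) : c • p ∈ AS M hQ := by
  have ht : φ.T (φ.σ c - c) = 0 := by simp [h.herm.T_eq]
  refine ⟨by simp [φ.B_self_eq_zero hQ], _, by rw [ht, φ.Q_smul_of_sing hQ], ?_⟩
  rw [siegel_self hQ ht, h.herm.ε_eq, show φ.σ c - c + c - 1 * φ.σ c = 0 by ring, φ.siegel_zero hQ]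
  exact M.one_mem

omit [Finite F] in
theorem ratA (hp : p ∈ L) (hQ : φ.Q p = 0) (hu : u ∈ L) (h0 : φ.B p u = 0) : u ∈ AS M hQ := ⟨h0, _, (h.half hu).2, h.sgm hp hu hQ h0⟩

omit [Finite F] in
theorem scal (hp : p ∈ L) (hf : f ∈ L) (hyp : φ.IsHyp p f) (hu : u ∈ AS M hyp.Qe) (hc : c ∈ K) : c • u ∈ AS M hyp.Qe := by
  by_cases c0 : c = 0
  · simp [c0]
  have h1 := InA.map hyp.Qe hu (h.rotm hp hf hyp hc c0)
  rw [φ.rot_apply_e hyp c0, φ.rot_apply hyp c0, (show InA M p u from hu).1] at h1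
  convert sub_mem (show _ ∈ AS M hyp.Qe from h1.of_smul hyp.Qe c0) (h.selfA hyp.Qe (c * ((c - 1) * φ.ε * φ.B f u))) using 1
  rw [(h.fix c).1 hc]; module

omit [Finite F] in
theorem tf (hp : p ∈ L) (hf : f ∈ L) (hyp : φ.IsHyp p f) (ht : φ.T t = 0) (t0 : t ≠ 0) (h1 : φ.siegel p 0 t ∈ M) : TF M p := by
  have k : ∀ {s}, φ.T s = 0 → φ.T s = φ.Q 0 := fun e => by simpa using e
  have H : ∀ l ∈ K, φ.siegel p 0 (l * l * t) ∈ M := fun l hl => by
    by_cases l0 : l = 0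
    · simp [l0, φ.siegel_zero hyp.Qe]
    have := siegel_conj_mem (h.rotm hp hf hyp hl l0) hyp.Qe (by simp) (k ht) h1
    rwa [map_zero, φ.rot_apply_e hyp l0, siegel_smul hyp.Qe (by simp) (k ht), smul_zero, (h.fix l).1 hl] at this
  intro s hs
  have e : ∀ {s}, φ.T s = 0 → φ.σ s = -s := fun e => by rw [h.herm.T_eq] at e; linear_combination e
  have h2 : s / t ∈ K := (h.fix _).2 (by simp [e hs, e ht])
  have h3 := K.div_mem (K.sub_mem h2 K.one_mem) (ofNat_mem K 2)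
  have := h.two
  rw [← M.mul_mem_cancel_right (H _ h3), φ.siegel_mul hyp.Qe (by simp) (k hs) (by simp) (k (by
    rw [← (h.fix _).1 h3]; nth_rw 2 [(h.fix _).1 h3]; rw [φ.T_norm, ht, mul_zero]))]
  convert H _ (K.div_mem (K.add_mem h2 K.one_mem) (ofNat_mem K 2)) using 2
  · simp
  · simp only [map_zero, add_zero]; field_simp; ring

theorem E_le (hp : p ∈ L) (hQ : φ.Q p = 0) (ht : φ.T t = 0) (t0 : t ≠ 0) (p0 : p ≠ 0) (h1 : φ.siegel p 0 t ∈ M) : φ.E ≤ M := by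
  obtain ⟨f, hf, hyp⟩ := h.rat.exists_partner hp hQ p0
  have h2 := h.two
  have h0 := h.θ0
  have hX := h.tf hp hf hyp ht t0 h1
  have bfe : φ.B f p = 1 := by rw [hyp.Bfe, h.herm.ε_eq]
  obtain ⟨w, hw, a1, a2, a3⟩ := h.nons hp hf (by simp [hyp.Bee, hyp.Bef, bfe])
  have k1 : ∀ w ∈ L, φ.B p w = 0 → φ.B f w = 0 → (φ.siegel p w (φ.Q w / 2)).1 f = f - w - (φ.Q w / 2) • p := fun w hw b1 b2 => by
    rw [h.sg hQ b1 (h.half hw).2, φ.B_symm_zero b2, hyp.Bef]; simp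
  have hY : TF M f := by
    have i := K.inv_mem (h.half hw).1
    have b := L.neg_mem (RatS.smul_mem i hw)
    have c1 := ((hX.map hQ (h.sgm hf b hyp.Qf (by simp [a2]))).smul (by simpa using hQ) (-(φ.Q w / 2))).map
      (φ.Q_smul_of_sing (by simpa using hQ) _) (M.inv_mem (h.sgm hp hw hQ a1))
    convert c1 using 1
    rw [eq_comm, ← (φ.siegel p w (φ.Q w / 2)).1.injective.eq_iff, Isom.apply_inv_apply, k1 w hw a1 a2,
      h.sg hyp.Qf (by simp [a2]) (h.half b).2]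
    simp only [Q_neg, φ.Q_smul, (h.fix _).1 i, map_neg, B_smul_left, φ.B_symm_zero a1, bfe, LinearMap.neg_apply]
    match_scalars <;> field_simp <;> ring
  have tθ : φ.T θ = 0 := by rw [h.herm.T_eq, h.θσ, add_neg_cancel]
  have H1 : ∀ w ∈ L, φ.B p w = 0 → φ.B f w = 0 → φ.Q w ≠ 0 → θ • w ∈ AS M hQ := fun w hw b1 b2 b3 => by
    obtain ⟨s1, s2⟩ := h.half hw
    generalize hs : φ.Q w / 2 = s at s1 s2
    have s0 : s ≠ 0 := hs ▸ div_ne_zero b3 h2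
    have c0 : 1 + θ * s ≠ 0 := fun e => one_ne_zero (h.z2 K.one_mem s1 e).1
    have c0' : 1 - θ * s ≠ 0 := fun e => one_ne_zero (h.z2 K.one_mem (K.neg_mem s1) (by linear_combination e)).1
    have q1 : φ.Q ((φ.siegel p w s).1 f) = 0 := by simpa using hyp.Qf
    have c1 := ((hY.map hyp.Qf (hs ▸ h.sgm hp hw hQ b1)).map q1 (hY θ tθ)).smul (by simpa using hyp.Qf) (1 + θ * s)⁻¹
    have d1 : φ.B p ((1 + θ * s)⁻¹ • w) = 0 := by simp [b1]
    have d2 : φ.T ((1 + θ * s)⁻¹ * s) = φ.Q ((1 + θ * s)⁻¹ • w) := by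
      rw [φ.Q_smul, ← s2, h.herm.T_eq, h.herm.T_eq]
      simp only [map_mul, map_inv₀, map_add, map_one, h.θσ, (h.fix s).1 s1, neg_mul, ← sub_eq_add_neg]
      field_simp; ring
    have e1 : (1 + θ * s)⁻¹ • (φ.siegel f 0 θ).1 ((φ.siegel p w s).1 f) =
        (φ.siegel p ((1 + θ * s)⁻¹ • w) ((1 + θ * s)⁻¹ * s)).1 f := by
      rw [h.sg hQ d1 d2, tv_apply h.herm hyp.Qf tθ, h.sg hQ b1 s2]
      simp only [map_add, map_sub, map_smul, B_smul_left, φ.B_symm_zero b2, b2, hyp.Bef, hyp.Bff, bfe, smul_eq_mul]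
      match_scalars <;> field_simp <;> ring
    rw [e1] at c1
    have hyp' := hyp.map (φ.siegel p ((1 + θ * s)⁻¹ • w) ((1 + θ * s)⁻¹ * s))
    have c2 := rot_neg h.herm hyp' (by rwa [siegel_apply_self hQ d1 d2]) c1 h0 h.θσ
    have n1 : (-1 : F) ≠ 0 := neg_ne_zero.2 one_ne_zero
    have c3 := M.mul_mem (M.inv_mem c2) (h.rotm hp hf hyp (K.neg_mem K.one_mem) n1)
    rw [← φ.rot_conj _ hyp n1] at c3
    have c4 := M.mul_mem (M.mul_mem (h.rotm hp hf hyp (K.neg_mem K.one_mem) n1) c3)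
      (M.inv_mem (h.rotm hp hf hyp (K.neg_mem K.one_mem) n1))
    have e2 : ∀ r x : φ.Isom, r * ((x * r * x⁻¹)⁻¹ * r) * r⁻¹ = r * x * r⁻¹ * x⁻¹ := fun r x => by group
    rw [e2, φ.siegel_conj _ hQ d1 d2, φ.rot_apply_e hyp n1, φ.rot_apply_of_orth hyp n1 d1 (by simp [b2]), siegel_smul hQ d1 d2,
      siegel_inv hQ d1 d2, φ.siegel_mul hQ (by simp [b1]) (by simpa using d2) (by simp [b1]) (by rw [T_ε_σ, Q_neg]; exact d2)] at c4
    have c5 : _ ∈ AS M hQ := ⟨by simp [b1], _, φ.siegel_T_add (by simpa using d2) (by rw [T_ε_σ, Q_neg]; exact d2), c4⟩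
    have i1 : (1 - θ * θ * (s * s)) / (2 * s) ∈ K :=
      K.div_mem (K.sub_mem K.one_mem (K.mul_mem h.sq (K.mul_mem s1 s1))) (K.mul_mem (ofNat_mem K 2) s1)
    convert add_mem (h.scal hp hf hyp c5 i1) (h.ratA hp hQ (RatS.smul_mem (K.inv_mem s1) hw) (by simp [b1])) using 1
    simp only [map_neg, map_one]
    match_scalars; field_simp; ring
  have H2 : ∀ u ∈ L, φ.B p u = 0 → φ.B f u = 0 → θ • u ∈ AS M hQ := fun u hu b1 b2 => by
    by_cases q : φ.Q u = 0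
    swap
    · exact H1 u hu b1 b2 q
    by_cases q' : φ.Q (u + w) = 0
    · convert add_mem (H1 _ (L.sub_mem hu hw) (by simp [b1, a1]) (by simp [b2, a2]) fun e => ?_) (H1 w hw a1 a2 a3) using 1
      · module
      · rw [φ.Q_add] at q'; rw [φ.Q_sub] at e
        exact mul_ne_zero h2 a3 (by linear_combination e + q' - 2 * q)
    · convert sub_mem (H1 _ (L.add_mem hu hw) (by simp [b1, a1]) (by simp [b2, a2]) q') (H1 w hw a1 a2 a3) using 1
      module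
  have H : ∀ u, φ.B p u = 0 → InA M p u := fun u hu => by
    obtain ⟨a, ha, d, hd, rfl⟩ := h.dec u
    obtain ⟨b1, b2⟩ := h.z2 (h.rat.B_mem _ hp _ ha) (h.rat.B_mem _ hp _ hd) (by simpa using hu)
    change _ ∈ AS M hQ
    convert add_mem (add_mem (h.ratA hp hQ ha b1) (H2 _ (L.sub_mem hd (RatS.smul_mem (h.rat.B_mem _ hf _ hd) hp))
      (by simp [b2, hyp.Bee]) (by simp [bfe]))) (h.selfA hQ (θ * φ.B f d)) using 1
    module
  have h3 : φ.Full M p := full_of_le_sgSub (hp := hQ) (hX := hX) fun y hy =>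
    ⟨φ.mem_perp_singleton.1 hy, fun c => (H _ (by simp [φ.mem_perp_singleton.1 hy])).2⟩
  refine h3.E_le hQ (h.sgm hf hw hyp.Qf a2) ?_
  rw [h.sg hyp.Qf a2 (h.half hw).2]
  simp [hyp.Bee, hyp.Bef, bfe, a1, φ.B_symm_zero a1, a3, h2]

variable (hE : ¬ φ.E ≤ M)
include hE

theorem hZ (hp : p ∈ L) (hQ : φ.Q p = 0) (p0 : p ≠ 0) (ht : φ.T t = 0) (h1 : φ.siegel p 0 t ∈ M) : t = 0 :=
  by_contra fun t0 => hE (h.E_le hp hQ ht t0 p0 h1)

theorem hU (hp : p ∈ L) (hQ : φ.Q p = 0) (p0 : p ≠ 0) (hu : InA M p u) : ∃ d : F, u + d • p ∈ L := by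
  obtain ⟨a, ha, b, hb, rfl⟩ := h.dec u
  obtain ⟨a1, -⟩ := h.z2 (h.rat.B_mem _ hp _ ha) (h.rat.B_mem _ hp _ hb) (by simpa using hu.1)
  by_cases q : b ∈ F ∙ p
  · obtain ⟨c, rfl⟩ := Submodule.mem_span_singleton.1 q
    exact ⟨-(θ * c), by convert ha using 1; module⟩
  obtain ⟨w, hw, b1, b2⟩ := h.sep1 hp hb q
  obtain ⟨c1, s, c2, c3⟩ : InA M p (θ • b) := show _ ∈ AS M hQ by
    simpa using sub_mem (show _ ∈ AS M hQ from hu) (h.ratA hp hQ ha a1)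
  obtain ⟨d1, s', d2, d3⟩ : InA M p w := h.ratA hp hQ hw (φ.B_symm_zero b1)
  have := h.hZ hE hp hQ p0 (t := φ.B (θ • b) w - φ.B w (θ • b)) (by rw [map_sub, φ.T_B_comm (θ • b) w, sub_self]) (by
    rw [← siegel_commutator hQ c1 c2 d1 d2]
    exact M.mul_mem (M.mul_mem (M.mul_mem c3 d3) (M.inv_mem c3)) (M.inv_mem d3))
  rw [B_smul_left, map_smul, h.comm hb hw, b2, h.θσ, smul_eq_mul] at this
  exact absurd (by linear_combination -this) (mul_ne_zero h.two h.θ0)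

theorem ratU (hp : p ∈ L) (hQ : φ.Q p = 0) (p0 : p ≠ 0) (h1 : φ.B p u = 0) (h2 : φ.T s = φ.Q u) (h3 : φ.σ s = s)
    (h4 : φ.siegel p u s ∈ M) : u ∈ L := by
  obtain ⟨d, hd⟩ := h.hU hE hp hQ p0 ⟨h1, s, h2, h4⟩
  have q1 : φ.B p (u + d • p) = 0 := by simp [h1, φ.B_self_eq_zero hQ]
  have q2 : φ.Q (u + d • p) = φ.Q u := by
    rw [φ.Q_add_of_orth (by simp [φ.B_symm_zero h1]), φ.Q_smul_of_sing hQ, add_zero]
  have q3 : φ.T (d - φ.σ d) = 0 := by simp [h.herm.T_eq]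
  have q4 := h.sgm' hp hd ((h.fix s).2 h3) hQ q1 (h2.trans q2.symm)
  have q5 := h.hZ hE hp hQ p0 q3 (by
    convert M.mul_mem q4 (M.inv_mem h4) using 1
    rw [eq_mul_inv_iff_mul_eq]
    refine Isom.ext fun x => ?_
    rw [Isom.mul_apply, h.sg hQ (by simp) (by simpa using q3), h.sg hQ h1 h2, h.sg hQ q1 (h2.trans q2.symm)]
    simp [h1, φ.B_self_eq_zero hQ]
    module)
  simpa using L.sub_mem hd (RatS.smul_mem ((h.fix d).2 (sub_eq_zero.1 q5).symm) hp)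

theorem pt1 (hk : k ∈ M) (hp : p ∈ L) (hQ : φ.Q p = 0) (p0 : p ≠ 0) (c0 : c ≠ 0) (e : c • k.1 p ∈ L) (hu : u ∈ L)
    (h1 : φ.B p u = 0) : c • k.1 u ∈ L := by
  have h2 := siegel_conj_mem hk hQ h1 (h.half hu).2 (h.sgm hp hu hQ h1)
  have q1 : φ.Q (c • k.1 p) = 0 := φ.Q_smul_of_sing (by simpa using hQ) c
  have q2 : φ.B (c • k.1 p) (k.1 u) = 0 := by simp [h1]
  have q3 : φ.T (φ.Q u / 2) = φ.Q (k.1 u) := by simpa using (h.half hu).2
  rw [show k.1 p = c⁻¹ • c • k.1 p by rw [inv_smul_smul₀ c0], siegel_smul q1 q2 q3] at h2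
  have h3 := h.ratU hE e q1 (by simpa [c0] using p0) (by simp [h1]) (by simpa [mul_comm] using T_smul q3 (φ.σ c⁻¹))
    (by simp only [map_mul, σ_σ, (h.fix _).1 (h.half hu).1]; ring) h2
  have h4 : φ.σ c ≠ 0 := by simpa using c0
  convert RatS.smul_mem ((h.fix (φ.σ c * c)).2 (by simp [mul_comm])) h3 using 1
  rw [smul_smul, map_inv₀]
  congr 1
  field_simp

theorem pt (hk : k ∈ M) (hp : p ∈ L) (hQ : φ.Q p = 0) (p0 : p ≠ 0) (c0 : c ≠ 0) (e : c • k.1 p ∈ L) :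
    ∀ x ∈ L, c • k.1 x ∈ L := by
  obtain ⟨f, hf, hyp⟩ := h.rat.exists_partner hp hQ p0
  have q1 : φ.Q (c • k.1 p) = 0 := φ.Q_smul_of_sing (by simpa using hQ) c
  have q0 : c • k.1 p ≠ 0 := by simpa [c0] using p0
  have n1 : φ.σ c * c ∈ K := (h.fix _).2 (by simp [mul_comm])
  have n0 : φ.σ c ≠ 0 := by simpa using c0
  have h2 := h.two
  obtain ⟨d, hd⟩ := h.rat.exists_add_mem (v := c • k.1 f) e q1 fun x hx h1 => by
    have := h.pt1 hE (M.inv_mem hk) e q1 q0 (inv_ne_zero c0) (by simpa [c0] using hp) hx h1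
    convert K.mul_mem n1 (h.rat.B_mem _ hf _ this) using 1
    rw [B_smul_left, map_smul, ← Isom.B_map k f, Isom.apply_inv_apply, smul_eq_mul]; field_simp
  have ht : φ.T ((φ.σ d - d) / (2 * (φ.σ c * c))) = 0 := by simp [h.herm.T_eq, map_ofNat]; field_simp; ring
  have k1 : ∀ k' : φ.Isom, c • k'.1 f ∈ L → (∀ u ∈ L, φ.B p u = 0 → c • k'.1 u ∈ L) → ∀ x ∈ L, c • k'.1 x ∈ L := fun k' a b x hx => by
    have i := h.rat.B_mem _ hp _ hx
    convert add_mem (b _ (sub_mem hx (RatS.smul_mem i hf)) (by simp [hyp.Bef])) (RatS.smul_mem i a) using 1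
    simp only [map_sub, map_smul]; module
  have k2 : c • k.1 f + ((d - φ.σ d) / 2) • c • k.1 p ∈ L := by
    convert sub_mem hd (RatS.smul_mem ((h.fix ((d + φ.σ d) / 2)).2 (by simp [map_ofNat, add_comm])) e) using 1
    match_scalars <;> field_simp; ring
  have k3 := h.mem (φ.siegel (c • k.1 p) 0 _ * k) (mul_mem (E_le_SIsom (φ.siegel_mem_E q1 (by simp) (by simpa using ht))) (h.le hk)) c c0
    (k1 _ (by
      convert k2 using 1
      rw [Isom.mul_apply, tv_apply h.herm q1 ht, B_smul_left, Isom.B_map, hyp.Bef]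
      match_scalars <;> field_simp; ring) fun u hu b => by
      rw [Isom.mul_apply, tv_apply h.herm q1 ht, B_smul_left, Isom.B_map, b]
      simpa using h.pt1 hE hk hp hQ p0 c0 e hu b)
  have k4 := h.hZ hE e q1 q0 ht ((M.mul_mem_cancel_right hk).1 k3)
  rw [div_eq_zero_iff, sub_eq_zero, or_iff_left (mul_ne_zero h2 (mul_ne_zero n0 c0))] at k4
  exact k1 k (by simpa [k4] using k2) fun u hu b => h.pt1 hE hk hp hQ p0 c0 e hu b

end R4

end H11.Su48
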