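import Mathlib
import Cfsg.Agent.H11.Su48a

/-! Overgroups of the orthogonal subfield subgroup of `SU₄(q)`, part 2 (namespace `H11.Su48`): `R4.fin`, `H11.su4_8`. -/

set_option autoImplicit false

namespace H11.Su48

open Module H10 H10.Form H22.Su H12.Xf

variable {F V : Type*} [Field F] [AddCommGroup V] [Module F V]

theorem span4 [FiniteDimensional F V] (hd : finrank F V = 4) {a b c d : V}
    (h : ∀ α β γ δ : F, α • a + β • b + γ • c + δ • d = 0 → α = 0 ∧ β = 0 ∧ γ = 0 ∧ δ = 0) (x : V) :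
    ∃ α β γ δ : F, x = α • a + β • b + γ • c + δ • d := by
  have h1 : LinearIndependent F ![a, b, c, d] := Fintype.linearIndependent_iff.2 fun g e i => by
    obtain ⟨h0, h1, h2, h3⟩ := h (g 0) (g 1) (g 2) (g 3) (by simpa [Fin.sum_univ_four] using e)
    fin_cases i <;> assumption
  obtain ⟨g, e⟩ := (Submodule.mem_span_range_iff_exists_fun F).1 ((h1.span_eq_top_of_card_eq_finrank' (by simp [hd])).ge (Submodule.mem_top (x := x)))
  exact ⟨g 0, g 1, g 2, g 3, by simpa [Fin.sum_univ_four] using e.symm⟩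

theorem prop4 [FiniteDimensional F V] (hd : finrank F V = 4) (h2 : (2 : F) ≠ 0) {a b x₀ z₀ : V} (hab : ∀ α β : F, α • a + β • b = 0 → α = 0 ∧ β = 0)
    {ω ω' : V →ₗ[F] V →ₗ[F] F} (s : ∀ x z, ω x z = -ω z x) (s' : ∀ x z, ω' x z = -ω' z x) (h1 : ω a = 0 ∧ ω b = 0)
    (h1' : ω' a = 0 ∧ ω' b = 0) (h0 : ω x₀ z₀ ≠ 0) : ∃ μ, ∀ x z, ω' x z = μ * ω x z := by
  have z : ∀ {ω : V →ₗ[F] V →ₗ[F] F}, (∀ x z, ω x z = -ω z x) → ∀ x, ω x x = 0 := fun {ω} s x =>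
    (mul_eq_zero.1 (show (2 : F) * ω x x = 0 by linear_combination s x x)).resolve_left h2
  have H := span4 hd (a := a) (b := b) (c := x₀) (d := z₀) fun α β γ δ e => by
    have e1 := congrArg (ω · z₀) e
    have e2 := congrArg (ω · x₀) e
    simp [h1, z s, h0, s z₀ x₀] at e1 e2
    simpa [e1, e2] using hab α β (by simpa [e1, e2] using e)
  refine ⟨ω' x₀ z₀ / ω x₀ z₀, fun x y => ?_⟩
  obtain ⟨_, _, _, _, rfl⟩ := H x
  obtain ⟨_, _, _, _, rfl⟩ := H y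
  simp [h1, h1', z s, z s', s z₀ x₀, s' z₀ x₀, s x₀ a, s x₀ b, s z₀ a, s z₀ b, s' x₀ a, s' x₀ b, s' z₀ a, s' z₀ b]
  field_simp

variable {φ : Form F V} [φ.Nondeg] [FiniteDimensional F V] [Finite F]

namespace R4
variable {K : Subfield F} {L : Submodule K V} {M : Subgroup φ.Isom} {θ : F} (h : R4 φ K L M θ)
  {p f u w z y a b : V} {s c t : F} {g k : φ.Isom}
include h

theorem beta : ∃ β : V →ₗ[F] V →ₗ[F] F, (∀ a ∈ L, β a = φ.B a) ∧ ∀ x z, β x z = β z x := by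
  have := RatS.finiteDim (L := L)
  let b := Module.finBasis K L
  let v := basisOfTopLeSpanOfCardEqFinrank (R := F) (fun i => (b i : V)) (h.rat.span.ge.trans (Submodule.span_le.2 fun x hx => by
    rw [show x = (⟨x, hx⟩ : L).1 from rfl, ← b.sum_repr ⟨x, hx⟩, Submodule.coe_sum]
    exact Submodule.sum_mem _ fun i _ => Submodule.smul_mem _ (b.repr _ i).1 (Submodule.subset_span ⟨i, rfl⟩))) (by simp [h.rat.rank])
  have h1 : ∀ a ∈ L, v.constr F (fun i => φ.B (b i)) a = φ.B a := fun x hx => by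
    rw [show x = (⟨x, hx⟩ : L).1 from rfl, ← b.sum_repr ⟨x, hx⟩, Submodule.coe_sum, map_sum, map_sum]
    refine Finset.sum_congr rfl fun i _ => ?_
    rw [Submodule.coe_smul, Subfield.smul_def, map_smul, LinearMap.map_smulₛₗ, (h.fix _).1 (b.repr _ i).2,
      show (b i : V) = v i by simp [v], Basis.constr_basis]
    simp [v]
  refine ⟨_, h1, fun x z => ?_⟩
  generalize v.constr F (fun i => φ.B (b i)) = β at h1
  exact LinearMap.congr_fun₂ (LinearMap.ext_on h.rat.span (f := β) (g := β.flip) fun a ha => LinearMap.ext_on h.rat.span fun b hb => by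
    rw [LinearMap.flip_apply, h1 a ha, h1 b hb, h.comm ha hb]) x z

theorem invL (hk : ∀ x ∈ L, k.1 x ∈ L) : ∀ x ∈ L, (k⁻¹).1 x ∈ L := fun x hx => h.rat.mem_of_B fun z hz => by
  rw [← Isom.B_map k, Isom.apply_inv_apply]; exact h.rat.B_mem _ hx _ (hk z hz)

theorem ex_t (ha : a ∈ L) (hb : b ∈ L) (h1 : b ∉ F ∙ a) (a0 : a ≠ 0) (hQ : φ.Q a = θ * θ * φ.Q b) :
    ∃ t ∈ M, t.1 a = a ∧ t.1 b = b ∧ (∀ x ∈ L, t.1 x ∈ L) ∧ ∃ x z, φ.B z (t.1 x) ≠ φ.B (t.1 z) x := by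
  have h2 := h.two
  by_cases hd : φ.B a a * φ.B b b - φ.B a b * φ.B b a = 0
  · rw [← h.herm.Q_eq, ← h.herm.Q_eq, hQ, h.comm hb ha] at hd
    have i1 := h.rat.B_mem _ ha _ hb
    have i2 := h.rat.Q_mem _ hb
    obtain ⟨e1, e2⟩ : φ.B a b = 0 ∧ φ.Q b = 0 := by
      rcases mul_eq_zero.1 (show (φ.B a b + θ * φ.Q b) * (φ.B a b + θ * -φ.Q b) = 0 by linear_combination -hd) with e | e
      · exact h.z2 i1 i2 e
      · simpa using h.z2 i1 (K.neg_mem i2) e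
    rw [e2, mul_zero] at hQ
    have e3 : φ.T 0 = φ.Q b := by simp [e2]
    obtain ⟨x, hx, x1, x2⟩ := h.sep1 ha hb h1
    obtain ⟨z, hz, -, z2⟩ := h.sep1 L.zero_mem ha (by simpa using a0)
    refine ⟨_, h.sgm' ha hb K.zero_mem hQ e1 e3, siegel_apply_self hQ e1 e3,
      siegel_apply_of_orth hQ e1 e3 e1 (φ.B_self_eq_zero e2), h.sgL ha hb K.zero_mem hQ e1 e3, x, z, ?_⟩
    rw [h.sg hQ e1 e3, h.sg hQ e1 e3]
    simp [h.comm hb hx, h.comm ha hx, h.comm ha hz, x1, x2, z2]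
    intro e; exact h2 (by linear_combination e)
  obtain ⟨e, he, e1, e2, e3⟩ := h.nons ha hb hd
  obtain ⟨u, hu, u0, u1, u2⟩ := h.exo ha hb he
  obtain ⟨u, hu, u0, u1, u2, u3⟩ : ∃ u ∈ L, u ≠ 0 ∧ φ.B a u = 0 ∧ φ.B b u = 0 ∧ φ.B e u = 0 :=
    ⟨_, L.sub_mem hu (RatS.smul_mem (K.div_mem (h.rat.B_mem _ he _ hu) (h.rat.Q_mem _ he)) he),
      fun e => u0 (sub_eq_zero.1 e ▸ Submodule.smul_mem _ _ (Submodule.mem_span_singleton_self _)), by simp [u1, e1], by simp [u2, e2],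
      by simp [← h.herm.Q_eq, e3]⟩
  obtain ⟨u, hu, u0, u1, u2, u3, u4⟩ : ∃ u ∈ L, u ≠ 0 ∧ φ.B a u = 0 ∧ φ.B b u = 0 ∧ φ.B e u = 0 ∧ φ.Q (e + u) ≠ 0 := by
    by_cases q : φ.Q (e + u) = 0
    · obtain ⟨l, l1, l2, l3⟩ := h.big
      refine ⟨l • u, RatS.smul_mem l1 hu, smul_ne_zero l2 u0, by simp [u1], by simp [u2], by simp [u3], fun q' => ?_⟩
      rw [φ.Q_add_of_orth (by simp [u3]), φ.Q_smul, (h.fix l).1 l1] at q'
      rw [φ.Q_add_of_orth u3] at q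
      exact mul_ne_zero (sub_ne_zero.2 l3) e3 (by linear_combination l * l * q - q')
    · exact ⟨u, hu, u0, u1, u2, u3, q⟩
  have r : ∀ v ∈ L, φ.Q v ≠ 0 → ∃ r : φ.Isom, LinearMap.det (r.1 : V →ₗ[F] V) = -1 ∧ (∀ x ∈ L, r.1 x ∈ L) ∧
      ∀ x, r.1 x = x + (-2 / φ.Q v * φ.B v x) • v := fun v hv v0 => by
    have i := K.div_mem (K.neg_mem (ofNat_mem K 2)) (h.rat.Q_mem _ hv)
    have c : φ.T (φ.ε * (-2 / φ.Q v)) + φ.σ (-2 / φ.Q v) * (-2 / φ.Q v) * φ.Q v = 0 := by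
      rw [h.herm.ε_eq, one_mul, h.herm.T_eq, (h.fix _).1 i]; field_simp; ring
    refine ⟨φ.quasi v _, by rw [φ.det_quasi c, ← h.herm.Q_eq]; field_simp; ring, fun x hx => ?_, φ.quasi_apply c⟩
    rw [φ.quasi_apply c]
    exact add_mem hx (RatS.smul_mem (K.mul_mem i (h.rat.B_mem _ hv _ hx)) hv)
  obtain ⟨r1, a1, b1, c1⟩ := r e he e3
  obtain ⟨r2, a2, b2, c2⟩ := r _ (L.add_mem he hu) u4
  obtain ⟨z, hz, z1, z2⟩ := h.sep1 he hu fun q => by
    obtain ⟨c, rfl⟩ := Submodule.mem_span_singleton.1 q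
    simp [← h.herm.Q_eq, e3] at u3; simp [u3] at u0
  have k : ∀ x ∈ L, (r1 * r2).1 x ∈ L := fun x hx => b1 _ (b2 x hx)
  refine ⟨r1 * r2, h.mem _ (φ.mem_SIsom.2 ?_) 1 one_ne_zero (by simpa using k), ?_, ?_, k, e, z, ?_⟩
  · rw [show ((r1 * r2).1 : V →ₗ[F] V) = (r1.1 : V →ₗ[F] V) ∘ₗ r2.1 from rfl, LinearMap.det_comp, a1, a2]; simp
  · simp [c1, c2, φ.B_symm_zero e1, φ.B_symm_zero u1]
  · simp [c1, c2, φ.B_symm_zero e2, φ.B_symm_zero u2]
  · have i := (h.fix _).1 (h.rat.Q_mem _ (L.add_mem he hu))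
    have i' := (h.fix _).1 (h.rat.Q_mem _ he)
    generalize φ.Q (e + u) = m at *
    simp [c1, c2, ← h.herm.Q_eq, z1, z2, u3, φ.B_symm_zero u3, h.comm he hz, h.comm hu hz, map_ofNat, i, i']
    field_simp
    simp [h2, e3, u4]

theorem sing_ne (hu : u ∈ L) (u0 : u ≠ 0) : ∃ y ∈ L, φ.Q y = 0 ∧ φ.B u y ≠ 0 := by
  by_contra! H
  obtain ⟨e, he, f, hf, hyp, -⟩ := h.rat.exists_hyp h.sing [] [] (by simp) (by simp) (by simp [h.dim])
  obtain ⟨y, hy, -, h5⟩ := h.sep1 L.zero_mem hu (by simpa using u0)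
  have h6 := L.sub_mem (L.sub_mem hy (RatS.smul_mem (h.rat.B_mem _ hf _ hy) he)) (RatS.smul_mem (h.rat.B_mem _ he _ hy) hf)
  obtain ⟨h7, h8⟩ := h.half h6
  have h9 := hyp.proj_mem y
  rw [h.herm.ε_eq, one_mul] at h9
  have h10 := H _ (L.add_mem (L.add_mem he (RatS.smul_mem (K.neg_mem h7) hf)) h6)
    (by simpa [h8] using hyp.Q_comb 1 (-(φ.Q (y - φ.B f y • e - φ.B e y • f) / 2)) h9)
  simp [H e he hyp.Qe, H f hf hyp.Qf, h.comm hu hy, h5] at h10

theorem fin (hE : ¬ φ.E ≤ M) (hg : g ∈ M) : ∃ c : F, c ≠ 0 ∧ ∀ x ∈ L, c • g.1 x ∈ L := by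
  by_contra H
  have h2 := h.two
  have H0 : ∀ y ∈ L, φ.Q y = 0 → y ≠ 0 → ∀ c : F, c ≠ 0 → c • g.1 y ∉ L := fun y hy a b c c0 e => H ⟨c, c0, h.pt hE hg hy a b c0 e⟩
  obtain ⟨β, β1, β2⟩ := h.beta
  let A : F → Submodule K V := fun ν =>
    { carrier := {e | e ∈ L ∧ ∀ z, β (g.1 e) (g.1 z) = ν * φ.B e z}
      zero_mem' := ⟨L.zero_mem, by simp⟩
      add_mem' := fun a b => ⟨L.add_mem a.1 b.1, fun z => by simp [a.2 z, b.2 z, mul_add]⟩
      smul_mem' := fun c x a => ⟨L.smul_mem c a.1, fun z => by simp [Subfield.smul_def, a.2 z, (h.fix _).1 c.2, mul_left_comm]⟩ }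
  have A1 : ∀ ν, ∀ e ∈ A ν, e ≠ 0 → φ.Q e ≠ 0 := fun ν e he e0 q => by
    obtain ⟨a, ha, b, hb, e1⟩ := h.dec (g.1 e)
    have e2 : a - θ • b = φ.σ ν • g.1 e := φ.ext_B_left fun z => by
      obtain ⟨z, rfl⟩ := g.1.surjective z
      rw [B_smul_left, σ_σ, Isom.B_map, ← he.2, e1]; simp [β1 a ha, β1 b hb, h.θσ]
    by_cases c : 1 + φ.σ ν = 0
    · refine H0 e he.1 q e0 θ⁻¹ (inv_ne_zero h.θ0) ?_
      have : a = 0 := (smul_eq_zero.1 (show (2 : F) • a = 0 by linear_combination (norm := module) e2 - e1 + c • g.1 e)).resolve_left h2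
      rwa [e1, this, zero_add, inv_smul_smul₀ h.θ0]
    · refine H0 e he.1 q e0 _ c ?_
      convert L.add_mem ha ha using 1
      linear_combination (norm := module) e1 - e2
  have inv : ∀ k : φ.Isom, (∀ x ∈ L, k.1 x ∈ L) → ∀ x z, β (k.1 x) (k.1 z) = β x z := fun k hk x z =>
    LinearMap.congr_fun₂ (LinearMap.ext_on h.rat.span (f := β.compl₁₂ (k.1 : V →ₗ[F] V) (k.1 : V →ₗ[F] V)) (g := β) fun a ha => LinearMap.ext fun z => by
      simp [β1 a ha, β1 _ (hk a ha)]) x z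
  have pkg : ∀ y ∈ L, φ.Q y = 0 → y ≠ 0 → ∃ ν, ∃ e ∈ A ν, ∃ e' ∈ A ν, e ≠ 0 ∧ e' ≠ 0 ∧ φ.B e e' = 0 ∧ φ.B e y = 0 ∧ φ.B e' y = 0 := by
    intro y hy q y0
    obtain ⟨a, ha, b, hb, e1⟩ := h.dec (g.1 y)
    have a0 : a ≠ 0 := by
      rintro rfl
      exact H0 y hy q y0 θ⁻¹ (inv_ne_zero h.θ0) (by rwa [e1, zero_add, inv_smul_smul₀ h.θ0])
    have b0 : b ∉ F ∙ a := fun e => by
      obtain ⟨c, rfl⟩ := Submodule.mem_span_singleton.1 e
      have c0 : 1 + θ * c ≠ 0 := fun e => y0 (g.1.injective (by rw [e1, map_zero]; linear_combination (norm := module) e • a))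
      refine H0 y hy q y0 _ (inv_ne_zero c0) ?_
      rwa [e1, show a + θ • c • a = (1 + θ * c) • a by module, inv_smul_smul₀ c0]
    have q1 : φ.Q a = θ * θ * φ.Q b := by
      rw [← Isom.Q_map g, e1, φ.Q_add, φ.Q_smul, map_smul, h.herm.T_eq, smul_eq_mul, map_mul, h.θσ,
        (h.fix _).1 (h.rat.B_mem _ ha _ hb)] at q
      linear_combination q
    obtain ⟨t, ht, t1, t2, t3, x0, z0, t4⟩ := h.ex_t ha hb b0 a0 q1
    have hk : g⁻¹ * t * g ∈ M := M.mul_mem (M.mul_mem (M.inv_mem hg) ht) hg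
    have k0 : ∀ x, g.1 ((g⁻¹ * t * g).1 x) = t.1 (g.1 x) := fun x => by simp
    generalize g⁻¹ * t * g = k at hk k0
    have k1 : k.1 y = y := g.1.injective (by rw [k0, e1, map_add, map_smul, t1, t2])
    have k2 : ∀ x ∈ L, k.1 x ∈ L := by simpa using h.pt hE hk hy q y0 one_ne_zero (by rwa [k1, one_smul])
    let S : V →ₗ[F] V := (k.1 : V →ₗ[F] V) - ((k⁻¹).1 : V →ₗ[F] V)
    have S1 : ∀ x ∈ L, S x ∈ L := fun x hx => L.sub_mem (k2 x hx) (h.invL k2 x hx)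
    have S2 : ∀ x, k.1 x = x → S x = 0 := fun x e => by
      simp only [S, LinearMap.sub_apply, LinearEquiv.coe_coe]; nth_rw 2 [← e]; rw [Isom.inv_apply_apply, e, sub_self]
    have S3 : ∀ γ : V →ₗ[F] V →ₗ[F] F, (∀ x z, γ x z = γ z x) → (∀ x z, γ (k.1 x) (k.1 z) = γ x z) → ∀ x z,
        (γ ∘ₗ S) x z = -(γ ∘ₗ S) z x := fun γ a b x z => by
      have e1 := b x ((k⁻¹).1 z)
      have e2 := b ((k⁻¹).1 x) z
      simp only [Isom.apply_inv_apply] at e1 e2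
      simp only [S, LinearMap.comp_apply, LinearMap.sub_apply, LinearEquiv.coe_coe, map_sub]
      linear_combination e1 + e2 + a (k.1 z) x - a ((k⁻¹).1 z) x
    have S4 := S3 β β2 (inv k k2)
    obtain ⟨x, hx, x0⟩ : ∃ x ∈ L, S x ≠ 0 := by
      by_contra! e
      have e3 := LinearMap.congr_fun (LinearMap.ext_on h.rat.span (f := S) (g := 0) e) ((g⁻¹).1 x0)
      obtain ⟨x0, rfl⟩ := g.1.surjective x0
      obtain ⟨z0, rfl⟩ := g.1.surjective z0
      rw [Isom.inv_apply_apply] at e3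
      rw [← k0, ← k0, Isom.B_map, Isom.B_map, show k.1 x0 = (k⁻¹).1 x0 from sub_eq_zero.1 e3, ← Isom.B_map k, Isom.apply_inv_apply] at t4
      exact t4 rfl
    obtain ⟨z, hz⟩ := φ.exists_B_ne_zero x0
    have ka : S ((g⁻¹).1 a) = 0 := S2 _ (g.1.injective (by rw [k0, Isom.apply_inv_apply, t1]))
    have kb : S ((g⁻¹).1 b) = 0 := S2 _ (g.1.injective (by rw [k0, Isom.apply_inv_apply, t2]))
    obtain ⟨ν, hν⟩ := prop4 h.dim h2 (a := (g⁻¹).1 a) (b := (g⁻¹).1 b) (x₀ := x) (z₀ := z) (fun α γ e => by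
        have e := congrArg g.1 e
        simp only [map_add, map_smul, Isom.apply_inv_apply, map_zero] at e
        by_cases c : γ = 0
        · simpa [c, a0] using e
        · exact absurd (Submodule.mem_span_singleton.2 ⟨-α / γ, smul_right_injective V c (by
            simp only [smul_smul, mul_div_cancel₀ _ c]; linear_combination (norm := module) -e)⟩) b0)
      S4 (S3 (β.compl₁₂ (g.1 : V →ₗ[F] V) (g.1 : V →ₗ[F] V)) (fun x z => β2 _ _) fun x z => by simp [k0, inv t t3]) (by simp only [LinearMap.comp_apply, ka, kb, map_zero, and_self])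
      (by simp only [LinearMap.comp_apply, ka, kb, map_zero, and_self])
      (by rwa [LinearMap.comp_apply, β1 _ (S1 x hx)])
    have m : ∀ x ∈ L, S x ∈ A ν := fun x hx => ⟨S1 x hx, fun z => by simpa [β1 _ (S1 x hx)] using hν x z⟩
    have S5 : ∀ x ∈ L, ∀ z ∈ L, φ.B (S x) z = -φ.B (S z) x := fun x hx z hz => by
      simpa [β1 _ (S1 x hx), β1 _ (S1 z hz)] using S4 x z
    refine ⟨ν, _, m x hx, _, m _ (S1 x hx), x0, fun e => A1 ν _ (m x hx) x0 ?_, φ.B_symm_zero ?_, ?_, ?_⟩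
    · rw [h.herm.Q_eq, S5 x hx _ (S1 x hx), e]; simp
    · exact (mul_eq_zero.1 (show (2 : F) * _ = 0 by linear_combination S5 _ (S1 x hx) _ (S1 x hx))).resolve_left h2
    · rw [S5 x hx y hy, S2 y k1]; simp
    · rw [S5 _ (S1 x hx) y hy, S2 y k1]; simp
  obtain ⟨y, hy, f, -, hyp, -⟩ := h.rat.exists_hyp h.sing [] [] (by simp) (by simp) (by simp [h.dim])
  obtain ⟨ν, e, he, e', he', e0, e0', o, -⟩ := pkg y hy hyp.Qe (by rintro rfl; simpa using hyp.Bef)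
  obtain ⟨y, hy, q, y0⟩ := h.sing_ne he.1 e0
  obtain ⟨μ, d, hd, d', hd', d0, d0', o', o1, o2⟩ := pkg y hy q (by rintro rfl; simp at y0)
  have n := fun ν e he e0 => h.herm.Q_eq e ▸ A1 ν e he e0
  by_cases c : ν = μ
  · subst c
    have := RatS.finiteDim (L := L)
    have li : LinearIndependent K ![(⟨d, hd.1⟩ : L), ⟨d', hd'.1⟩, ⟨e, he.1⟩] := Fintype.linearIndependent_iff.2 fun c e1 i => by
      have e1 := congrArg Subtype.val e1
      simp only [Fin.sum_univ_three, Matrix.cons_val, Submodule.coe_add, Submodule.coe_smul, Subfield.smul_def, Submodule.coe_zero] at e1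
      have e2 := congrArg (φ.B y) e1
      simp [φ.B_symm_zero o1, φ.B_symm_zero o2, mt φ.B_symm_zero y0] at e2
      have e3 := congrArg (φ.B d) e1
      have e4 := congrArg (φ.B d') e1
      simp [e2, o', φ.B_symm_zero o', n _ _ hd d0, n _ _ hd' d0'] at e3 e4
      fin_cases i <;> assumption
    obtain ⟨v, h1, v0, h3⟩ := h.sing _ ((finrank_span_eq_card li).ge.trans' (by simp))
    refine A1 ν v ((Submodule.span_le (p := (A ν).comap L.subtype)).2 ?_ h1) (by simpa using v0) h3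
    rintro _ ⟨i, rfl⟩
    fin_cases i <;> assumption
  · have or : ∀ e ∈ A ν, ∀ d ∈ A μ, φ.B e d = 0 := fun e he d hd =>
      (mul_eq_zero.1 (show (ν - μ) * _ = 0 by rw [sub_mul, ← he.2, β2, hd.2, h.comm hd.1 he.1, sub_self])).resolve_left (sub_ne_zero.2 c)
    have s := fun e he d hd => φ.B_symm_zero (or e he d hd)
    obtain ⟨α, γ, δ, ε, e1⟩ := span4 h.dim (a := e) (b := e') (c := d) (d := d') (fun α γ δ ε e1 => by
      have e2 := congrArg (φ.B e) e1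
      have e3 := congrArg (φ.B e') e1
      have e4 := congrArg (φ.B d) e1
      have e5 := congrArg (φ.B d') e1
      simp [o, o', φ.B_symm_zero o, φ.B_symm_zero o', or, s, he, he', hd, hd', n _ _ hd d0, n _ _ hd' d0', n _ _ he e0,
        n _ _ he' e0'] at e2 e3 e4 e5
      exact ⟨e2, e3, e4, e5⟩) y
    have e2 := h.rat.B_mem _ he.1 _ hy
    have e3 := h.rat.B_mem _ he'.1 _ hy
    rw [e1] at e2 e3 o1 o2
    simp [o, o', φ.B_symm_zero o, φ.B_symm_zero o', or, s, he, he', hd, hd', n _ _ hd d0, n _ _ hd' d0'] at e2 e3 o1 o2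
    rw [mul_comm] at e2 e3
    refine A1 ν y ?_ (by rintro rfl; simp at y0) q
    rw [e1, o1, o2, zero_smul, zero_smul, add_zero, add_zero]
    exact add_mem ((A ν).smul_mem ⟨α, mem_of_mul_mem e2 (h.rat.B_mem _ he.1 _ he.1) (n _ _ he e0)⟩ he)
      ((A ν).smul_mem ⟨γ, mem_of_mul_mem e3 (h.rat.B_mem _ he'.1 _ he'.1) (n _ _ he' e0')⟩ he')

end R4

end H11.Su48

namespace H11

open Module H10 H10.Form H22.Su H11.Su48

theorem su4_8 {F : Type*} [Field F] [Fintype F] {q : ℕ} (hF : Fintype.card F = q ^ 2) :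
    (Odd q → 5 ≤ q → ∀ (F₀ : Subfield F) (P : Matrix.GeneralLinearGroup (Fin 4) F), Fintype.card F = Nat.card F₀ ^ 2 → Cfsg.Geo.IsFormRationalStructure (Cfsg.hermForm 4 F q) F₀ 1 P → Cfsg.Geo.IsMaximalIn (Cfsg.GU 4 F q ⊓ Cfsg.Geo.specialLinear (Fin 4) F) (Cfsg.Geo.subfieldSubgroup F₀ P ⊓ (Cfsg.GU 4 F q ⊓ Cfsg.Geo.specialLinear (Fin 4) F))) := by
  intro hodd hq F₀ P hcard hP
  have hF' : Nat.card F = q ^ 2 := by rw [Nat.card_eq_fintype_card, hF]
  have h0 := H10.stdU_isUnitary hF' 4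
  have hK := H10.finrank_eq_of_card hcard
  have hq' : q = Nat.card F₀ := Nat.pow_left_injective two_ne_zero (hF.symm.trans hcard)
  have h1 : ∀ a ∈ F₀, (H10.stdU hF' 4).σ a = a := fun a ha => by
    have := Fintype.ofFinite F₀
    rw [h0.σ_eq, hq', Nat.card_eq_fintype_card]
    exact congrArg Subtype.val (FiniteField.pow_card (⟨a, ha⟩ : F₀))
  have h2 : (2 : F) ≠ 0 := H10.two_ne_zero_of_odd_card (hF ▸ hodd.pow)
  have h3 : ∀ a, a ∈ F₀ ↔ (H10.stdU hF' 4).σ a = a := fun a => ⟨h1 a, fun ha => by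
    have := Subalgebra.isSimpleOrder_of_finrank_prime F₀ F (hK ▸ Nat.prime_two)
    let A : Subalgebra F₀ F :=
      { (H10.stdU hF' 4).σ.eqLocus (RingHom.id F) with algebraMap_mem' := fun a => h1 a a.2 }
    rcases eq_bot_or_eq_top A with h3 | h3
    · obtain ⟨b, rfl⟩ := Algebra.mem_bot.1 (h3.le ha)
      exact b.2
    · obtain ⟨b, hb⟩ := h0.exists_σ_ne
      exact absurd (h3.ge Algebra.mem_top) hb⟩
  have h4 : (H10.stdU hF' 4).RatS F₀ (H10.ratL F₀ P) :=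
    H10.ratS_of (fun a ha => (h1 a ha).symm ▸ ha)
      (fun u v hu hv => by simpa [H10.stdU_B] using hP v u hv hu)
      (fun u hu => by simpa [H10.stdU_Q] using hP u u hu hu)
      (fun a ha => by rw [h0.herm.T_eq, h1 a ha]; exact F₀.add_mem ha ha) fun x _ hx => by
        have := F₀.div_mem hx (F₀.add_mem F₀.one_mem F₀.one_mem)
        refine ⟨_, this, ?_⟩
        rw [h0.herm.T_eq, h1 _ this, one_add_one_eq_two]; field_simp; ring
  have h5 : (H10.stdU hF' 4).RSing F₀ (H10.ratL F₀ P) := fun W hW => by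
    obtain ⟨v, h8, h9, h10⟩ := (H10.Form.isQuad_ofQuad (LinearMap.BilinMap.toQuadraticMap
      (LinearMap.mk₂ F₀ (fun x y => h4.form.B x y) (by simp) (fun c x y => Subtype.ext (by
        simp [h1 c c.2])) (by simp) (by simp)))).exists_singular hW
    exact ⟨v, h8, h9, (h0.herm.Q_eq _).trans (congrArg Subtype.val h10)⟩
  have big : ∃ l ∈ F₀, l ≠ 0 ∧ l * l ≠ 1 := by
    classical
    by_contra! H
    have := Nat.card_le_card_of_injective (fun a : F₀ => (⟨a.1, by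
      by_cases e : a.1 = 0
      · simp [e]
      · rcases mul_self_eq_one_iff.1 (H _ a.2 e) with e | e <;> simp [e]⟩ : ({0, 1, -1} : Finset F)))
      fun a b e => Subtype.ext (by simpa using e)
    rw [Nat.card_eq_fintype_card (α := ({0, 1, -1} : Finset F)), Fintype.card_coe] at this
    have := Finset.card_le_three (a := (0 : F)) (b := 1) (c := -1)
    omega
  obtain ⟨θ, θ0, θ1⟩ := h0.exists_skew
  have θ2 : (H10.stdU hF' 4).σ θ = -θ := by rw [h0.herm.T_eq] at θ1; exact eq_neg_of_add_eq_zero_right θ1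
  rw [H10.SU_eq_E hF' (by omega)]
  have hS := h0.E_eq_SIsom (by simp)
  set φ := H10.stdU hF' 4
  refine isMaximalIn_map _ (fun h6 => ?_) fun M hM g hg hgE hg' => ?_
  · have t : R4 φ F₀ (H10.ratL F₀ P) φ.SIsom θ := ⟨h4, h5, by simp, h0.herm, h2, h3, θ0, θ2, big, le_rfl, fun k hk _ _ _ => hk⟩
    obtain ⟨p, hp, f, hf, hyp, -⟩ := h4.exists_hyp h5 [] [] (by simp) (by simp) (by simp)
    have q3 : φ.T θ = φ.Q 0 := by simpa using θ1
    obtain ⟨d, hd, h7⟩ := mem_subfieldSubgroup_iff.1 (h6 (φ.siegel_mem_E (p := p) hyp.Qe (by simp) q3))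
    simp only [toGL_mulVec] at h7
    have h8 := h4.B_mem _ hf _ (h7 p hp)
    have h9 := h4.B_mem _ hf _ (h7 f hf)
    rw [Form.siegel_apply_self hyp.Qe (by simp) q3] at h8
    rw [t.sg hyp.Qe (by simp) q3] at h9
    simp [hyp.Bef, hyp.Bfe, hyp.Bff, h0.herm.ε_eq] at h8 h9
    exact θ0 (t.skew0 (Form.mem_of_mul_mem h9 h8 hd) θ2)
  · by_contra hE
    refine hg' (mem_subfieldSubgroup_iff.2 ?_)
    have t : R4 φ F₀ (H10.ratL F₀ P) (M ⊓ φ.E) θ := ⟨h4, h5, by simp, h0.herm, h2, h3, θ0, θ2, big, inf_le_right.trans hS.le,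
      fun k hk c c0 e => ⟨hM ⟨hS.ge hk, mem_subfieldSubgroup_iff.2 ⟨c, c0, by simpa only [toGL_mulVec] using e⟩⟩, hS.ge hk⟩⟩
    simpa only [toGL_mulVec] using t.fin (fun e => hE (e.trans inf_le_left)) ⟨hg, hgE⟩

end H11
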