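import Cfsg.Agent.L.Jt0

/-! Part V of the 3-local cluster of Janko-four type (namespace `H11.TV`). -/

set_option autoImplicit false

namespace H11.TV
open Subgroup
universe u

theorem v : L.Jt.VStmt.{u} := by
  intro G _ _ A N B D z δ c nb xb δN δz δ3 c32 hB hc
  classical
  have ex : ∀ x ∈ A ⊓ centralizer {δ}, x ≠ 1 → x ≠ z → (x ∈ D ↔ x * z ∉ D) := fun x hx n1 nz => by
    have nB : x ∉ B := fun q => (hB x q hx.2).elim n1 nz
    exact ⟨fun a b => nB (nb.a x a b), fun a => (hc x hx.1 hx.2 nB).resolve_right a⟩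
  have zδ : z ∈ centralizer {δ} := mem_centralizer_singleton_iff.2 (mem_centralizer_singleton_iff.1 δz).symm
  have zz := c.sq z (c.BA c.zB)
  have pk : ∀ a b e : G, ∃ r ∈ D, r ∈ centralizer {δ} ∧ r ≠ a ∧ r ≠ b ∧ r ≠ e := fun a b e => by
    obtain ⟨x, hx, hn⟩ : ∃ x ∈ A ⊓ centralizer {δ}, x ∉ [1, z, a, b, e, a * z, b * z, e * z].toFinset := by
      by_contra! h
      have := Nat.card_le_card_of_injective (fun x : ↥(A ⊓ centralizer {δ}) => (⟨x.1, h x.1 x.2⟩ : [1, z, a, b, e, a * z, b * z, e * z].toFinset))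
        fun x y q => Subtype.ext (congrArg (fun w => w.1) q)
      rw [c32, Nat.card_eq_fintype_card, Fintype.card_coe] at this
      have := this.trans (List.toFinset_card_le _)
      simp at this
    simp only [List.mem_toFinset, List.mem_cons, not_or] at hn
    obtain ⟨n1, n2, n3, n4, n5, n6, n7, n8, -⟩ := hn
    by_cases q : x ∈ D
    · exact ⟨x, q, hx.2, n3, n4, n5⟩
    · have k : ∀ y, x ≠ y * z → x * z ≠ y := fun y h e => h (by rw [← e, mul_assoc, zz, mul_one])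
      exact ⟨x * z, not_not.1 fun a => q ((ex x hx n1 n2).2 a), mul_mem (mem_inf.1 hx).2 zδ, k _ n6, k _ n7, k _ n8⟩
  obtain ⟨t, ht, tδ, -⟩ := pk 1 1 1
  refine ⟨ex, ?_, ?_⟩
  · by_contra! h
    obtain ⟨s, hs, sδ, st, -⟩ := pk t t t
    obtain ⟨r, hr, rδ, rs, rt, rst⟩ := pk s t (s * t)
    have a := h s hs sδ r hr rδ rs.symm
    exact (xb.one t ht s hs r hr (h s hs sδ t ht tδ st) (h r hr rδ t ht tδ rt) rs rst).1 a
      (h _ a (mul_mem sδ rδ) t ht tδ fun e => rst (by rw [← e, ← mul_assoc, c.sq s (c.DA s hs).1, one_mul]))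
  · have := Fact.mk Nat.prime_three
    have := Fintype.ofFinite {s | s ∈ D ∧ s * t ∈ D}
    have tt : δ * t * δ⁻¹ = t := by rw [← mem_centralizer_singleton_iff.1 tδ, mul_inv_cancel_right]
    let f : Function.End {s | s ∈ D ∧ s * t ∈ D} := fun s => ⟨δ * s * δ⁻¹, c.Dc δ δN _ s.2.1, by
      have := c.Dc δ δN _ s.2.2
      rwa [← conj_mul, tt] at this⟩
    have e := Equiv.Perm.card_fixedPoints_modEq (f := f) (p := 3) (n := 1) (funext fun s => Subtype.ext (by
      show δ * (δ * (δ * s * δ⁻¹) * δ⁻¹) * δ⁻¹ = s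
      calc _ = δ ^ 3 * s * (δ ^ 3)⁻¹ := by rw [pow_three]; group
        _ = s := by rw [← δ3, pow_orderOf_eq_one]; simp))
    rw [← Nat.card_eq_fintype_card, Nat.card_coe_set_eq, nb.b t ht] at e
    obtain ⟨⟨s, hs⟩⟩ := Fintype.card_pos_iff.1 (Nat.pos_of_ne_zero fun q : Fintype.card (Function.fixedPoints f) = 0 => by
      rw [q] at e; exact absurd e (by decide))
    exact ⟨s, s.2.1, mem_centralizer_singleton_iff.2 (mul_inv_eq_iff_eq_mul.1 (congrArg Subtype.val hs)).symm, t, ht, tδ, s.2.2⟩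

end H11.TV
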