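import Cfsg.Agent.L.Jt0

/-! Part W1 of the 3-local cluster of Janko-four type (namespace `H11.TW1`). -/

set_option autoImplicit false

namespace H11.TW1
open Subgroup
universe u

theorem w1 : L.Jt.W1Stmt.{u} := by
  intro G _ _ A N B D z δ c v n hn hδ
  by_contra ne
  have pb : ∀ x ∈ centralizer {δ}, n⁻¹ * x * n⁻¹⁻¹ ∈ centralizer {δ} := fun x hx => mem_centralizer_singleton_iff.2 (by
    have : Commute x (n * δ * n⁻¹) := by
      obtain ⟨k, hk⟩ := hδ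
      rw [← hk]; exact (show Commute x δ from mem_centralizer_singleton_iff.1 hx).zpow_right k
    calc n⁻¹ * x * n⁻¹⁻¹ * δ = n⁻¹ * (x * (n * δ * n⁻¹)) * n := by group
      _ = _ := by rw [this.eq]; group)
  have aδ : n * z * n⁻¹ ∈ centralizer {δ} := by
    obtain ⟨k, hk⟩ := (eq_of_le_of_card_ge (zpowers_le.2 hδ) (by
      rw [Nat.card_zpowers, Nat.card_zpowers]; exact ((MulAut.conj n).orderOf_eq δ).ge)).ge (mem_zpowers δ)
    have : Commute (n * z * n⁻¹) (n * δ * n⁻¹) := by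
      have := mem_centralizer_singleton_iff.1 v.δz
      calc n * z * n⁻¹ * (n * δ * n⁻¹) = n * (z * δ) * n⁻¹ := by group
        _ = _ := by rw [← this]; group
    have := this.zpow_right k
    rw [show (n * δ * n⁻¹) ^ k = δ from hk] at this
    exact mem_centralizer_singleton_iff.2 this.eq
  have nz : ∀ s ∈ D, s ∈ centralizer {δ} → ∀ t ∈ D, s * t ≠ z := fun s hs sδ t ht e =>
    (v.ex s ⟨(c.DA s hs).1, sδ⟩ (c.DA s hs).2 fun q => c.zD (q ▸ hs)).1 hs (by rwa [← e, ← mul_assoc, c.sq s (c.DA s hs).1, one_mul])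
  have bk : ∀ m ∈ N, ∀ x, m * x * m⁻¹ ∈ D → x ∈ D := fun m hm x h => by simpa [mul_assoc] using c.Dc _ (inv_mem hm) _ h
  have aA : n * z * n⁻¹ ∈ A ⊓ centralizer {δ} := ⟨c.nM n hn z (c.BA c.zB), aδ⟩
  have a1 : n * z * n⁻¹ ≠ 1 := fun e => c.z1 (conj_eq_one_iff.1 e)
  obtain ⟨s, hs, sδ, t, ht, tδ, st, sD⟩ := v.p1
  obtain ⟨m, hm, -, mδ, e | e⟩ := v.tr (s * t) (mem_inf.2 ⟨mul_mem (c.DA s hs).1 (c.DA t ht).1, mul_mem sδ tδ⟩)
    (fun e => st (mul_left_cancel ((c.sq s (c.DA s hs).1).trans e.symm))) (nz s hs sδ t ht) _ aA a1 ne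
  · refine nz _ (c.Dc _ (inv_mem hn) _ (c.Dc m hm s hs)) (pb _ (mul_mem (mul_mem mδ sδ) (inv_mem mδ))) _
      (c.Dc _ (inv_mem hn) _ (c.Dc m hm t ht)) ?_
    calc _ = n⁻¹ * (m * (s * t) * m⁻¹) * n := by group
      _ = z := by rw [e]; group
  · exact c.zD (bk n hn z ((v.ex _ aA a1 ne).2 fun q => sD (bk m hm _ (e ▸ q))))

end H11.TW1
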