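import Cfsg.Agent.H11.Spl
import Cfsg.Agent.L.ML3

/-! The characteristic part of the Schur multiplier of the groups ²Dₙ(q): `DT`, `Fam`, `DT.tc_rad`, `DT.step`. -/

namespace H11
open Cfsg Cfsg.Lie StSys L.RD Matrix Subgroup
open scoped commutatorElement
attribute [-simp] commutatorElement_inv map_commutatorElement zsmul_eq_mul

section gen
variable {D : ChevalleyDatum} [Good D] {K G : Type*} [Field K] [Group G] {S : StSys D K G} {ψ : Node D → ℤ}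

theorem fix_diag {T : Set (Root D)} (hT : Closed T) (hp : ∀ r ∈ T, 0 < fv ψ r) {α : G →* G} {θ : Root D → K → K}
    (h : ∀ r ∈ T, ∀ t, α (S.x r t) = S.x r (θ r t)) {N : Subgroup G} (hN : ∀ r ∈ T, ∀ t, θ r t = t → S.x r t ∈ N) {g : G}
    (hg : g ∈ S.US T) (e : α g = g) : g ∈ N := by
  obtain ⟨ψ', h1, h2⟩ := exists_reg_pos ψ
  obtain ⟨L, hL, hn, -⟩ := exists_list T
  obtain ⟨t, rfl⟩ := exists_prodL hT (fun r a => h2 r (hp r a)) h1 hL hn hg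
  have := prodL_inj' hT (fun r a => h2 r (hp r a)) h1 (fun r => (hL r).1) hn (t := fun r => θ r (t r)) (Eq.trans (by
    rw [prodL, prodL, map_list_prod, List.map_map]; exact congrArg _ (List.map_congr_left fun r a => (h r ((hL r).1 a) _).symm)) e)
  exact Subgroup.list_prod_mem _ (by simpa using fun r a => hN r ((hL r).1 a) _ (this r a))

theorem eq_one_of_lev {g : G} (h : g ∈ S.US {r | 0 < fv ψ r}) (h' : g ∈ S.US {r | fv ψ r ≤ 0}) : g = 1 := by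
  refine θ_inj_US (closed_pos ψ) (fun _ a => a) h (Units.ext (sub_eq_zero.1 (Matrix.ext fun a b => by_contra fun e => ?_)))
  have := tri_of_mem_US (c := 1) zero_le_one (fun _ a => a) h a b e
  have := tri_of_mem_US (ψ := -ψ) le_rfl (fun r (a : fv ψ r ≤ 0) => by rwa [fv_neg, neg_nonneg]) h' a b e
  rw [deg_neg, deg_neg] at this; omega

end gen

variable {N l k : ℕ} {I : Type} [Fintype I] [DecidableEq I] {M : OM N l I (Fin k)} {K G E : Type*} [Field K] [Group G] [Group E]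
  {S : StSys M.dat K G} {σ : MulAut G} {τ : K ≃+* K} {e : Fin k → ℤ} {y : G} {lam : Kˣ} {ι : Type} [Fintype ι] {x : ι → Fin k → ℤ}

variable (M S σ τ e y lam) in
/-- a twisting of type `D` -/
structure DT : Prop where
  crd : Crd M.toMM False 0 0
  two : 1 < k
  ue : U e
  inv : ∀ g, σ (σ g) = g
  fix : ∀ r t, e ⬝ᵥ M.v r = 0 → σ (S.x r t) = S.x r (τ t)
  map : ∀ r, ∃ s, M.v s = M.v r - (2 * (e ⬝ᵥ M.v r)) • e ∧ S.Maps σ.toMonoidHom r s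
  tr : ∀ t, τ t = t → ∃ c, c + τ c = t
  hf : σ y = y
  hx : ∀ r t, y * S.x r t * y⁻¹ = S.x r ((lam ^ (e ⬝ᵥ M.v r) : Kˣ) * t)
  ne : lam ≠ 1

variable (e x) in
/-- an orthonormal basis of the complement of `e` -/
structure Fam : Prop where
  u : ∀ i, U (x i)
  o : ∀ i j, i ≠ j → x i ⬝ᵥ x j = 0
  oe : ∀ i, e ⬝ᵥ x i = 0
  all : ∀ y, U y → y = e ∨ y = -e ∨ ∃ i, y = x i ∨ y = -x i

variable (M) in
/-- levels of a functional -/
abbrev Sv (z : Fin k → ℤ) (c : ℤ) : Set (Root M.dat) := {r | c ≤ z ⬝ᵥ M.v r}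

namespace DT
variable (T : DT M S σ τ e y lam)
include T

theorem nr (r) : M.nr r = 2 := by
  obtain ⟨x, y, hx, hy, a, -, b, -⟩ | h := T.crd.cases r
  exacts [T.crd.nr_mid hx hy a b, h.1.elim]

theorem pair_v (r s : Root M.dat) : pair r s = M.v r ⬝ᵥ M.v s := by rw [M.pair_cv, M.c_eq_v (T.nr r)]

theorem ex_psi (z : Fin k → ℤ) : ∃ ψ, ∀ r : Root M.dat, fv ψ r = 2 * (z ⬝ᵥ M.v r) := by
  have : ∀ i : Fin k, ∃ ψ, ∀ r : Root M.dat, fv ψ r = 2 * M.v r i := fun i => by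
    have u : U (Pi.single i (1 : ℤ)) := ⟨i, .inl rfl⟩
    obtain ⟨w, a, b⟩ := fresh [Pi.single i 1] (by simp [u]) T.two
    obtain ⟨r, c, -⟩ := T.crd.mid u a (b _ (by simp)).2
    obtain ⟨s, d, -⟩ := T.crd.mid u a.neg (by simp [(b _ (List.mem_singleton_self _)).2])
    refine ⟨cor (D := M.dat) r + cor (D := M.dat) s, fun u => ?_⟩
    rw [fv, add_dotProduct, ← pair, ← pair, T.pair_v, T.pair_v, c, d]; simp; ring
  choose ψ h using this
  refine ⟨∑ i, z i • ψ i, fun r => ?_⟩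
  rw [fv, sum_dotProduct, dotProduct, Finset.mul_sum]
  exact Finset.sum_congr rfl fun i _ => by rw [smul_dotProduct, ← fv, h, smul_eq_mul]; ring

theorem lin (z : Fin k → ℤ) {u r s : Root M.dat} {a b : ℤ} (h : wt u = a • wt r + b • wt s) :
    z ⬝ᵥ M.v u = a * (z ⬝ᵥ M.v r) + b * (z ⬝ᵥ M.v s) := by
  obtain ⟨ψ, e⟩ := T.ex_psi z
  have := fv_lin ψ h
  rw [e, e, e] at this; linarith

theorem cm0 {a b : Root M.dat} (h : 0 ≤ M.v a ⬝ᵥ M.v b) (t u : K) : Commute (S.x a t) (S.x b u) := by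
  have h1 : M.v a ⬝ᵥ M.v a = 2 := T.nr a
  refine S.commute_of_Nc (by rintro rfl; simp [M.v_rev, h1] at h) ((M.Nc_eq a b).trans (by_contra fun e => ?_)) t u
  have := T.nr (M.add a b)
  have h2 : M.v b ⬝ᵥ M.v b = 2 := T.nr b
  rw [MM.nr, M.v_add e, add_dotProduct, dotProduct_add, dotProduct_add, dotProduct_comm (M.v b) (M.v a)] at this
  omega

theorem cm1 {a b c : Root M.dat} (h : M.v a ⬝ᵥ M.v b = -1) (hc : M.v c = M.v a + M.v b) :
    ∃ ε : K, ε * ε = 1 ∧ ∀ t u, ⁅S.x b u, S.x a t⁆ = S.x c (ε * t * u) := by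
  rw [← T.pair_v] at h
  obtain ⟨ε, hε, e⟩ := M.slp.terms (T.nr a) (T.nr b) h
  rw [M.refl_of_v (u := c) (by rw [h, hc]; module)] at e
  exact ⟨-ε, by rcases hε with rfl | rfl <;> simp, fun t u => by
    simp [S.commutator_x (r := a) (s := b) (fun e => by simp [e] at h) (fun e => by simp [e] at h), ChevalleyDatum.commWord, e]⟩

theorem σ_mem {A B : Set (Root M.dat)} (h : ∀ r ∈ A, ∀ s, M.v s = M.v r - (2 * (e ⬝ᵥ M.v r)) • e → s ∈ B) {g : G} (hg : g ∈ S.US A) :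
    σ g ∈ S.US B := (US_le (M := (S.US B).comap σ.toMonoidHom)).2 (fun r a t =>
  let ⟨s, b, c⟩ := T.map r; let ⟨_, d⟩ := c t; (mem_comap.2 (d ▸ x_mem_US (h r a s b) _))) hg

variable (F : Fam e x)
include F

omit T in
theorem _root_.H11.Fam.dot (i) : (∑ j, x j) ⬝ᵥ x i = 1 := by
  rw [sum_dotProduct, Finset.sum_eq_single i (fun j _ a => F.o j i a) (by simp), (F.u i).self]

omit T in
theorem _root_.H11.Fam.dot_e : (∑ j, x j) ⬝ᵥ e = 0 := by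
  rw [sum_dotProduct]; exact Finset.sum_eq_zero fun i _ => by rw [dotProduct_comm, F.oe]

theorem cases (r : Root M.dat) : (∑ j, x j) ⬝ᵥ M.v r = 1 ∧ (e ⬝ᵥ M.v r = 1 ∧ (∃ i, M.v r = x i + e) ∨ e ⬝ᵥ M.v r = -1) ∨
    (∑ j, x j) ⬝ᵥ M.v r = 2 ∧ e ⬝ᵥ M.v r = 0 ∧ (∃ i j, i ≠ j ∧ M.v r = x i + x j) ∨
    (∑ j, x j) ⬝ᵥ M.v r = 0 ∧ e ⬝ᵥ M.v r = 0 ∨ (∑ j, x j) ⬝ᵥ M.v r < 0 := by
  obtain ⟨a, b, ha, hb, h, -, h', -⟩ | h := T.crd.cases r
  · have := T.ue.self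
    rcases F.all a ha with rfl | rfl | ⟨i, rfl | rfl⟩ <;> rcases F.all b hb with rfl | rfl | ⟨j, rfl | rfl⟩ <;>
      simp_all [F.dot, F.dot_e, F.oe, add_comm]
    exact ⟨i, j, by rintro rfl; simp [(F.u i).self] at h, rfl⟩
  · exact h.1.elim

omit F in
theorem comm_lev (z : Fin k → ℤ) {c : ℤ} (h : 0 < c) {g d : G} (hg : g ∈ S.US (Sv M z 1)) (hd : d ∈ S.US (Sv M z c)) :
    d⁻¹ * g⁻¹ * d * g ∈ S.US (Sv M z (c + 1)) := by
  obtain ⟨ψ, e⟩ := T.ex_psi z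
  refine US_mono (fun r a => ?_) (comm_mem_lev (c := 2 * c) (closed_pos ψ) (fun _ a => a) (US_mono (fun r a => ?_) hg) (US_mono (fun r a => ?_) hd))
  all_goals simp only [mem_lev, Set.mem_ofPred, e] at a ⊢; omega

theorem cen {g d : G} (hg : g ∈ S.US (Sv M (∑ j, x j) 1)) (hd : d ∈ S.US (Sv M (∑ j, x j) 2)) : Commute d g := by
  have := T.comm_lev _ two_pos hg hd
  rw [show Sv M (∑ j, x j) (2 + 1) = ∅ from Set.eq_empty_of_forall_notMem fun r a => by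
    have := T.cases F r; simp only [Set.mem_ofPred] at a; omega, US_empty, mem_bot, mul_assoc, mul_assoc, inv_mul_eq_one, eq_inv_mul_iff_mul_eq] at this
  exact this.symm

theorem conj2 {g d : G} (hg : g ∈ S.US (Sv M (∑ j, x j) 1)) (hd : d ∈ S.US (Sv M (∑ j, x j) 2)) : g⁻¹ * d * g ∈ S.US (Sv M (∑ j, x j) 2) := by
  rwa [mul_assoc, (T.cen F hg hd).eq, inv_mul_cancel_left]

omit F in
theorem closed (z : Fin k → ℤ) {c : ℤ} (h : 0 ≤ c) (w : Fin k → ℤ) : Closed {r : Root M.dat | c ≤ z ⬝ᵥ M.v r ∧ 0 ≤ w ⬝ᵥ M.v r} :=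
  fun r a s b u i j _ _ e => by rw [Set.mem_ofPred, T.lin z e, T.lin w e]; exact ⟨by nlinarith [a.1, b.1], by nlinarith [a.2, b.2]⟩

theorem mem_two {g : G} (hg : g ∈ S.US {r | 1 ≤ (∑ j, x j) ⬝ᵥ M.v r ∧ 0 ≤ -e ⬝ᵥ M.v r}) (h : σ g = g) : g ∈ S.US (Sv M (∑ j, x j) 2) := by
  obtain ⟨ψ, h1⟩ := T.ex_psi (∑ j, x j)
  refine US_mono (fun r a => ?_) ((US_inf (closed_pos ψ) (fun _ a => a) (T.closed _ zero_le_one _) (T.closed (∑ j, x j) zero_le_one e)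
    (fun r a => ?_) fun r a => ?_).le ⟨hg, h ▸ T.σ_mem (fun r a s b => ?_) hg⟩)
  any_goals have := T.cases F r; simp only [Set.mem_inter_iff, Set.mem_ofPred, h1, neg_dotProduct] at a ⊢; omega
  simpa [b, F.dot_e, T.ue.self, two_mul] using a

theorem dec {g : G} (hg : g ∈ S.US (Sv M (∑ j, x j) 1)) : ∃ a ∈ S.US {r | ∃ i, M.v r = x i + e},
    ∃ b ∈ S.US {r | 1 ≤ (∑ j, x j) ⬝ᵥ M.v r ∧ 0 ≤ -e ⬝ᵥ M.v r}, g = a * b := by
  obtain ⟨ψ, h1⟩ := T.ex_psi (∑ j, x j)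
  refine exists_mul_of_union (closed_pos ψ) (fun _ a => a) (Set.ext fun r => ⟨fun a => ?_, ?_⟩) (US_mono (fun r a => ?_) hg)
  · rcases T.cases F r with ⟨_, ⟨_, b⟩ | b⟩ | b | b | b
    exacts [.inl b, .inr ⟨by omega, by simp [b]⟩, .inr ⟨by omega, by simp [b]⟩, by simp [h1, b] at a, by simp [h1] at a; omega]
  · rintro (⟨i, a⟩ | a)
    exacts [by simp [h1, a, F.dot, F.dot_e], by simp [h1]; exact a.1]
  · simp [h1]; exact a

theorem le_one : S.US {r | ∃ i, M.v r = x i + e} ≤ S.US (Sv M (∑ j, x j) 1) := US_mono fun r ⟨i, a⟩ => by simp [a, F.dot, F.dot_e]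

theorem σ_lev {c : ℤ} {g : G} (hg : g ∈ S.US (Sv M (∑ j, x j) c)) : σ g ∈ S.US (Sv M (∑ j, x j) c) :=
  T.σ_mem (fun r a s b => by simpa [b, F.dot_e] using a) hg

variable {p : ι → Root M.dat} (hp : ∀ i, M.v (p i) = x i + e)
include hp

theorem p_mem (i t) : S.x (p i) t ∈ S.US (Sv M (∑ j, x j) 1) := x_mem_US (T := Sv M _ 1) (by simp [hp, F.dot, F.dot_e]) t

theorem p_dot (i j) : 0 ≤ (x i + e) ⬝ᵥ (x j + e) := by
  by_cases h : i = j <;> simp [h, (F.u _).self, F.oe, dotProduct_comm _ e, T.ue.self, F.o]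

theorem σ_p (i) : ∃ s, M.v s = x i - e ∧ S.Maps σ.toMonoidHom (p i) s :=
  let ⟨s, a, b⟩ := T.map (p i); ⟨s, by simp [a, hp, F.oe, T.ue.self]; module, b⟩

theorem a_mem (i t) : S.x (p i) t * σ (S.x (p i) t) ∈ S.US (Sv M (∑ j, x j) 1) ⊓ fixS σ := by
  refine ⟨mul_mem (T.p_mem F hp i t) (T.σ_lev F (T.p_mem F hp i t)), mem_fixS.2 ?_⟩
  obtain ⟨s, a, b⟩ := T.σ_p F hp i
  obtain ⟨u, c⟩ := b t
  rw [map_mul, T.inv, show σ _ = _ from c]
  exact T.cm0 (by simp [a, hp, (F.u _).self, F.oe, dotProduct_comm _ e, T.ue.self]) _ _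

theorem comm_a (i j s t) : ⁅S.x (p i) s * σ (S.x (p i) s), S.x (p j) t * σ (S.x (p j) t)⁆ =
    ⁅S.x (p i) s, σ (S.x (p j) t)⁆ * σ ⁅S.x (p i) s, σ (S.x (p j) t)⁆ := by
  have h1 : ∀ {a b c}, a ∈ S.US (Sv M (∑ j, x j) 1) → b ∈ S.US (Sv M (∑ j, x j) 1) → c ∈ S.US (Sv M (∑ j, x j) 1) → Commute ⁅a, b⁆ c :=
    fun a b c => T.cen F c (by simpa [commutatorElement_def] using T.comm_lev _ one_pos (inv_mem b) (inv_mem a))
  have h2 := T.p_mem F hp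
  have h3 := fun i t => T.σ_lev F (h2 i t)
  have h4 := (T.cm0 (a := p i) (b := p j) (by rw [hp, hp]; exact T.p_dot F hp i j) s t).commutator_eq
  rw [c2_left (h1 (h3 _ _) (mul_mem (h2 _ _) (h3 _ _)) (h2 _ _)) (h1 (h3 _ _) (mul_mem (h2 _ _) (h3 _ _)) (commutator_le_self _
    (commutator_mem_commutator (h2 _ _) (mul_mem (h2 _ _) (h3 _ _))))), c2_right (h1 (h2 _ _) (h3 _ _) (h2 _ _)), c2_right (h1 (h3 _ _) (h3 _ _) (h2 _ _)),
    h4, ← map_commutatorElement, h4, map_one, map_commutatorElement, T.inv, one_mul, mul_one]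

theorem two_le {g : G} (hg : g ∈ S.US (Sv M (∑ j, x j) 2)) (h : σ g = g) :
    g ∈ ⁅S.US (Sv M (∑ j, x j) 1) ⊓ fixS σ, S.US (Sv M (∑ j, x j) 1) ⊓ fixS σ⁆ := by
  obtain ⟨ψ, h1⟩ := T.ex_psi (∑ j, x j)
  have h2 : ∀ r ∈ {r | 2 ≤ (∑ j, x j) ⬝ᵥ M.v r ∧ 0 ≤ 0 ⬝ᵥ M.v r}, e ⬝ᵥ M.v r = 0 ∧ ∃ i j, i ≠ j ∧ M.v r = x i + x j := fun r a => by
    have := a.1
    rcases T.cases F r with b | b | b | b
    exacts [by omega, b.2, by omega, by omega]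
  refine fix_diag (ψ := ψ) (T.closed _ zero_le_two 0) (fun r a => by have := a.1; rw [h1]; omega) (α := σ.toMonoidHom)
    (fun r a t => T.fix r t (h2 r a).1) (fun r a t ht => ?_) (by simpa using hg) h
  obtain ⟨b, i, j, c, d⟩ := h2 r a
  obtain ⟨s, a1, a2⟩ := T.σ_p F hp j
  obtain ⟨u, a3⟩ := a2 1
  obtain ⟨ε, e1, e2⟩ := T.cm1 (a := s) (b := p i) (c := r) (by simp [a1, hp, F.o _ _ c.symm, F.oe, dotProduct_comm _ e, T.ue.self])
    (by rw [d, a1, hp]; module)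
  have a4 : u ≠ 0 := by
    rintro rfl
    exact one_ne_zero (x_eq_one (S := S) (r := p j) (by rw [σ.injective (a3.trans (by simp) : σ _ = σ 1), map_one]))
  obtain ⟨w, rfl⟩ := T.tr t ht
  convert commutator_mem_commutator (T.a_mem F hp i (ε * w / u)) (T.a_mem F hp j 1) using 1
  rw [T.comm_a F hp, show σ _ = _ from a3, e2, T.fix _ _ b, S.add, show ε * u * (ε * w / u) = w by field_simp; linear_combination w * e1]

omit F hp in
theorem conj_y (A) : ∀ g ∈ S.US A, y * g * y⁻¹ ∈ S.US A := (US_le (M := (S.US A).comap (MulAut.conj y).toMonoidHom)).2 fun r a t =>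
  (T.hx r t).symm.subst (motive := (· ∈ S.US A)) (x_mem_US a _)

theorem fp [Finite G] : Fp (S.US (Sv M (∑ j, x j) 1) ⊓ fixS σ) y := by
  obtain ⟨ψ, h1⟩ := T.ex_psi e
  refine ⟨mem_normalizer_fintype fun g a => ⟨T.conj_y _ g a.1, mem_fixS.2 (by simp [T.hf, mem_fixS.1 a.2])⟩,
    fun g hg h => T.two_le F hp ?_ hg.2⟩
  obtain ⟨a, ha, b, hb, rfl⟩ := T.dec F hg.1
  have h3 : ⁅y, a * b⁆ ∈ S.US (Sv M (∑ j, x j) 2) := commutator_le.2 (fun a c b d => by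
    simpa [commutatorElement_def] using T.comm_lev _ one_pos (inv_mem d.1) (inv_mem c.1)) h
  have h4 : a ∈ S.US {r | 0 < fv ψ r} := US_mono (by rintro r ⟨i, a⟩; simp [h1, a, F.oe, T.ue.self]) ha
  have h5 : b ∈ S.US {r | fv ψ r ≤ 0} := US_mono (fun r a => by simpa [h1, two_mul] using a.2) hb
  have h6 := eq_one_of_lev (mul_mem (inv_mem h4) (T.conj_y _ _ h4)) (by
    convert mul_mem (mul_mem (US_mono (fun r a => ?_) h3) h5) (inv_mem (T.conj_y _ _ h5)) using 1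
    · rw [eq_mul_inv_iff_mul_eq, mul_assoc, inv_mul_eq_iff_eq_mul, ← mul_assoc a, ← (T.cen F (T.le_one F ha) h3).eq]
      simp only [commutatorElement_def]; group
    · have := T.cases F r; simp only [Set.mem_ofPred, h1] at a ⊢; omega)
  obtain rfl : a = 1 := fix_diag (N := ⊥) (closed_pos ψ) (fun _ a => a) (α := (MulAut.conj y).toMonoidHom) (fun r _ => T.hx r) (fun r a t c => by
    have := T.cases F r
    have := T.cases F r.rev
    simp only [M.v_rev, dotProduct_neg, Set.mem_ofPred, h1] at this a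
    rw [show e ⬝ᵥ M.v r = 1 by omega, zpow_one] at c
    rw [(mul_left_eq_self₀.1 c).resolve_left (mt Units.val_eq_one.1 T.ne), S.x_zero]; exact one_mem _) h4 (inv_mul_eq_one.1 h6).symm
  exact T.mem_two F (by rwa [one_mul]) hg.2

theorem gen {g : G} (hg : g ∈ S.US (Sv M (∑ j, x j) 1) ⊓ fixS σ) :
    ∃ a ∈ closure {g | ∃ i t, g = S.x (p i) t * σ (S.x (p i) t)}, a⁻¹ * g ∈ S.US (Sv M (∑ j, x j) 2) := by
  have h0 : closure {g | ∃ i t, g = S.x (p i) t * σ (S.x (p i) t)} ≤ _ := (closure_le _).2 (by rintro _ ⟨i, t, rfl⟩; exact T.a_mem F hp i t)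
  obtain ⟨a, ha, b, hb, rfl⟩ := T.dec F hg.1
  obtain ⟨c, h1, h2⟩ : ∃ c ∈ closure {g | ∃ i t, g = S.x (p i) t * σ (S.x (p i) t)}, c⁻¹ * (a * σ a) ∈ S.US (Sv M (∑ j, x j) 2) :=
    US_induction (C := fun a => ∃ c ∈ _, c⁻¹ * (a * σ a) ∈ _) ⟨1, one_mem _, by simp⟩ (by
      rintro r ⟨i, h⟩ t
      exact ⟨_, subset_closure ⟨i, t, rfl⟩, by simp [M.v_inj (h.trans (hp i).symm)]⟩) (fun u hu v hv ⟨c, h1, h2⟩ ⟨d, h3, h4⟩ => ⟨_, mul_mem h1 h3, by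
        have h6 := T.le_one F hv
        convert mul_mem (mul_mem (T.conj2 F (h0 h3).1 h2) h4) (T.conj2 F (T.σ_lev F h6) (T.comm_lev _ one_pos (T.σ_lev F (T.le_one F hu)) h6)) using 1
        rw [map_mul]; group⟩) ha
  refine ⟨c, h1, T.mem_two F ?_ (mul_mem (inv_mem (mem_inf.1 (h0 h1)).2) hg.2 : _ ∈ fixS σ)⟩
  convert mul_mem (mul_mem (US_mono (fun r a => ?_) h2) (inv_mem (T.σ_mem ?_ ha))) hb using 1
  · group
  · have := T.cases F r; simp only [Set.mem_ofPred, neg_dotProduct] at a ⊢; omega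
  · rintro r ⟨i, a⟩ s b; simp [b, a, F.dot, F.dot_e, F.oe, T.ue.self]

omit hp in
theorem comm_y {A : Set (Root M.dat)} (h : ∀ r ∈ A, e ⬝ᵥ M.v r = 0) {g : G} (hg : g ∈ S.US A) : Commute y g :=
  mem_centralizer_singleton_iff.1 (US_le.2 (fun r a t => mem_centralizer_singleton_iff.2 (by
    simpa [h r a] using (mul_inv_eq_iff_eq_mul.1 (T.hx r t)).symm)) hg) |>.symm

omit F hp in
theorem norm (z : Fin k → ℤ) {c : ℤ} (h : 0 < c) : S.US {r | z ⬝ᵥ M.v r = 0} ≤ normalizer (S.US (Sv M z c) : Set G) :=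
  US_le_normalizer fun r (a : _ = 0) => ⟨by simp [M.v_rev, a, h], fun s b u i j _ _ e => by
    rw [Set.mem_ofPred] at b; rw [Set.mem_ofPred, T.lin z e, a]; nlinarith⟩

theorem ex_u (j i : ι) : ∃ u ∈ S.US {r | (∑ j, x j) ⬝ᵥ M.v r = 0} ⊓ fixS σ, j ≠ i → (∀ s, (S.x (p i) s * σ (S.x (p i) s) *
    (S.x (p j) s * σ (S.x (p j) s)))⁻¹ * (u * (S.x (p i) s * σ (S.x (p i) s)) * u⁻¹) ∈ S.US (Sv M (∑ j, x j) 2)) ∧
      ∀ j' ≠ i, ∀ s, Commute u (S.x (p j') s * σ (S.x (p j') s)) := by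
  by_cases h : j = i
  · exact ⟨1, one_mem _, fun a => (a h).elim⟩
  obtain ⟨r, a, -⟩ := T.crd.mid (F.u j) (F.u i).neg (by simp [F.o _ _ h])
  obtain ⟨ε, e1, e2⟩ := T.cm1 (a := p i) (b := r) (c := p j) (by simp [a, hp, F.o _ _ (Ne.symm h), F.oe, (F.u i).self]) (by rw [a, hp, hp]; module)
  have h1 : σ (S.x r ε) = S.x r ε := by
    rw [T.fix _ _ (by simp [a, F.oe])]; rcases mul_self_eq_one_iff.1 e1 with rfl | rfl <;> simp
  refine ⟨S.x r ε, ⟨x_mem_US (T := {r | _ = 0}) (by simp [a, F.dot]) _, h1⟩, fun _ => ⟨fun s => ?_, fun j' b s => ?_⟩⟩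
  · have h2 : S.x r ε * S.x (p i) s * (S.x r ε)⁻¹ = S.x (p i) s * S.x (p j) s := by
      rw [(T.cm0 (by rw [hp, hp]; exact T.p_dot F hp i j) s s).eq, ← mul_inv_eq_iff_eq_mul, ← commutatorElement_def, e2, mul_right_comm, e1, one_mul]
    have h3 := congrArg σ h2
    simp only [map_mul, map_inv, h1] at h3
    convert T.conj2 F (T.σ_lev F (T.p_mem F hp j s)) (T.comm_lev _ one_pos (T.σ_lev F (T.p_mem F hp i s)) (T.p_mem F hp j s)) using 1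
    rw [← conj_mul, h2, h3]; group
  · have := T.cm0 (a := r) (b := p j') (by by_cases c : j = j' <;> simp [a, hp, c, F.o, b.symm, (F.u _).self, dotProduct_comm _ e, F.oe]) ε s
    exact this.mul_right (h1 ▸ this.map σ)

omit hp
variable [Finite G] [LinearOrder ι] (h0 : ∀ i j : ι, ∃ k, k ≠ i ∧ k ≠ j) {κ : E →* G} (hc : κ.ker ≤ center E) (hκ : κ.range = fixS σ)
include h0 hc hκ

theorem tc_rad : Tc κ (S.US (Sv M (∑ j, x j) 1) ⊓ fixS σ) := by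
  choose p hp _ using fun i => T.crd.mid (F.u i) T.ue (by rw [dotProduct_comm, F.oe])
  obtain ⟨w, hw⟩ := hκ.ge (show y ∈ fixS σ from T.hf)
  let R := (S.US (Sv M (∑ j, x j) 1)).comap κ
  let C := (S.US (Sv M (∑ j, x j) 2)).comap κ
  have c0 : C ≤ R := comap_mono (US_mono fun _ a => by simp only [Set.mem_ofPred] at a ⊢; omega)
  have c1 : ∀ d ∈ C, ∀ a ∈ R, Commute d a := fun d hd a ha => Fp.comm hc (inf_le_right.trans hκ.ge) (hw ▸ T.fp F hp)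
    (hw ▸ T.comm_y F (fun r a => by have := T.cases F r; simp only [Set.mem_ofPred] at a; omega) hd)
    (fun g h => T.cen F h.1 hd) ⟨ha, hκ.le ⟨a, rfl⟩⟩
  have c2 : ∀ a ∈ R, ∀ b ∈ R, ⁅a, b⁆ ∈ C := fun a ha b hb => by
    simpa [C, commutatorElement_def] using T.comm_lev _ one_pos (inv_mem hb) (inv_mem ha)
  have c3 : ∀ a ∈ R, ∀ b ∈ R, ∀ c ∈ R, Commute ⁅a, b⁆ c := fun a ha b hb => c1 _ (c2 a ha b hb)
  let : CommGroup C := { mul_comm := fun a b => Subtype.ext (c1 a a.2 b (c0 b.2)) }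
  choose a ha using fun i t => hκ.ge (T.a_mem F hp i t).2
  have a1 : ∀ i t, a i t ∈ R := fun i t => mem_comap.2 (ha i t ▸ (T.a_mem F hp i t).1)
  choose u' u1 u2 using T.ex_u F hp
  choose u hu using fun j i => hκ.ge (u1 j i).2
  have u3 : ∀ j i, ∀ d ∈ C, ⁅u j i, d⁆ ∈ C := fun j i d hd => mul_mem (by simpa [C, hu] using (T.norm _ two_pos (u1 j i).1 _).1 hd) (inv_mem hd)
  let φ : ι → ι → C →* C := fun j i => MonoidHom.mk' (fun d => ⟨_, u3 j i d d.2⟩) fun b d =>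
    Subtype.ext (c2_right (c1 _ (u3 j i d d.2) _ (c0 b.2)))
  have u4 : ∀ j i {b b' c c'}, b ∈ R → c ∈ R → b' ∈ R → (κ b')⁻¹ * (u' j i * κ b * (u' j i)⁻¹) ∈ S.US (Sv M (∑ j, x j) 2) →
      (κ c')⁻¹ * (u' j i * κ c * (u' j i)⁻¹) ∈ S.US (Sv M (∑ j, x j) 2) → ⁅u j i, ⁅b, c⁆⁆ = ⁅b', c'⁆ * ⁅b, c⁆⁻¹ := fun j i b b' c c' h1 h2 h3 h4 h5 => by
    rw [commutatorElement_def (u j i), conjugate_commutatorElement, c2_congr (c1 _ (by simpa [C, hu]) _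
      (by simpa [R, hu] using (T.norm _ one_pos (u1 j i).1 _).1 h2)) (c1 _ (by simpa [C, hu]) _ h3)]
  have u5 : ∀ j i, j ≠ i → ∀ s, (κ (a i s * a j s))⁻¹ * (u' j i * κ (a i s) * (u' j i)⁻¹) ∈ S.US (Sv M (∑ j, x j) 2) := fun j i h s => by
    simpa only [map_mul, ha] using (u2 j i h).1 s
  have u6 : ∀ j i, j ≠ i → ∀ j' ≠ i, ∀ s, (κ (a j' s))⁻¹ * (u' j i * κ (a j' s) * (u' j i)⁻¹) ∈ S.US (Sv M (∑ j, x j) 2) := fun j i h j' h' s => by
    rw [ha, ((u2 j i h).2 j' h' s).mul_inv_cancel, inv_mul_cancel]; exact one_mem _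
  have m1 : ∀ {b b' c}, b ∈ R → b' ∈ R → c ∈ R → ⁅b * b', c⁆ = ⁅b, c⁆ * ⁅b', c⁆ := fun h h' e =>
    c2_left (c3 _ h' _ e _ h) (c3 _ h' _ e _ (c0 (c2 _ h _ e)))
  let b : ι → ι → K → K → C := fun i j s t => ⟨_, c2 _ (a1 i s) _ (a1 j t)⟩
  have key : ∀ g ∈ R, ∃ c ∈ closure {g | ∃ i t, g = a i t}, c⁻¹ * g ∈ C := fun g h => by
    obtain ⟨_, h1, h2⟩ := T.gen F hp (g := κ g) ⟨h, hκ.le ⟨g, rfl⟩⟩
    obtain ⟨c, h3, rfl⟩ := (show _ ≤ (closure {g | ∃ i t, g = a i t}).map κ from (closure_le _).2 (by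
      rintro _ ⟨i, t, rfl⟩; exact ⟨_, subset_closure ⟨i, t, rfl⟩, ha i t⟩)) h1
    exact ⟨c, h3, by simpa [C]⟩
  have k0 : closure {g | ∃ i t, g = a i t} ≤ R := (closure_le _).2 (by rintro _ ⟨i, t, rfl⟩; exact a1 i t)
  intro z hz h1
  obtain ⟨z, h2, rfl⟩ : z ∈ (closure {d | ∃ i j s t, d = b i j s t}).map C.subtype := commutator_le.2 (fun g h g' h' => by
    obtain ⟨c, e1, e2⟩ := key g h.1
    obtain ⟨c', e3, e4⟩ := key g' h'.1
    rw [c2_congr (c1 _ e2 _ h'.1) (c1 _ e4 _ (k0 e1))]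
    exact c2_gen (R := R) (by rintro _ ⟨i, t, rfl⟩; exact a1 i t) c3 (by
      rintro _ ⟨i, s, rfl⟩ _ ⟨j, t, rfl⟩; exact ⟨b i j s t, subset_closure ⟨i, j, s, t, rfl⟩, rfl⟩) (commutator_mem_commutator e1 e3)) hz
  have c4 : ∀ {d g}, κ d = 1 → ⁅g, d⁆ = 1 := fun h => commutatorElement_eq_one_iff_mul_comm.2 (mem_center_iff.1 (hc h) _)
  refine congrArg Subtype.val (lam2 h0 b φ (fun i j s t => Subtype.ext (commutatorElement_inv _ _).symm) (fun i j s t h => ?_)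
    (fun i j j' s t h h' => ?_) (fun i j j' l s t h h' e => Subtype.ext ?_) (fun i j s t h => Subtype.ext (c4 ?_)) h2
    fun j i _ => Subtype.ext (c4 h1))
  · refine (Subtype.ext ((u4 j i (a1 i s) (a1 i t) (mul_mem (a1 i s) (a1 j s)) (u5 j i h s) (u5 j i h t)).trans ?_) :
      _ = b i i s t * b i j s t * (b j i s t * b j j s t) * (b i i s t)⁻¹).trans (by rw [mul_assoc (b i i s t), mul_inv_cancel_comm, mul_assoc])
    rw [m1 (a1 i s) (a1 j s) (mul_mem (a1 i t) (a1 j t)), c2_right (c3 _ (a1 _ _) _ (a1 _ _) _ (a1 _ _)),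
      c2_right (c3 _ (a1 _ _) _ (a1 _ _) _ (a1 _ _))]; rfl
  · refine (Subtype.ext ((u4 j' i (a1 i s) (a1 j t) (mul_mem (a1 i s) (a1 j' s)) (u5 j' i h s) (u6 j' i h j h' t)).trans ?_) :
      _ = b i j s t * b j' j s t * (b i j s t)⁻¹).trans (by simp)
    rw [m1 (a1 i s) (a1 j' s) (a1 j t)]; rfl
  · exact (u4 l i (a1 j s) (a1 j' t) (a1 j s) (u6 l i h j h' s) (u6 l i h j' e t)).trans (mul_inv_cancel _)
  · obtain ⟨r, e1, e2⟩ := T.σ_p F hp i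
    obtain ⟨v, e3⟩ := e2 t
    have := (T.cm0 (a := p i) (b := r) (by simp [e1, hp, (F.u _).self, F.oe, dotProduct_comm _ e, T.ue.self]) s v).commutator_eq
    rw [map_commutatorElement, ha, ha, T.comm_a F hp, show σ _ = _ from e3, this, map_one, mul_one]

theorem step {A : Set (Root M.dat)} (hA : Closed A) (h1 : ∀ r ∈ A, IsPos r) (h2 : ∀ r ∈ A, 0 ≤ (∑ j, x j) ⬝ᵥ M.v r)
    (h : Tc κ (S.US {r | r ∈ A ∧ (∑ j, x j) ⬝ᵥ M.v r = 0})) : Tc κ (S.US A) := by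
  choose p hp _ using fun i => T.crd.mid (F.u i) T.ue (by rw [dotProduct_comm, F.oe])
  obtain ⟨w, hw⟩ := hκ.ge (show y ∈ fixS σ from T.hf)
  obtain ⟨ψ, e1⟩ := T.ex_psi (∑ j, x j)
  have h3 : ∀ {g}, g ∈ S.US (Sv M (∑ j, x j) 1) → g ∈ S.US {r | (∑ j, x j) ⬝ᵥ M.v r = 0} → g = 1 := fun a b =>
    eq_one_of_lev (ψ := ψ) (US_mono (fun r c => by simp only [Set.mem_ofPred, e1] at c ⊢; omega) a)
      (US_mono (fun r c => by simp only [Set.mem_ofPred, e1] at c ⊢; omega) b)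
  obtain ⟨B, b1, b2, b3⟩ := exists_compl hc (inf_le_right.trans hκ.ge) (T.tc_rad F h0 hc hκ) (hw ▸ T.fp F hp)
  refine h.step (A := B) (fun a ha e => b1 a ha (h3 (b2.le ⟨a, ha, rfl⟩).1 (US_mono (fun _ c => c.2) e))) (fun g hg => ?_) fun g hg => ?_
  · have h4 : κ g ∈ S.US {r | (∑ j, x j) ⬝ᵥ M.v r = 0} := US_mono (fun _ c => c.2) hg
    refine b3 w (hw ▸ T.fp F hp) (.refl _) g (mem_normalizer_fintype fun a c => ⟨(T.norm _ one_pos h4 _).1 c.1, ?_⟩)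
      (hw ▸ (T.comm_y F (fun r a => by have := T.cases F r; simp only [Set.mem_ofPred] at a; omega) h4).symm)
    exact (fixS σ).mul_mem (mul_mem (hκ.le ⟨g, rfl⟩) c.2) (inv_mem (hκ.le ⟨g, rfl⟩))
  obtain ⟨a, ha, b, hb, e2⟩ := exists_mul_of_union hA (fun r a => pos_U r (h1 r a)) (A := A ∩ Sv M (∑ j, x j) 1)
    (B := {r | r ∈ A ∧ (∑ j, x j) ⬝ᵥ M.v r = 0}) (Set.ext fun r => by
      by_cases a : r ∈ A <;> simp [a]; have := h2 r a; omega) hg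
  replace ha := US_mono Set.inter_subset_right ha
  have h4 : b ∈ S.US {r | (∑ j, x j) ⬝ᵥ M.v r = 0} := US_mono (fun _ c => c.2) hb
  have h5 : σ (a * b) = a * b := e2 ▸ hκ.le ⟨g, rfl⟩
  obtain ⟨c, h6, rfl⟩ := b2.ge ⟨ha, (inv_mul_eq_one.1 (h3 (mul_mem (inv_mem ha) (T.σ_lev F ha)) (by
    convert mul_mem h4 (inv_mem (T.σ_mem (fun r a s b => by simpa [b, F.dot_e] using a) h4)) using 1
    rw [inv_mul_eq_iff_eq_mul, ← mul_assoc, ← h5, map_mul, mul_inv_cancel_right]))).symm⟩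
  exact ⟨c, h6, by simpa [e2]⟩

end DT
end H11
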