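import Cfsg.Agent.H11.TwR

/-! The Schur multiplier of `²F₄(q)`, `q > 2` (`mult_F4`). -/

namespace H11
open Cfsg Cfsg.Lie Equiv StSys Pol
open scoped commutatorElement
attribute [-simp] commutatorElement_inv map_commutatorElement

universe u
variable {K G : Type*} [Field K] [Group G]

theorem wordG_rev {D : ChevalleyDatum} {x : Root D → K → G} (hx : StRel x) (hp : ((2 : ℕ) : K) = 0) (w : List (ℕ × K)) :
    wordG x w.reverse = (wordG x w)⁻¹ := by
  induction w with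
  | nil => simp
  | cons a w ih =>
    rw [List.reverse_cons, wordG_append, ih, wordG_cons, wordG_cons, mul_inv_rev, wordG_nil, mul_one, mul_right_inj, eq_inv_iff_mul_eq_one,
      hx.xNat_add, ← two_mul, ← Nat.cast_two, hp, zero_mul, hx.xNat_zero]

theorem co_word {D : ChevalleyDatum} [Good D] {S : StSys D K G} {m : Root D} (hm : IsPos m) (w : List (ℕ × K))
    (hw : ∀ e ∈ w, m.1 ≤ e.1 ∧ e.1 < D.nroots) : S.Co (phiV D) m (wordG S.x w) (w.map fun e => if e.1 = m.1 then e.2 else 0).sum := by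
  have h0 := isPos_iff_phi.1 hm
  induction w with
  | nil => simp [Co]
  | cons a w ih =>
    obtain ⟨a, t⟩ := a
    obtain ⟨⟨c, d⟩, e⟩ := List.forall_mem_cons.1 hw
    obtain ⟨a, rfl⟩ : ∃ r : Root D, r.1 = a := ⟨⟨a, d⟩, rfl⟩
    refine Co.mul h0 (g := xNat S.x a t) ?_ (ih e)
    dsimp only
    split_ifs with f
    · simp [Co, ← Fin.ext f]
    · have := phi_lt_iff.2 (show m < a from lt_of_le_of_ne c fun g => f (g ▸ rfl))
      exact co_zero.2 (xNat_val S.x a t ▸ x_mem_US (show _ ∧ _ from ⟨h0.trans this, this⟩) t)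

namespace RF4

/-- equal collected forms -/
def CE (w w' : PW) : Prop := fastF4.col 2 50 3 w = fastF4.col 2 50 3 w'
/-- an exchanged pair of roots -/
def Ex (a b : ℕ) : Prop := a < 48 ∧ b < 48 ∧ exF4 a = [(b, 1, 2)] ∧ exF4 b = [(a, 1, 1)]
/-- data for a Suzuki class -/
def Ey (a b c d : ℕ) : Prop := Ex a b ∧ Ex c d ∧
  CE [(b, X 2), (a, X 3), (d, mul 2 (X 2) (pow 2 (X 3) 2))] [(a, X 3), (b, X 2), (c, mul 2 (X 3) (X 2))]
/-- commuting words -/
def CC (w w' : PW) : Prop := CE (w ++ w') (w' ++ w)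
/-- commutator word -/
def cw {α : Type*} (w w' : List α) : List α := w ++ (w' ++ (w.reverse ++ w'.reverse))
/-- data for a pair of roots in a Suzuki class -/
def Sz (k a b c d p q a' b' c' d' : ℕ) : Prop := Ey a b c d ∧ Ey a' b' c' d' ∧ Ex p q ∧ CE [(q, X 2), (p, X 3)] [(p, X 3), (q, X 2)] ∧
  CC [(p, X 3), (q, X 2)] [(a, X 7), (b, X 5), (c, mul 2 (X 7) (X 5))] ∧
  CC [(a', X 3), (b', X 2), (c', mul 2 (X 3) (X 2))] [(a, X 7), (b, X 5), (c, mul 2 (X 7) (X 5))] ∧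
  CE (cw [(p, mul 2 (X 3) (X 5)), (q, mul 2 (X 2) (pow 2 (X 7) 2))] [(a', C 2 1), (b', C 2 1), (c', C 2 1)] ++
    cw [(p, X 3), (q, X 2)] [(a', X 7), (b', X 5), (c', mul 2 (X 7) (X 5))])
    [(c, mul 2 (X 2) (mul 2 (X 7) (add 2 (X 7) (C 2 1)))), (d, mul 2 (pow 2 (X 3) 2) (mul 2 (X 5) (add 2 (X 5) (C 2 1))))] ∧
  (k = a ∧ a < b ∨ k = b ∧ b < a) ∧ k < c ∧ c < d

noncomputable instance instDecCE (w w' : PW) : Decidable (CE w w') := by unfold CE; infer_instance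
instance instDecEx (a b : ℕ) : Decidable (Ex a b) := by unfold Ex; infer_instance
noncomputable instance instDecEy (a b c d : ℕ) : Decidable (Ey a b c d) := by unfold Ey; infer_instance
noncomputable instance instDecCC (w w' : PW) : Decidable (CC w w') := by unfold CC; infer_instance
noncomputable instance instDecSz (k a b c d p q a' b' c' d' : ℕ) : Decidable (Sz k a b c d p q a' b' c' d') := by unfold Sz; infer_instance

theorem sz_all : Sz 25 27 25 28 30 14 23 29 41 44 47 ∧ Sz 31 35 31 40 46 37 32 34 26 36 42 ∧ Sz 29 29 41 44 47 39 45 20 22 19 17 ∧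
    Sz 26 34 26 36 42 38 43 12 16 7 1 := by decide +kernel

/-- first exponent -/
def e0 (A : ℤ × ℤ × ℤ × ℤ) (r : Root chevF4) : ℤ :=
  A.1 * wt r (nd _ 0) + A.2.2.1 * wt r (nd _ 1) + 2 * A.2.2.2 * wt r (nd _ 2) + 2 * A.2.1 * wt r (nd _ 3)
/-- second exponent -/
def e1 (A : ℤ × ℤ × ℤ × ℤ) (r : Root chevF4) : ℤ :=
  A.2.1 * wt r (nd _ 0) + A.2.2.2 * wt r (nd _ 1) + A.2.2.1 * wt r (nd _ 2) + A.1 * wt r (nd _ 3)
/-- cocharacters -/
def As : List (ℤ × ℤ × ℤ × ℤ) := [(0, 0, 1, 0), (1, 0, 1, 0), (1, 0, 1, 1), (0, 1, 1, 1), (1, 0, 0, 0), (1, 0, 0, 1), (1, 0, 2, 0)]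
/-- faithful action -/
abbrev Gd (A : ℤ × ℤ × ℤ × ℤ) (r : Root chevF4) : Prop := (2 : ℕ) * e1 A r ^ 2 - e0 A r ^ 2 ∣ 8
/-- separated pair -/
abbrev Sp (r s : Root chevF4) : Prop := ∃ A ∈ As, e0 A r = 0 ∧ e1 A r = 0 ∧ Gd A s

theorem data : ∀ a : Root chevF4, IsPos a → NM exF4 a ∨ (∃ A ∈ As, Gd A a) ∧ ∀ b < a, IsPos b → NM exF4 b ∨ Sp a b ∨ Sp b a ∨
    (b.1, a.1) ∈ [(25, 28), (31, 40), (29, 44), (26, 36)] := by decide +kernel

variable {e : ℕ} {θ : K ≃+* K} (F : ReeF 2 e θ) {S : StSys chevF4 K G} {σ : MulAut G} (h : IsTw S σ exF4 θ)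
include F

theorem CE.eq {w w' : PW} (c : CE w w') (t u : K) : wordG S.x (evW (v6 t (θ t) u (θ u) 0 0) w) = wordG S.x (evW (v6 t (θ t) u (θ u) 0 0) w') :=
  wordG_eq_of_col agreeF4 S.rel (two F) _ c

theorem ev_simp (t u : K) : let v := v6 t (θ t) u (θ u) 0 0
    ev v (X 2) = t ∧ ev v (X 3) = θ t ∧ ev v (X 5) = u ∧ ev v (X 7) = θ u ∧ ev v (C 2 1) = 1 ∧ (∀ a b, ev v (mul 2 a b) = ev v a * ev v b) ∧
      (∀ a b, ev v (add 2 a b) = ev v a + ev v b) ∧ ∀ a, ev v (pow 2 a 2) = ev v a ^ 2 :=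
  ⟨ev_X2 _, ev_X3 _, ev_X5 _, ev_X7 _, by simp [ev_C _ (two F)], ev_mul _ (two F), ev_add _ (two F), fun _ => ev_pow _ (two F) _ _⟩

theorem chi (A : ℤ × ℤ × ℤ × ℤ) (u : Kˣ) : ∃ t, ∀ r, chiOf (tor θ t) r = Units.map (θ : K →* K) u ^ e0 A r * u ^ e1 A r := by
  have h1 : Units.map (θ : K →* K) (Units.map (θ : K →* K) u) ^ (2 : ℤ) = u := Units.ext (by simpa using F.sq u)
  refine ⟨(u ^ A.1 * Units.map (θ : K →* K) u ^ (2 * A.2.1), u ^ A.2.2.1 * Units.map (θ : K →* K) u ^ (2 * A.2.2.2)), fun r =>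
    (Fin.prod_univ_four _).trans (show Units.map (θ : K →* K) _ ^ wt r (nd _ 0) * Units.map (θ : K →* K) _ ^ wt r (nd _ 1) *
      (_ * _) ^ wt r (nd _ 2) * (_ * _) ^ wt r (nd _ 3) = _ from ?_)⟩
  simp only [map_mul, map_zpow, zpow_mul, h1, e0, e1, zpow_add, mul_zpow]
  generalize wt r (nd _ 0) = a, wt r (nd _ 1) = b, wt r (nd _ 2) = c, wt r (nd _ 3) = d
  simp only [mul_comm, mul_left_comm, mul_assoc]

theorem Gd.inj {A : ℤ × ℤ × ℤ × ℤ} {r : Root chevF4} (c : Gd A r) {t : Kˣ} (e : Units.map (θ : K →* K) t ^ e0 A r * t ^ e1 A r = 1) : t = 1 := by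
  obtain ⟨k, hk⟩ := c
  refine F.eq_one (F.eq_one (F.eq_one ?_))
  rw [← pow_mul, ← pow_mul, ← zpow_natCast, show ((2 * (2 * 2) : ℕ) : ℤ) = 8 from rfl, hk, zpow_mul, F.zpow_eq_one e, one_zpow]

include h

theorem p_fix {p q : ℕ} (a : Ex p q) (b : CE [(q, X 2), (p, X 3)] [(p, X 3), (q, X 2)]) (t : K) : wordG S.x [(p, θ t), (q, t)] ∈ fixS σ := by
  rw [mem_fixS, h.wordG (L := [p, q]) rfl (by simpa using ⟨a.1, a.2.1⟩)]
  simpa [a.2.2, appW, F.sq, ev_simp F] using b.eq F (S := S) t t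

theorem y_fix {a b c d : ℕ} (E : Ey a b c d) (t : K) : wordG S.x [(a, θ t), (b, t), (c, θ t * t)] ∈ fixS σ := by
  rw [mem_fixS, h.wordG (L := [a, b, c]) rfl (by simpa using ⟨E.1.1, E.1.2.1, E.2.1.1⟩)]
  simpa [E.1.2.2, E.2.1.2.2, appW, F.sq, ev_simp F, mul_pow] using E.2.2.eq F (S := S) t t

theorem kill_sz (ht : ∃ t : Kˣ, t ≠ 1) {E : Type*} [Group E] {κ : E →* G} (hc : κ.ker ≤ Subgroup.center E) (hκ : κ.range = fixS σ)
    {k m : Root chevF4} (hk : IsPos k) (hm : IsPos m) {a b d p q a' b' c' d' : ℕ} (Z : Sz k a b m d p q a' b' c' d') :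
    Kill S (phiV _) (fixS σ) k m κ := by
  obtain ⟨z1, z2, z3, z4, z5, z6, z7, z8, z9, z10⟩ := Z
  obtain ⟨u, hu⟩ := ht
  refine kill_of_comm hc hκ fun s _ t _ => ?_
  obtain ⟨s, rfl⟩ : ∃ s', ([(a, θ s'), (b, s'), (m.1, θ s' * s')].map fun e => if e.1 = k.1 then e.2 else 0).sum = s := by
    rcases z8 with ⟨c, c'⟩ | ⟨c, c'⟩
    exacts [⟨θ.symm s, by simp [← c, z9.ne', (c ▸ c').ne']⟩, ⟨s, by simp [← c, z9.ne', (c ▸ c').ne']⟩]
  have h0 : θ u * (θ u + 1) ≠ 0 := mul_ne_zero (by simp) fun c => hu (Units.ext (θ.injective (by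
    rw [← add_add F (θ u) 1, c]; simp)))
  obtain ⟨t, rfl⟩ := mul_right_surjective₀ h0 t
  have h1 := fun t => Subgroup.mem_inf.2 ⟨(Subgroup.mem_centralizer_singleton_iff (g := wordG S.x [(a, θ s), (b, s), (m.1, θ s * s)])).2 (by
    simpa [ev_simp F, mul_assoc] using z5.eq F (S := S) t s), p_fix F h z3 z4 t⟩
  have h2 := fun t => Subgroup.mem_inf.2 ⟨(Subgroup.mem_centralizer_singleton_iff (g := wordG S.x [(a, θ s), (b, s), (m.1, θ s * s)])).2 (by
    simpa [ev_simp F, mul_assoc] using z6.eq F (S := S) t s), y_fix F h z2 t⟩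
  refine ⟨_, y_fix F h z1 s, _, mul_mem (Subgroup.commutator_mem_commutator (h1 (t * θ u ^ 2)) (h2 1))
    (Subgroup.commutator_mem_commutator (h1 t) (h2 u)), co_word hk _ (by
      have := z1.1.1; have := z1.1.2.1; have : chevF4.nroots = 48 := rfl; simp; omega), ?_⟩
  have h3 := z7.eq F (S := S) t u
  simp only [cw, evW, List.map_append, List.map_reverse, wordG_append, wordG_rev S.rel (two F), List.map_cons, List.map_nil, ev_simp F] at h3
  convert h3 ▸ co_word (S := S) hm [(m.1, t * (θ u * (θ u + 1))), (d, θ t ^ 2 * (u * (u + 1)))] (by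
    have := z1.2.1.2.1; simpa using ⟨z10.le, this⟩) using 1
  · simp only [commutatorElement_def, mul_assoc, map_mul, map_pow, F.sq, map_one, mul_one]
  · simp [z10.ne']

omit h in
theorem noStem {G : Type u} [Group G] {S : StSys chevF4 K G} {σ : MulAut G} (h : IsTw S σ exF4 θ) [Finite K] (hθ : Function.Injective S.θ)
    (hg : S.grp = ⊤) (hK : 4 < Nat.card K) : H15.NoStem 2 (fixS σ) := by
  have T := tw F h hg
  have h1 := card F h hθ hg
  have h2 := card_U F h hg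
  rw [eq_fix F h hθ hg] at T h2
  obtain ⟨u, hu⟩ := exists_unit_ne_one (K := K) (by omega)
  have a1 := fun m => vc_nm (E := fun r => (exF4 r).headI.2.2) h T (m := m) (by decide +kernel)
  have a2 : ∀ A (w : Kˣ), ∃ y ∈ S.H ⊓ fixS σ, ∀ r, S.Ac y r ↑(Units.map (θ : K →* K) w ^ e0 A r * w ^ e1 A r) := fun A w =>
    let ⟨t, e⟩ := chi F A w; ⟨_, (H_inf F h hθ).ge ⟨t, rfl⟩, fun r s => e r ▸ torS_conj S.hMul_of_finite (tor θ t) r s⟩
  have a4 : ∀ {E : Type u} [Group E] {κ : E →* G} {a b}, IsPos b → Sp a b → Kill S (phiV _) (fixS σ) a b κ := fun hb ⟨A, _, c, d, e⟩ =>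
    let ⟨_, a, f⟩ := a2 A u
    kill_sep (isPos_iff_phi.1 hb) a (by convert f _; simp [c, d]) (f _) fun g => hu (e.inj F (Units.ext g))
  refine noStem_of_kill Nat.prime_two (fun c => ?_) (fun E _ κ hc hκ a b ha hb => ?_) fun m hm => (data m hm).imp (a1 m hm)
    fun ⟨⟨A, _, a⟩, _⟩ => let ⟨y, b, e⟩ := a2 A u; ⟨y, b, _, fun g => hu (a.inj F (Units.ext g)), e m⟩
  · rw [← (S.U.subgroupOf _).card_mul_index, ← Subgroup.inf_subgroupOf_right,
      Nat.card_congr (Subgroup.subgroupOfEquivOfLe inf_le_right).toEquiv, h2, Subgroup.inf_subgroupOf_right, mul_assoc, mul_assoc, mul_assoc,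
      mul_right_inj' (by positivity)] at h1
    have := F.char
    obtain ⟨n, a, b⟩ := exists_card_eq (K := K) 2
    have h3 : Even (Nat.card K) := b ▸ (Nat.even_pow' a.ne').2 even_two
    refine Nat.not_even_iff_odd.2 ?_ (even_iff_two_dvd.2 (h1 ▸ c))
    simp [Nat.odd_mul, parity_simps, h3, Nat.odd_sub, Nat.one_le_pow, show 1 ≤ Nat.card K by omega]
  wlog hl : b ≤ a generalizing a b
  · exact (this b a hb ha (le_of_not_ge hl)).symm
  rcases data a ha with e | ⟨⟨A, -, e⟩, e'⟩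
  · exact kill_left (a1 a ha e)
  rcases hl.lt_or_eq with hl | rfl
  · rcases e' b hl hb with e | e | e | e
    exacts [kill_right (a1 b hb e), a4 hb e, (a4 ha e).symm, by
      simp only [List.mem_cons, Prod.mk.injEq, List.not_mem_nil, or_false] at e
      rcases e with ⟨c, d⟩ | ⟨c, d⟩ | ⟨c, d⟩ | ⟨c, d⟩
      exacts [(kill_sz F h ⟨u, hu⟩ hc hκ hb ha (by rw [c, d]; exact sz_all.1)).symm,
        (kill_sz F h ⟨u, hu⟩ hc hκ hb ha (by rw [c, d]; exact sz_all.2.1)).symm,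
        (kill_sz F h ⟨u, hu⟩ hc hκ hb ha (by rw [c, d]; exact sz_all.2.2.1)).symm,
        (kill_sz F h ⟨u, hu⟩ hc hκ hb ha (by rw [c, d]; exact sz_all.2.2.2)).symm]]
  have a7 : ∀ w : Kˣ, ∃ y ∈ S.H ⊓ fixS σ, S.Ac y b w := fun w => by
    obtain ⟨v, rfl⟩ := Finite.injective_iff_surjective.1 ((injective_iff_map_eq_one ((zpowGroupHom (e0 A b)).comp (Units.map (θ : K →* K)) *
      zpowGroupHom (e1 A b))).2 fun _ => e.inj F) w
    exact let ⟨y, a, c⟩ := a2 A v; ⟨y, a, c b⟩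
  have := Fintype.ofFinite K
  obtain ⟨v, c0, c1, c2⟩ := exists_trick (K := K) ⟨Finset.univ, by rwa [Finset.card_univ, Fintype.card_eq_nat_card]⟩
  obtain ⟨y, a, c⟩ := a7 (.mk0 v c0)
  obtain ⟨z, a', c'⟩ := a7 (.mk0 _ (sub_ne_zero.2 c1.symm))
  exact kill_self (isPos_iff_phi.1 ha) a a' c c' c0 c1 (by rwa [mul_sub, mul_one, ← sq])

end RF4

theorem mult_F4 [Finite K] {e : ℕ} {θ : K ≃+* K} (F : ReeF 2 e θ) (hK : 6 ≤ Nat.card K) : HasCyclicSchurMultiplier (twistedF4 K e) 1 := by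
  have := F.char
  obtain ⟨σ, h⟩ := exists_isTw_F4 θ
  have hθ := grpSys_θ_injective chevF4 K
  have hg := grpSys_grp chevF4 K
  have T := RF4.tw F h hg
  have hM := (RF4.wd F h).le_MF orbD_F4
  have h1 := RF4.eq_fix F h hθ hg
  refine T.mult_gen hM (torS_F4 _) (fun c hc => h1.ge (((RF4.H_inf F h hθ).trans (MonoidHom.range_comp ..)).ge ⟨c, RF4.Tf_eq F ▸ hc, rfl⟩).2)
    (commutator_eq_top_of (Subgroup.inclusion_injective _) (inclusion_range_gen _) (RF4.comm_eq F h hθ hg (exists_unit_ne_one (by omega))))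
    (T.mult (p := 2) hM (torS_F4 _) (rep := ![nd _ 3, nd _ 1]) (orbD_F4.rep (by decide)) (fun a b => ?_) (fun E _ _ κ C hκ r hr he a => ?_)
      (h1 ▸ RF4.noStem F h hθ hg (by omega))) (by rw [Subgroup.eq_bot_of_card_eq _ (kerF4 Kˣ), bot_inf_eq, Subgroup.card_bot]) (one_dvd 2)
  · simp only [Function.onFun, orbD_F4.orb, Set.disjoint_left, Set.mem_ofPred_eq]; revert a b; decide
  fin_cases a
  exacts [T.ri_od C hκ (Lx.odF4 F) (by decide +kernel), RF4.ri_sz F h hθ hg hK C (hκ.trans h1) hr he]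

end H11
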