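import Cfsg.Agent.H11.D42

/-! The Suzuki node of `²F₄`: the rank one condition `RF4.ri_sz`. -/

namespace H11
open Cfsg Cfsg.Lie Equiv StSys

universe u
variable {K : Type*} [Field K] {G E : Type*} [Group G] [Group E]

theorem exists_conj_le [Finite G] {R Y A : Subgroup G} {r : ℕ} [Fact r.Prime] (h : IsPGroup r R) (hR : R ≤ Y)
    (hA : ¬ r ∣ (A.subgroupOf Y).index) : ∃ y ∈ Y, ∀ g ∈ R, y⁻¹ * g * y ∈ A := by
  obtain ⟨y, hy⟩ := (h.comap_subtype (K := Y)).nonempty_fixed_point_of_prime_not_dvd_card (Y ⧸ A.subgroupOf Y) hA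
  obtain ⟨y, rfl⟩ := QuotientGroup.mk_surjective y
  exact ⟨y, y.2, fun g hg => by have := QuotientGroup.eq.1 (hy ⟨⟨g, hR hg⟩, hg⟩).symm; rw [mul_assoc]; exact this⟩

theorem isCyclic_of_conj {R A : Subgroup G} [IsCyclic A] {y : G} (h : ∀ g ∈ R, y⁻¹ * g * y ∈ A) : IsCyclic R :=
  isCyclic_of_injective (((MulAut.conj y⁻¹).toMonoidHom.comp R.subtype).codRestrict A fun g => by simpa using h g g.2)
    fun a b e => by simpa using congrArg Subtype.val e

theorem noStem_of_cyc {G : Type u} [Group G] [Finite G] {L : Subgroup G} {r : ℕ} [Fact r.Prime]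
    (h : ∀ R ≤ L, IsPGroup r R → IsCyclic R) : H15.NoStem r L := by
  obtain ⟨P⟩ : Nonempty (Sylow r L) := inferInstance
  have := h _ (Subgroup.map_subtype_le P.1) (P.2.map _)
  obtain ⟨a, ha⟩ := (isCyclic_of_injective (P.1.equivMapOfInjective _ L.subtype_injective).toMonoidHom
    (P.1.equivMapOfInjective _ L.subtype_injective).injective).exists_generator
  exact .of_cyc Fact.out a.1 fun e => P.not_dvd_index (e.trans (Subgroup.index_dvd_of_le fun g hg =>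
    let ⟨k, e⟩ := ha ⟨g, hg⟩; ⟨k, congrArg Subtype.val e⟩))

theorem Lh_inj {D : ChevalleyDatum} [Good D] {G E : Type u} [Group G] [Group E] [Finite E] {S : StSys D K G} {p r : ℕ} [Fact p.Prime] {κ : E →* G}
    (C : PF p κ) (hr : r.Prime) (he : ∀ z, κ z = 1 → z ^ r = 1) {J : Set (Node D)} (h : r ≠ p → H15.NoStem r ((Lh S p κ J).map κ))
    {z : E} (hz : z ∈ Lh S p κ J) (h1 : κ z = 1) : z = 1 := by
  rcases eq_or_ne r p with rfl | e
  · exact C.pf z h1 (he z h1)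
  have h2 : ∀ a ∈ (κ.subgroupMap (Lh S p κ J)).ker, κ a = 1 := fun a => congrArg Subtype.val
  refine congrArg Subtype.val ((h e _ (κ.subgroupMap _) ⟨κ.subgroupMap_surjective _, fun a ha => Subgroup.mem_center_iff.2 fun g =>
    Subtype.ext (Subgroup.mem_center_iff.1 (C.cent (h2 a ha)) g), fun a ha => ?_⟩ fun a ha => Subtype.ext (he _ (h2 a ha))).le
    (show ⟨z, hz⟩ ∈ MonoidHom.ker _ from Subtype.ext h1))
  obtain ⟨k, hk⟩ : PE p (Abelianization.of a) := Subgroup.closure_induction (p := fun a h => PE p (Abelianization.of (⟨a, h⟩ : Lh S p κ J)))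
    (fun a ⟨⟨k, e⟩, _⟩ => ⟨k, by rw [← map_pow, ← map_one Abelianization.of]; exact congrArg _ (Subtype.ext e)⟩) ⟨0, by rw [pow_zero, pow_one]; exact map_one _⟩
    (fun a b a' b' ⟨k, c⟩ ⟨l, d⟩ => ⟨k + l, (congrArg (· ^ _) (map_mul _ (⟨a, a'⟩ : Lh S p κ J) ⟨b, b'⟩)).trans (by
      rw [mul_pow, pow_add, pow_mul, c, mul_comm (p ^ k), pow_mul, d]; simp)⟩)
    (fun a a' ⟨k, c⟩ => ⟨k, (congrArg (· ^ _) (map_inv _ (⟨a, a'⟩ : Lh S p κ J))).trans (by rw [inv_pow, c, inv_one])⟩) a.2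
  have := pow_gcd_eq_one.2 ⟨hk, by rw [← map_pow, show a ^ r = 1 from Subtype.ext (he _ (h2 a ha)), map_one]⟩
  rw [(((Nat.coprime_primes Fact.out hr).2 e.symm).pow_left k).gcd_eq_one, pow_one] at this
  exact (Abelianization.ker_of _).le this

open Classical in
theorem StSys.SimpAct.poinF_orb {D : ChevalleyDatum} [Good D] [Cert D] {S : StSys D K G} {σ ρ c f} (h : S.SimpAct σ ρ c f) {R : Type*}
    [CommSemiring R] (i : Node D) (q : R) : h.poinF (orb ρ i) q = 1 + q ^ len sW (wJ (orb ρ i)) := by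
  rw [SimpAct.poinF, Finset.sum_eq_add_of_mem 1 (wJ (orb ρ i)) (by simp) (by simp) (wJ_ne_one ⟨i, mem_orb_self ρ i⟩).symm
    fun w _ a => if_neg fun b => (h.eq_or_of_par b.1 b.2).elim a.1 a.2, if_pos ⟨one_mem _, one_mem _⟩,
    if_pos ⟨h.wJ_orb_mem i, wJ_mem _⟩, len_one, pow_zero]

theorem exists_b2 [Finite K] [CharP K 2] (hK : 6 ≤ Nat.card K) {r : ℕ} (hr : r.Prime) (h2 : r ≠ 2) (h : r ∣ Nat.card K ^ 2 + 1) :
    ∃ a : chevB2.SteinbergGroup K, ¬ r ∣ (Subgroup.zpowers a).index := by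
  have := Fintype.ofFinite K
  obtain ⟨H, h1, h3, -⟩ := selfcent_untw (K := K) agreeB2 ⟨[[1, 2], [-1, -1]], [[1, 0], [-1, 1], [-1, 0]], [[1, 0], [1, 1]], [1, 0, 1]⟩
    [nd _ 0, nd _ 1] (by decide +kernel) (.inl (Fintype.card_eq_nat_card ▸ hK)) fun _ _ => torS_sgB2
  obtain ⟨b, hb⟩ := IsCyclic.exists_ofOrder_eq_natCard (α := H)
  obtain ⟨a, ha⟩ := θG_surjective (sgSys_grp chevB2 K) b
  have h4 : Nat.card K ^ 2 + 1 ∣ orderOf a := by
    refine .trans (dvd_of_eq ?_) (orderOf_map_dvd ((sgSys chevB2 K).θG (sgSys_grp _ _)) a)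
    rw [kerB2, odd_card_units, one_mul] at h3
    rw [ha, Subgroup.orderOf_coe, hb]
    zify; rw [h3]; simp [pv, Finset.sum_range_succ, fastB2, add_comm]
  refine ⟨a, fun e => ?_⟩
  have h5 := card_grp (S := sgSys chevB2 K)
  rw [sgSys_grp, Subgroup.card_top, ← (Subgroup.zpowers a).card_mul_index, Nat.card_zpowers, ← nodeSet_full (l := 2) rfl,
    show 2 ^ 2 - 1 = 3 from rfl, poinB2_3, poinB2_2, nodeSet_zero, poin_empty] at h5
  have h6 := (Nat.mul_dvd_mul h4 e).trans (h5.trans (show _ = (Nat.card K ^ 2 + 1) * (Nat.card K ^ 4 * Nat.card (sgSys chevB2 K).H *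
    (Nat.card K + 1) ^ 2) by rw [show chevB2.nroots / 2 = 4 from rfl]; ring)).dvd
  have h7 := card_H_dvd (S := sgSys chevB2 K)
  obtain ⟨n, hn⟩ : ∃ n, Nat.card K = n + 1 := ⟨Nat.card K - 1, by omega⟩
  rw [Nat.mul_dvd_mul_iff_left (by positivity), hr.dvd_mul, hr.dvd_mul] at h6
  rw [hn] at h h6 h7
  refine h2 ((Nat.prime_dvd_prime_iff_eq hr Nat.prime_two).1 ?_)
  rcases h6 with (c | c) | c
  · exact absurd ((Nat.dvd_add_right ((hr.dvd_of_dvd_pow c).trans (dvd_pow_self _ two_ne_zero))).1 h) hr.not_dvd_one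
  · exact (Nat.dvd_add_right ((hr.dvd_of_dvd_pow (c.trans h7)).mul_right (n + 2))).1 (by convert h using 1; simp; ring)
  · exact (Nat.dvd_add_right ((hr.dvd_of_dvd_pow c).mul_right n)).1 (by convert h using 1; ring)

namespace RF4
variable {e : ℕ} {θ : K ≃+* K} (F : ReeF 2 e θ) [Finite K] {S : StSys chevF4 K G} {σ : MulAut G} (h : IsTw S σ exF4 θ)
  (hθ : Function.Injective S.θ) (hg : S.grp = ⊤)

omit [Finite K] in
theorem le_cent : S.US {r | InJ (orb flipF4 (nd _ 1)) r} ≤ Subgroup.centralizer (S.US {r | r.1 ∈ [47]}) := fun a ha b hb =>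
  (commute_US (L := PF4 (nd _ 1) ++ NF4 (nd _ 1)) (by decide +kernel) a (US_mono (fun r hr => List.mem_append.2 ((em (IsPos r)).imp
    (fun c => ((orbD_F4.pos (nd _ 1)).1 r).2 ⟨c, hr⟩) fun c => ((orbD_F4.neg (nd _ 1)).1 r).2 ⟨c, hr⟩)) ha) b hb).symm

include F h hθ

theorem tor_of {y : G} (h1 : y ∈ S.H ⊓ fixS σ) (h2 : y ∈ Subgroup.centralizer (S.US {r | r.1 ∈ [47]})) :
    ∃ t, torS S.hMul_of_finite (tor θ (1, t)) = y := by
  obtain ⟨⟨s, t⟩, rfl⟩ := (H_inf F h hθ).le h1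
  have h3 := torS_conj S.hMul_of_finite (tor θ (s, t)) (rt _ 47) 1
  have h5 : S.x (rt _ 47) 1 * torS S.hMul_of_finite (tor θ (s, t)) = torS S.hMul_of_finite (tor θ (s, t)) * S.x (rt _ 47) 1 :=
    h2 _ (x_mem_US (List.mem_singleton_self _) 1)
  replace h3 := (mul_inv_eq_iff_eq_mul.2 h5.symm).symm.trans h3
  have h4 : ∀ i, wt (rt chevF4 47) i = if i = nd _ 3 then 1 else 0 := by decide +kernel
  obtain rfl : s = 1 := by
    have : tor θ (s, t) (nd _ 3) = 1 := by simpa [chiOf, h4] using (x_inj (congrArg S.θ h3)).symm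
    exact this
  exact ⟨t, rfl⟩

include hg

theorem cyc_sz (hK : 6 ≤ Nat.card K) {r : ℕ} [Fact r.Prime] (h2 : r ≠ 2) {R : Subgroup G} (hR : IsPGroup r R)
    (h1 : R ≤ S.US {r | InJ (orb flipF4 (nd _ 1)) r} ⊓ fixS σ) : IsCyclic R := by
  have := S.finite_of_gen hg
  have := F.char
  by_cases c : r ∣ Nat.card K ^ 2 + 1
  · obtain ⟨a, ha⟩ := exists_b2 hK Fact.out h2 c
    obtain ⟨f, hf⟩ := exists_sgn_hom S.hMul_of_finite (StRel.of_chk agreeB2 agreeF4 Nat.cast_zero chk_emB2 S.rel) (by decide +kernel)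
    have h3 : ∀ r : Root chevF4, r.1 ∈ PF4 (nd _ 1) ∨ r.1 ∈ NF4 (nd _ 1) → ∃ s : Root chevB2, emB2 s = [(r.1, 1, 1)] := by decide +kernel
    obtain ⟨y, -, hy⟩ := exists_conj_le hR (Y := f.range) (A := Subgroup.zpowers (f a)) (h1.trans (inf_le_left.trans (US_le.2 fun r hr t => by
      obtain ⟨s, e⟩ := h3 r ((em (IsPos r)).imp (fun c => ((orbD_F4.pos _).1 r).2 ⟨c, hr⟩) fun c => ((orbD_F4.neg _).1 r).2 ⟨c, hr⟩)
      exact ⟨_, (hf s t).trans (by simp [e, appW])⟩))) fun e => ha (e.trans ((Subgroup.index_dvd_of_le (by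
        rintro _ ⟨_, ⟨k, rfl⟩, rfl⟩; exact ⟨k, (map_zpow f a k).symm⟩)).trans (Subgroup.index_map_dvd _ f.rangeRestrict_surjective)))
    exact isCyclic_of_conj hy
  have T := tw F h hg
  rw [eq_fix F h hθ hg] at T
  obtain ⟨y, a, hy⟩ := exists_conj_le hR (Y := S.PJ (orb flipF4 (nd _ 1)) ⊓ fixS σ) (A := S.H ⊓ fixS σ)
    (h1.trans (inf_le_inf_right _ (US_le.2 fun _ => x_mem_PJ))) fun e => by
      have h3 := T.card_PJ (hq F h hg) (orb flipF4 (nd _ 1))
      rw [← ((S.H ⊓ fixS σ).subgroupOf _).card_mul_index, Nat.card_congr (Subgroup.subgroupOfEquivOfLe (inf_le_inf_right _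
        (H_le_B.trans (B_le_PJ _)))).toEquiv, SimpAct.poinF_orb, orbD_F4.len, show chevF4.nroots / 2 = 2 * 12 from rfl,
        show (PF4 (nd _ 1)).length = 2 * 2 from rfl, pow_mul, pow_mul, Real.sq_sqrt (Nat.cast_nonneg _), mul_right_comm, mul_comm] at h3
      norm_cast at h3
      rw [mul_left_inj' Nat.card_pos.ne'] at h3
      obtain ⟨n, -, hn⟩ := exists_card_eq (K := K) 2
      rcases (Fact.out : r.Prime).dvd_mul.1 (h3 ▸ e) with e | e
      · exact h2 ((Nat.prime_dvd_prime_iff_eq Fact.out Nat.prime_two).1 ((Fact.out : r.Prime).dvd_of_dvd_pow (hn ▸ (Fact.out : r.Prime).dvd_of_dvd_pow e)))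
      · exact c (add_comm 1 _ ▸ e)
  have h5 : ∀ s : Root chevF4, IsPos s → s.1 ∉ [47] → ∀ r u : Root chevF4, r.1 ∈ [s.1] → u.1 ∈ [47] →
    u ≠ r ∧ u ≠ r.rev ∧ chevF4.commTerms r u = [] := by decide +kernel
  have h4 : y ∈ Subgroup.normalizer (S.US {r | r.1 ∈ [47]} : Set G) := by
    refine (show S.PJ (orb flipF4 (nd _ 1)) ≤ Subgroup.normalizer (S.US {r | r.1 ∈ [47]} : Set G) from ?_) a.1
    rw [PJ_eq]
    refine sup_le (H_le_normalizer _) (US_le.2 fun s hs t => hs.elim (fun hs => ?_) fun hs =>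
      Subgroup.centralizer_le_normalizer _ (le_cent (x_mem_US hs t)))
    by_cases c : s.1 ∈ [47]
    · exact Subgroup.le_normalizer (x_mem_US c t)
    · exact Subgroup.centralizer_le_normalizer _ fun b hb => (commute_US (L := [s.1]) (h5 s hs c) _
        (x_mem_US (by simp) t) b hb).symm
  let φ : Kˣ →* G := ((torS S.hMul_of_finite).comp (tor θ)).comp (MonoidHom.inr _ _)
  have := isCyclic_of_surjective _ φ.rangeRestrict_surjective
  exact isCyclic_of_conj (A := φ.range) (y := y) fun g a => tor_of F h hθ (hy g a) fun b hb => by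
    have := le_cent (h1 a).1 _ ((h4 b).1 hb)
    calc _ = y⁻¹ * (y * b * y⁻¹ * g) * y := by group
      _ = _ := by rw [this]; group

end RF4

theorem RF4.ri_sz {G E : Type u} [Group G] [Group E] [Finite E] {e : ℕ} {θ : K ≃+* K} (F : ReeF 2 e θ) [Finite K] {S : StSys chevF4 K G}
    {σ : MulAut G} (h : IsTw S σ exF4 θ) (hθ : Function.Injective S.θ) (hg : S.grp = ⊤) (hK : 6 ≤ Nat.card K) {κ : E →* G} (C : PF 2 κ)
    (hκ : κ.range = fixS σ) {r : ℕ} (hr : r.Prime) (he : ∀ z, κ z = 1 → z ^ r = 1) : RI S 2 κ (orb flipF4 (nd _ 1)) := fun z hz h1 => by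
  have := S.finite_of_gen hg
  have := Fact.mk hr
  have h2 : (Lh S 2 κ (orb flipF4 (nd _ 1))).map κ ≤ S.US {r | InJ (orb flipF4 (nd _ 1)) r} ⊓ fixS σ :=
    le_inf (Subgroup.map_le_iff_le_comap.2 ((Subgroup.closure_le _).2 fun a b =>
      b.2.elim (fun c => US_mono (fun _ (a : _ ∈ PosJ _) => a.2) c) fun c => US_mono (fun _ (a : _ ∈ NegJ _) => a.2) c)) (hκ ▸ Subgroup.map_le_range _ _)
  obtain ⟨t, ht⟩ := RF4.tor_of F h hθ ⟨h1, hκ.le ⟨z, rfl⟩⟩ (RF4.le_cent (h2 ⟨z, hz, rfl⟩).1)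
  refine ⟨_, fun j hj => ?_, ht.symm, fun c => Lh_inj C hr he (fun c => noStem_of_cyc fun R a b =>
    RF4.cyc_sz F h hθ hg hK c b (a.trans h2)) hz (by rw [← ht, c, map_one])⟩
  rw [orbD_F4.orb] at hj
  fin_cases j
  exacts [map_one (Units.map (θ : K →* K)), absurd (by decide) hj, absurd (by decide) hj, rfl]

end H11
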