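import Cfsg.Agent.H23.Y0
import Cfsg.Agent.H10.FzF

/-! Part Sg of S5569 (namespace `H11.YS`). -/

set_option autoImplicit false

namespace H11.YS
open Subgroup H10.FzF
universe u

theorem sg : Cfsg.Agent.H23.Y.SgStmt.{u} := by
  intro G _ _ A M B D z t Ω τ σ e p7 h r he cN ht t2 c12
  let φ : M →* Cfsg.M24 := (e.permCongrHom.toMonoidHom.comp σ).codRestrict _ he
  have φ1 : ∀ m, φ m = 1 ↔ m.1 ∈ A := fun m =>
    (Subtype.ext_iff.trans (map_eq_one_iff e.permCongrHom e.permCongrHom.injective)).trans (ker h r m)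
  have cM : Nat.card Cfsg.M24 = 244823040 := Cfsg.Agent.S0364.result
  have : Finite Cfsg.M24 := Nat.finite_of_card_ne_zero (by rw [cM]; norm_num)
  have : Finite Ω := Nat.finite_of_card_ne_zero (by rw [r.card]; norm_num)
  have sur : φ.range = ⊤ := eq_top_of_card_eq _ (by
    have a := φ.ker.card_mul_index
    rw [index_ker, show φ.ker = A.subgroupOf M from Subgroup.ext φ1, Nat.card_congr (subgroupOfEquivOfLe h.AM).toEquiv, h.cA, cN] at a
    omega)
  have tt : (⟨t, ht⟩ : M) * ⟨t, ht⟩ = 1 := Subtype.ext t2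
  obtain ⟨g', g1, g7, gc⟩ := p7 (φ ⟨t, ht⟩) (by rw [← map_mul, tt, map_one]) (by
    by_contra! n
    have n' : ∀ i, σ ⟨t, ht⟩ i ≠ i := fun i q => n (e i) (show e (σ ⟨t, ht⟩ (e.symm (e i))) = e i by rw [e.symm_apply_apply, q])
    have ss : ∀ i, σ ⟨t, ht⟩ (σ ⟨t, ht⟩ i) = i := fun i => by rw [← Equiv.Perm.mul_apply, ← map_mul, tt, map_one, Equiv.Perm.one_apply]
    have k : ∀ x : {x | x ∈ D ∧ t * x = x * t}, ∃ i, x.1 = τ i (σ ⟨t, ht⟩ i) := fun ⟨x, xD, xt⟩ => by
      obtain ⟨i, j, ij, rfl⟩ := r.surj x xD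
      have a := r.act ⟨t, ht⟩ i j
      rw [show ((⟨t, ht⟩ : M) : G) = t from rfl, xt, mul_inv_cancel_right] at a
      rcases r.inj _ _ _ _ ij a with q | q
      · exact absurd q.1.symm (n' i)
      · exact ⟨i, congrArg (τ i) q.2⟩
    choose f hf using k
    have fi : ∀ x y, f x = f y → x = y := fun x y q => Subtype.ext (by rw [hf x, hf y, q])
    have fn : ∀ x y, f x ≠ σ ⟨t, ht⟩ (f y) := fun x y q => by
      have : x = y := Subtype.ext (by rw [hf x, hf y, q, ss, r.symm])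
      exact n' (f y) (by rw [← q, this])
    have := Nat.card_le_card_of_injective (fun a : {x | x ∈ D ∧ t * x = x * t} × Bool => if a.2 then σ ⟨t, ht⟩ (f a.1) else f a.1)
      fun ⟨x, a⟩ ⟨y, b⟩ q => by
        cases a <;> cases b <;> simp only [if_true, if_false, Bool.false_eq_true] at q
        · rw [fi x y q]
        · exact absurd q (fn x y)
        · exact absurd q.symm (fn y x)
        · rw [fi x y ((σ _).injective q)]
    rw [Nat.card_prod, Nat.card_coe_set_eq, r.card, Nat.card_eq_fintype_card, Fintype.card_bool] at this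
    omega)
  obtain ⟨g, rfl⟩ := sur.ge (mem_top g')
  refine ⟨g, g.2, fun a => g1 ((φ1 g).2 a), (φ1 (g ^ 7)).1 (by rw [map_pow, g7]), (φ1 ((⟨t, ht⟩ : M)⁻¹ * (g * ⟨t, ht⟩ * g⁻¹))).1 ?_⟩
  rw [map_mul, map_mul, map_mul, gc, map_inv, map_inv, mul_inv_cancel_right, inv_mul_cancel]

end H11.YS
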